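import Cfsg.Agent.WreathForm14.Position
import Cfsg.Agent.UnitTensor96.Flip
import Cfsg.Agent.UnitTensor96.Dihedral
import Cfsg.Agent.Frobenius.Complement
import Cfsg.Agent.Frobenius.Linear

/-!
With only scalar coefficients every element is monomial.
-/

set_option autoImplicit false
set_option linter.unusedSectionVars false

namespace CfsgLib.WreathForm14

open Matrix Module
open CfsgLib.TensorMax (InM rootMap pure pure_mulVec memb mem_memb pure_mem_memb pure_eq_zero_iff)
open CfsgLib.UnitCentres (Iso exists_traceZero add_right smul_right zero_left zero_right sub_left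
  sub_right orth_comm norm_fixed exists_orth_sep)
open CfsgLib.UnitTensor96 (exists_partner exists_iso_dual exists_iso_conn span_iso exists_iso_mem
  exists_flip_core conj_or_central)
open CfsgLib.WreathTensor14 (TV pv slot slot_pv monoGroup smemb symm_pure_mem mem_smemb finrank_smemb
  exists_member_image linearMap_ext_pv mem_mono_one)

variable {F : Type*} [Field F] [Finite F] {τ : F ≃+* F} {m s : ℕ}
  {f : (Fin m → F) → (Fin m → F) → F}
  {M : Subgroup (TV F m (s + 1) ≃ₗ[F] TV F m (s + 1))}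

namespace Pos

variable {g : TV F m (s + 1) ≃ₗ[F] TV F m (s + 1)} {k j : Fin (s + 1)} {v w : Fin m → F}
  (H : Pos τ f M g k v j w)
include H

/-- Odd characteristic. -/
theorem plane_odd (h2 : (2 : F) ≠ 0) : Plane f g k v j w := by
  by_contra hP'
  have hB := pform_unitary H.base.uf (s + 1)
  obtain ⟨P, hP⟩ := H.exists_P
  obtain ⟨c, hc0, hc⟩ := exists_traceZero H.base.uf
  obtain ⟨x, hx, hxv, hxi⟩ := exists_root H.base j H.hw H.hww hc
  obtain ⟨y, hy, hyv, hyi⟩ := H.exists_y hP hc
  set T := (smemb k v).map g.toLinearMap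
  set U := smemb j w
  set L := moveGroup τ f M (T ⊔ U) (T ⊓ U)
  let ρ : (TV F m (s + 1) ≃ₗ[F] TV F m (s + 1)) →* Module.End F (TV F m (s + 1)) :=
    { toFun := fun e => e.toLinearMap
      map_one' := rfl
      map_mul' := fun _ _ => rfl }
  have : Finite (TV F m (s + 1) ≃ₗ[F] TV F m (s + 1)) :=
    Finite.of_injective (fun e => (e : TV F m (s + 1) → TV F m (s + 1))) DFunLike.coe_injective
  have hPT : ∀ t ∈ T, P t = 0 := fun t ht => (H.P_eq_zero_iff hP t).2 (H.isoT t ht)
  have hNU : ∀ u ∈ U, nW f j w u = 0 := fun u hu => nW_eq_zero H.base H.hww hu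
  have hxL : x ∈ L := ⟨hx, hxi, fun z => by
    rw [hxv, add_sub_cancel_left]
    exact Submodule.mem_sup_right (U.smul_mem c (nW_mem j w z)), fun z hz => by
    rw [hxv, hNU z hz.2, smul_zero, add_zero]⟩
  have hyL : y ∈ L := ⟨hy, hyi, fun z => by
    rw [hyv, add_sub_cancel_left]
    exact Submodule.mem_sup_left (T.smul_mem c (H.P_mem hP z)), fun z hz => by
    rw [hyv, hPT z hz.1, smul_zero, add_zero]⟩
  have hzero : ∀ {L' : TV F m (s + 1) →ₗ[F] TV F m (s + 1)} {Y}, (c • L') Y = 0 → L' Y = 0 :=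
    fun {L' Y} h => (smul_eq_zero.1 h).resolve_left hc0
  have hrigid : ∀ e ∈ L, (∀ Y, ρ e (ρ e Y) = Y) → (∀ u ∈ U, ρ e u = u) → (∀ t ∈ T, ρ e t = t) →
      (∀ Y, (c • nW f j w) Y = 0 → (c • P) Y = 0 → ρ e Y = Y) → e = 1 := by
    intro e he hee heU heT heO
    refine LinearEquiv.ext fun Y => ?_
    change e Y = Y
    have hbd : ∀ X, e X = X → pform τ f (s + 1) (e Y - Y) X = 0 := fun X hX => by
      rw [sub_left hB]
      nth_rw 1 [← hX]
      rw [he.2.1, sub_self]
    have h1 : e (e Y - Y) = e Y - Y := heO _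
      (by rw [LinearMap.smul_apply, (nW_eq_zero_iff H.base j H.hw _).2 fun u hu => hbd u (heU u hu),
        smul_zero])
      (by rw [LinearMap.smul_apply, (H.P_eq_zero_iff hP _).2 fun t ht => hbd t (heT t ht), smul_zero])
    rw [map_sub, show e (e Y) = Y from hee Y] at h1
    have h3 : (2 : F) • (e Y - Y) = 0 := by
      rw [two_smul]
      nth_rw 1 [← h1]
      abel
    exact sub_eq_zero.1 ((smul_eq_zero.1 h3).resolve_left h2)
  obtain ⟨e, he, -, -, heU, -, hne⟩ := exists_flip_core (T := T) (U := U) (P := c • P)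
    (N := c • nW f j w) (fun Y => T.smul_mem c (H.P_mem hP Y)) (fun Y => U.smul_mem c (nW_mem j w Y))
    (fun {u} hu => by rw [LinearMap.smul_apply, hNU u hu, smul_zero])
    (fun {t} ht => by rw [LinearMap.smul_apply, hPT t ht, smul_zero])
    (fun t ht h => H.backT ht ((T.smul_mem_iff hc0).1 h))
    (fun u hu h => H.backU hP hu ((U.smul_mem_iff hc0).1 h))
    H.hnle h2 ρ (M := L) hyL hxL hyv hxv hrigid
  rcases H.stab_cases he heU with ⟨l, -, hl⟩ | hpl
  · exact hne fun u hu => by
      change e u = u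
      rw [hl, hNU u hu, smul_zero, add_zero]
  · exact hP' hpl

set_option maxHeartbeats 800000 in
/-- A root group with at least three elements in characteristic two. -/
theorem plane_small (h2 : (2 : F) = 0) (hl : ∃ l : F, τ l = l ∧ l ≠ 0 ∧ l ≠ 1) :
    Plane f g k v j w := by
  by_contra hP'
  obtain ⟨P, hP⟩ := H.exists_P
  set T := (smemb k v).map g.toLinearMap
  set U := smemb j w
  set L := moveGroup τ f M (T ⊔ U) (T ⊓ U)
  set G2 := Subgroup.closure
    ({e : TV F m (s + 1) ≃ₗ[F] TV F m (s + 1) |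
        ∃ c, c + τ c = 0 ∧ ∀ z, e z = z + c • nW f j w z} ∪
      {e | ∃ c, c + τ c = 0 ∧ ∀ z, e z = z + c • P z})
  have hG2 : G2 ≤ L := by
    rw [Subgroup.closure_le]
    rintro e (⟨c, hc, he⟩ | ⟨c, hc, he⟩)
    · obtain ⟨x, hx, hxv, hxi⟩ := exists_root H.base j H.hw H.hww hc
      obtain rfl : e = x := LinearEquiv.ext fun z => by rw [he, hxv]
      exact ⟨hx, hxi, fun z => by
        rw [hxv, add_sub_cancel_left]
        exact Submodule.mem_sup_right (U.smul_mem c (nW_mem j w z)), fun z hz => by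
        rw [hxv, nW_eq_zero H.base H.hww hz.2, smul_zero, add_zero]⟩
    · obtain ⟨y, hy, hyv, hyi⟩ := H.exists_y hP hc
      obtain rfl : e = y := LinearEquiv.ext fun z => by rw [he, hyv]
      exact ⟨hy, hyi, fun z => by
        rw [hyv, add_sub_cancel_left]
        exact Submodule.mem_sup_left (T.smul_mem c (H.P_mem hP z)), fun z hz => by
        rw [hyv, (H.P_eq_zero_iff hP z).2 (H.isoT z hz.1), smul_zero, add_zero]⟩
  let Kst : Subgroup G2 :=
    { carrier := {h | U.map (h : TV F m (s + 1) ≃ₗ[F] TV F m (s + 1)).toLinearMap = U}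
      one_mem' := Submodule.map_id _
      mul_mem' := fun {a b} ha hb => by
        change U.map ((a : TV F m (s + 1) ≃ₗ[F] TV F m (s + 1)).toLinearMap ∘ₗ
          (b : TV F m (s + 1) ≃ₗ[F] TV F m (s + 1)).toLinearMap) = _
        rw [Submodule.map_comp, show _ = _ from hb]
        exact ha
      inv_mem' := fun {a} ha => by
        change U.map (a : TV F m (s + 1) ≃ₗ[F] TV F m (s + 1)).symm.toLinearMap = _
        conv_lhs => rw [← show _ = _ from ha]
        rw [← Submodule.map_comp, show (a : TV F m (s + 1) ≃ₗ[F] TV F m (s + 1)).symm.toLinearMap ∘ₗ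
          (a : TV F m (s + 1) ≃ₗ[F] TV F m (s + 1)).toLinearMap = LinearMap.id from
          LinearMap.ext fun z => LinearEquiv.symm_apply_apply _ z, Submodule.map_id] }
  have hform : ∀ h : G2, h ∈ Kst → ∃ c, c + τ c = 0 ∧ ∀ z, h.1 z = z + c • nW f j w z := fun h hh =>
    (H.stab_cases (hG2 h.2) fun z hz => (show _ = _ from hh).le ⟨z, hz, rfl⟩).resolve_right hP'
  -- a trivial intersection subgroup
  have hTI : ∀ h : G2, h ∈ Kst → ∀ a : G2, a ∉ Kst → a⁻¹ * h * a ∈ Kst → h = 1 := by
    intro h hh a ha hha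
    by_contra hne
    obtain ⟨c, -, hhv⟩ := hform h hh
    have hc0 : c ≠ 0 := fun h0 => hne (Subtype.ext (LinearEquiv.ext fun z => by
      rw [hhv, h0, zero_smul, add_zero]; rfl))
    obtain ⟨haM, -, hamove, hafix⟩ := hG2 a.2
    set P1 := U.map (a : TV F m (s + 1) ≃ₗ[F] TV F m (s + 1)).toLinearMap
    have hNP : ∀ z ∈ P1, nW f j w z ∈ P1 := by
      rintro _ ⟨z, hz, rfl⟩
      have h1 : h.1 ((a : TV F m (s + 1) ≃ₗ[F] TV F m (s + 1)) z) ∈ P1 := by
        refine ⟨(a⁻¹ * h * a : G2).1 z, (show _ = _ from hha).le ⟨z, hz, rfl⟩, ?_⟩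
        simp only [Subgroup.coe_mul, Subgroup.coe_inv, LinearEquiv.coe_coe, LinearEquiv.mul_apply]
        exact LinearEquiv.apply_symm_apply _ _
      rw [hhv] at h1
      exact (P1.smul_mem_iff hc0).1 ((P1.add_mem_iff_right ⟨z, hz, rfl⟩).1 h1)
    have hP1W : P1 ≤ T ⊔ U := by
      rintro _ ⟨z, hz, rfl⟩
      rw [LinearEquiv.coe_coe, ← sub_add_cancel ((a : TV F m (s + 1) ≃ₗ[F] _) z) z]
      exact Submodule.add_mem _ (hamove z) (Submodule.mem_sup_right hz)
    have hCle : T ⊓ U ≤ P1 ⊓ U := fun z hz => ⟨⟨z, hz.2, hafix z hz⟩, hz.2⟩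
    have hP1dim : finrank F P1 = m ^ s := by
      rw [LinearEquiv.finrank_map_eq, finrank_smemb _ H.hw]
    obtain ⟨u, hu, huU⟩ : ∃ u ∈ P1, u ∉ U := SetLike.not_le_iff_exists.1 fun hle =>
      ha (Submodule.eq_of_le_of_finrank_le hle (by rw [hP1dim, finrank_smemb _ H.hw]))
    have hamono : (a : TV F m (s + 1) ≃ₗ[F] TV F m (s + 1)) ∈ monoGroup F m (s + 1) := by
      refine mono_of_meet H.base H.sc H.IH H.hd haM H.hw H.hww (j := j) (k := j) H.hw H.hww
        ((T ⊓ U) ⊔ Submodule.span F {u})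
        (sup_le (fun z hz => (hCle hz).1) ((Submodule.span_singleton_le_iff_mem _ _).2 hu)) ?_
        fun z hz => ?_
      · exact Submodule.finrank_lt_finrank_of_lt (lt_of_le_not_ge le_sup_left fun h =>
          huU (h (Submodule.mem_sup_right (Submodule.mem_span_singleton_self u))).2)
      · obtain ⟨p, hp, q, hq, rfl⟩ := Submodule.mem_sup.1 hz
        obtain ⟨r, rfl⟩ := Submodule.mem_span_singleton.1 hq
        rw [map_add, map_smul, nW_eq_zero H.base H.hww hp.2, zero_add]
        exact P1.smul_mem r (hNP u hu)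
    obtain ⟨k', w', hw', hkw⟩ := exists_member_image hamono j H.hw
    have hkw' : P1 = smemb k' w' := hkw
    have hker : ∀ z ∈ P1, nW f j w z = 0 → z ∈ U := fun z hz h0 => H.inter_ker (hP1W hz) h0
    by_cases hkj : k' = j
    · subst hkj
      have hfw : f w' w ≠ 0 := fun h0 => huU (hker u hu (nW_eq_zero H.base h0 (hkw' ▸ hu)))
      have hdis : smemb k' w' ⊓ U = ⊥ := (Submodule.eq_bot_iff _).2 fun x hx => by
        obtain ⟨p, hp⟩ := mem_memb.1 hx.1
        rw [LinearEquiv.coe_coe] at hp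
        have h1 := nW_eq_zero H.base H.hww hx.2
        rw [nW_apply, ← hp, ctr_pure H.base.uf, LinearEquiv.map_eq_zero_iff, pure_eq_zero_iff H.hw,
          smul_eq_zero] at h1
        rw [← (slot k').map_eq_zero_iff, ← hp, h1.resolve_left hfw, pure_zero_l]
      have hC : T ⊓ U = ⊥ := le_bot_iff.1 (hCle.trans (by rw [hkw', hdis]))
      refine hP' ⟨hC, w', hfw, ?_⟩
      have hle : U ⊔ smemb k' w' ≤ T ⊔ U := sup_le le_sup_right (hkw' ▸ hP1W)
      refine le_sup_left.trans (Submodule.eq_of_le_of_finrank_le hle ?_).ge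
      have h1 := Submodule.finrank_sup_add_finrank_inf_eq U (smemb k' w')
      have h2' := Submodule.finrank_sup_add_finrank_inf_eq T U
      rw [inf_comm, hdis, finrank_bot, finrank_smemb _ H.hw, finrank_smemb _ hw'] at h1
      rw [hC, finrank_bot, finrank_smemb _ H.hw, LinearEquiv.finrank_map_eq,
        finrank_smemb _ H.hv] at h2'
      omega
    · -- a member of another factor
      obtain ⟨a₁, ha₁, ha₁'⟩ := exists_aniso_orth H.base.uf (by simpa using H.base.three) w
      have hd0 : a₁ ≠ 0 := fun h0 => zero_ne_one (by rw [← ha₁', h0, zero_left H.base.uf])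
      set x : Fin (s + 1) → Fin m → F := Function.update (fun _ => w') j a₁
      have hx : ∀ i, x i ≠ 0 := fun i => by
        rcases eq_or_ne i j with rfl | h' <;> simp [x, *]
      have hxP : pv x ∈ P1 := by
        rw [hkw', mem_smemb, slot_pv, show x k' = w' by simp [x, hkj]]
        exact pure_mem_memb _ _
      have h1 := hker _ hxP (by
        rw [nW_apply, slot_pv, show x j = a₁ by simp [x], ctr_pure H.base.uf, ha₁, zero_smul,
          pure_zero_l, map_zero])
      have h2' := ctr_memb H.base.uf (orth_comm H.base.uf ha₁) (mem_smemb.1 h1)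
      rw [slot_pv, show x j = a₁ by simp [x], ctr_pure H.base.uf, ha₁', one_smul] at h2'
      exact WreathTensor14.pv_ne_zero (fun i => hx _) h2'
  -- the root group
  let W : AddSubgroup F :=
    { carrier := {c | c + τ c = 0}
      add_mem' := fun {a b} ha hb => by
        simp only [Set.mem_setOf_eq, map_add] at *
        linear_combination ha + hb
      zero_mem' := by simp
      neg_mem' := fun {a} ha => by
        simp only [Set.mem_setOf_eq, map_neg] at *
        linear_combination -ha }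
  let R : W → (TV F m (s + 1) ≃ₗ[F] TV F m (s + 1)) := fun c =>
    LinearEquiv.ofLinearMap (LinearMap.id + c.1 • nW f j w) (LinearMap.id - c.1 • nW f j w)
      (LinearMap.ext fun z => by simp [nW_nW H.base j H.hww])
      (LinearMap.ext fun z => by simp [nW_nW H.base j H.hww])
  have hR : ∀ (c : W) z, R c z = z + c.1 • nW f j w z := fun c z => rfl
  have hRG : ∀ c, R c ∈ G2 := fun c => Subgroup.subset_closure (Or.inl ⟨c.1, c.2, hR c⟩)
  have hRK : ∀ c, (⟨R c, hRG c⟩ : G2) ∈ Kst := fun c => by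
    refine Submodule.eq_of_le_of_finrank_le ?_ (by rw [LinearEquiv.finrank_map_eq])
    rintro _ ⟨z, hz, rfl⟩
    rw [LinearEquiv.coe_coe, hR]
    exact U.add_mem hz (U.smul_mem _ (nW_mem j w z))
  let ρ : Multiplicative W →* Kst :=
    MonoidHom.mk' (fun c => ⟨⟨R c.toAdd, hRG _⟩, hRK _⟩) fun a b =>
      Subtype.ext (Subtype.ext (LinearEquiv.ext fun z => by
        simp only [Subgroup.coe_mul, LinearEquiv.mul_apply, hR, toAdd_mul, AddSubgroup.coe_add,
          map_add, map_smul, nW_nW H.base j H.hww, smul_zero, add_zero, add_smul]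
        abel))
  obtain ⟨Y₀, hY₀⟩ : ∃ Y, nW f j w Y ≠ 0 := by
    by_contra! h
    refine H.hw ?_
    have h1 := range_nW H.base j H.hw
    rw [show nW f j w = 0 from LinearMap.ext h, LinearMap.range_zero] at h1
    have h2' := finrank_smemb (F := F) j H.hw
    rw [← h1, finrank_bot] at h2'
    exact absurd h2' (pow_pos (show 0 < m by have := H.base.three; omega) s).ne
  have hρ : Function.Injective ρ := by
    intro a b hab
    refine Multiplicative.toAdd.injective (Subtype.ext ?_)
    have := LinearEquiv.congr_fun (congrArg (fun e : Kst => (e : G2).1) hab) Y₀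
    simp only [ρ, MonoidHom.mk'_apply, hR, add_right_inj] at this
    exact smul_left_injective F hY₀ this
  obtain ⟨c₀, hc₀, hcσ⟩ := exists_traceZero H.base.uf
  have hFC : Cfsg.IsFrobeniusComplement Kst := by
    refine ⟨fun hbot => ?_, fun htop => ?_, fun a ha => ?_⟩
    · have h1 : ρ (Multiplicative.ofAdd ⟨c₀, hcσ⟩) = 1 :=
        Subtype.ext ((Subgroup.eq_bot_iff_forall _).1 hbot _ (Subtype.prop _))
      have h2' := hρ (h1.trans (map_one ρ).symm)
      exact hc₀ (congrArg Subtype.val (congrArg Multiplicative.toAdd h2'))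
    · obtain ⟨y, -, hyv, -⟩ := H.exists_y hP hcσ
      have hy : y ∈ G2 := Subgroup.subset_closure (Or.inr ⟨c₀, hcσ, hyv⟩)
      obtain ⟨c, -, hcv⟩ := hform ⟨y, hy⟩ (htop ▸ Subgroup.mem_top _)
      refine H.hnle fun t ht => ?_
      obtain ⟨Y, rfl⟩ := H.P_surj hP ht
      have h1 : c₀ • P Y = c • nW f j w Y := add_left_cancel ((hyv Y).symm.trans (hcv Y))
      exact (U.smul_mem_iff hc₀).1 (h1 ▸ U.smul_mem c (nW_mem j w Y))
    · rw [eq_bot_iff]
      intro h hh
      rw [Subgroup.mem_inf, Subgroup.mem_pointwise_smul_iff_inv_smul_mem, MulAut.smul_def] at hh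
      rw [Subgroup.mem_bot]
      refine hTI h hh.1 a ha ?_
      simpa using hh.2
  have : Finite (TV F m (s + 1) ≃ₗ[F] TV F m (s + 1)) :=
    Finite.of_injective (fun e => (e : TV F m (s + 1) → TV F m (s + 1))) DFunLike.coe_injective
  obtain ⟨r, _, e, ρ', he, -, hρ'⟩ := CfsgLib.Frobenius.exists_prime_rep hFC
  have : Nonempty (Fin e) := ⟨⟨0, he⟩⟩
  have hcyc : IsCyclic ρ.range := CfsgLib.Frobenius.Linear.isCyclic_subgroup_of_comm hρ' _
    ⟨⟨by rintro ⟨_, a, rfl⟩ ⟨_, b, rfl⟩; exact Subtype.ext (by simp only [Subgroup.coe_mul, ← map_mul, mul_comm])⟩⟩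
  obtain ⟨c, hc⟩ := hcyc.exists_ofOrder_eq_natCard
  have hle : Nat.card ρ.range ≤ 2 := by
    rw [← hc]
    refine orderOf_le_of_pow_eq_one two_pos ?_
    obtain ⟨_, a, rfl⟩ := c
    refine Subtype.ext ?_
    rw [SubmonoidClass.coe_pow, ← map_pow, show a ^ 2 = 1 from Multiplicative.toAdd.injective (by
      rw [toAdd_pow, toAdd_one]
      refine Subtype.ext ?_
      rw [AddSubgroup.coe_nsmul, AddSubgroup.coe_zero, two_nsmul, ← two_mul, h2, zero_mul]),
      map_one]
    rfl
  rw [← Nat.card_congr (MonoidHom.ofInjective hρ).toEquiv, Nat.card_congr Multiplicative.toAdd] at hle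
  obtain ⟨l, hlτ, hl0, hl1⟩ := hl
  classical
  have := Fintype.ofFinite W
  rw [Nat.card_eq_fintype_card] at hle
  refine absurd (Fintype.two_lt_card_iff.2 ?_) (not_lt.2 hle)
  refine ⟨0, ⟨c₀, hcσ⟩,
    ⟨l * c₀, show l * c₀ + τ (l * c₀) = 0 by rw [map_mul, hlτ, ← mul_add, hcσ, mul_zero]⟩, ?_, ?_, ?_⟩
  · exact fun h => hc₀ (congrArg Subtype.val h).symm
  · exact fun h => mul_ne_zero hl0 hc₀ (congrArg Subtype.val h).symm
  · exact fun h => hl1 (mul_right_cancel₀ hc₀ ((congrArg Subtype.val h).symm.trans (one_mul c₀).symm))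

set_option maxHeartbeats 800000 in
/-- Characteristic two and factors of dimension at least four: two root elements. -/
theorem false_of_four (h2 : (2 : F) = 0) (h4 : 4 ≤ m) : False := by
  have hM := H.base
  have hf := hM.uf
  have hB := pform_unitary hf (s + 1)
  obtain ⟨P, hP⟩ := H.exists_P
  set T := (smemb k v).map g.toLinearMap with hT
  set U := smemb j w with hU
  obtain ⟨w', hw', hw'w', hww', -, hw'n, -⟩ :=
    exists_iso_conn hf (by simpa using h4) H.hww H.hww
  have hw'w := orth_comm hf hww'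
  set U' := smemb j w' with hU'
  set E := Submodule.span F ({w, w'} : Set (Fin m → F)) with hE
  have hwE : w ∈ E := Submodule.subset_span (by simp)
  have hw'E : w' ∈ E := Submodule.subset_span (by simp)
  have hEiso : ∀ x ∈ E, ∀ y ∈ E, f x y = 0 := fun x hx y hy => by
    obtain ⟨a, b, rfl⟩ := Submodule.mem_span_pair.1 hx
    obtain ⟨a', b', rfl⟩ := Submodule.mem_span_pair.1 hy
    simp [hf.add_left, add_right hf, hf.smul_left, smul_right hf, H.hww, hw'w', hww', hw'w]
  obtain ⟨c, hc0, hc⟩ := exists_traceZero hf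
  have hdbl : ∀ X : TV F m (s + 1), X + X = 0 := fun X => by rw [← two_smul F X, h2, zero_smul]
  obtain ⟨x, hx, hxv, hxi⟩ := exists_root hM j H.hw H.hww hc
  obtain ⟨x', hx', hx'v, hx'i⟩ := exists_root hM j hw' hw'w' hc
  obtain ⟨y, hy, hyv, hyi⟩ := H.exists_y hP hc
  set N := nW f j w with hN
  set N' := nW f j w' with hN'
  have hN0 : ∀ X ∈ U ⊔ U', N X = 0 := fun X hX => by
    obtain ⟨a, ha, b, hb, rfl⟩ := Submodule.mem_sup.1 hX
    rw [map_add, nW_eq_zero hM H.hww ha, nW_eq_zero hM hw'w hb, add_zero]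
  have hN'0 : ∀ X ∈ U ⊔ U', N' X = 0 := fun X hX => by
    obtain ⟨a, ha, b, hb, rfl⟩ := Submodule.mem_sup.1 hX
    rw [map_add, nW_eq_zero hM hww' ha, nW_eq_zero hM hw'w' hb, add_zero]
  have hNNmem : ∀ Y, N Y + N' Y ∈ U ⊔ U' := fun Y =>
    Submodule.add_mem_sup (nW_mem j w Y) (nW_mem j w' Y)
  set w2 := x * x' with hw2
  have hw2v : ∀ Y, w2 Y = Y + c • (N Y + N' Y) := fun Y => by
    rw [hw2, LinearEquiv.mul_apply, hx'v, hxv, map_add, map_smul,
      hN0 _ (Submodule.mem_sup_right (nW_mem j w' Y)), smul_zero, add_zero, smul_add]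
    abel
  have hw2sq : w2 * w2 = 1 := LinearEquiv.ext fun Y => by
    rw [LinearEquiv.mul_apply, hw2v, hw2v]
    have h11 : N (N Y) = 0 := hN0 _ (Submodule.mem_sup_left (nW_mem j w Y))
    have h12 : N (N' Y) = 0 := hN0 _ (Submodule.mem_sup_right (nW_mem j w' Y))
    have h21 : N' (N Y) = 0 := hN'0 _ (Submodule.mem_sup_left (nW_mem j w Y))
    have h22 : N' (N' Y) = 0 := hN'0 _ (Submodule.mem_sup_right (nW_mem j w' Y))
    simp only [map_add, map_smul, h11, h12, h21, h22, smul_zero, add_zero, add_assoc, hdbl]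
    rfl
  have hy2 : y * y = 1 := LinearEquiv.ext fun Y => by
    rw [LinearEquiv.mul_apply, hyv, hyv]
    simp only [map_add, map_smul, (H.P_eq_zero_iff hP _).2 (H.isoT _ (H.P_mem hP Y)), smul_zero,
      add_zero, add_assoc, hdbl]
    rfl
  -- both members are in the range
  have hsurj : ∀ X ∈ U ⊔ U', ∃ Y, N Y + N' Y = X := by
    have hkk : w ∉ Submodule.span F ({w'} : Set (Fin m → F)) := fun h => hw'n (by
      obtain ⟨r, hr⟩ := Submodule.mem_span_singleton.1 h
      refine Submodule.mem_span_singleton.2 ⟨r⁻¹, ?_⟩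
      rw [← hr, inv_smul_smul₀ (fun h0 => H.hw (by rw [← hr, h0, zero_smul]))])
    obtain ⟨e, -, hwe, hw'e⟩ := exists_iso_dual hf hkk H.hww (fun u hu => by
      obtain ⟨r, rfl⟩ := Submodule.mem_span_singleton.1 hu
      rw [hf.smul_left, hw'w, mul_zero])
    obtain ⟨e', -, hw'e', hwe'⟩ := exists_iso_dual hf hw'n hw'w' (fun u hu => by
      obtain ⟨r, rfl⟩ := Submodule.mem_span_singleton.1 hu
      rw [hf.smul_left, hww', mul_zero])
    have h11 : f e w = 1 := by rw [hf.herm, hwe, map_one]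
    have h12 : f e w' = 0 := orth_comm hf (hw'e w' (Submodule.mem_span_singleton_self w'))
    have h22 : f e' w' = 1 := by rw [hf.herm, hw'e', map_one]
    have h21 : f e' w = 0 := orth_comm hf (hwe' w (Submodule.mem_span_singleton_self w))
    intro X hX
    obtain ⟨a, ha, b, hb, rfl⟩ := Submodule.mem_sup.1 hX
    obtain ⟨p, hp⟩ := mem_memb.1 ha
    obtain ⟨q, hq⟩ := mem_memb.1 hb
    rw [LinearEquiv.coe_coe] at hp hq
    refine ⟨(slot j).symm (pure p e + pure q e'), (slot j).injective ?_⟩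
    simp only [hN, hN', map_add, nW_apply, LinearEquiv.apply_symm_apply, ctr_pure hf, h11, h12, h21,
      h22, one_smul, zero_smul, pure_zero_l, map_zero, add_zero, zero_add, hp, hq]
  have : Finite (TV F m (s + 1) ≃ₗ[F] TV F m (s + 1)) :=
    Finite.of_injective (fun e => (e : TV F m (s + 1) → TV F m (s + 1))) DFunLike.coe_injective
  have hTU : T ≤ U → False := H.hnle
  rcases conj_or_central hw2sq hy2 with ⟨z, -, hzy⟩ | ⟨z, hzcl, hz1, hzz', hzw, hzy⟩
  · -- conjugate elements have ranges of equal dimension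
    have hz : ∀ Y, z (N Y + N' Y) ∈ T := fun Y => by
      have h1 := LinearEquiv.congr_fun (mul_inv_eq_iff_eq_mul.1 hzy) Y
      change z (w2 Y) = y (z Y) at h1
      rw [hw2v, hyv, map_add, map_smul] at h1
      have h3 := add_left_cancel h1
      rw [smul_right_injective _ hc0 h3]
      exact H.P_mem hP _
    have hle : (U ⊔ U').map z.toLinearMap ≤ T := by
      rintro _ ⟨X, hX, rfl⟩
      obtain ⟨Y, rfl⟩ := hsurj X hX
      exact hz Y
    have h1 := Submodule.finrank_mono hle
    rw [LinearEquiv.finrank_map_eq, hT, LinearEquiv.finrank_map_eq, finrank_smemb _ H.hv] at h1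
    have hlt : U < U ⊔ U' := lt_of_le_not_ge le_sup_left fun h => hw'n (by
      have : Nonempty (Fin m) := ⟨⟨0, by omega⟩⟩
      obtain ⟨u₀, hu₀⟩ := exists_ne (0 : TV F m s)
      obtain ⟨i, hi⟩ := Function.ne_iff.1 hu₀
      have h3 : (slot j).symm (pure u₀ w') ∈ U ⊔ U := Submodule.mem_sup_left
        (h (Submodule.mem_sup_right (symm_pure_mem j u₀ w')))
      have h4' := rows_mem h3 i
      rw [LinearEquiv.apply_symm_apply, show ({w, w} : Set (Fin m → F)) = {w} by simp,
        show (pure u₀ w' : Matrix _ _ F) i = u₀ i • w' from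
          funext fun l => by simp [TensorMax.pure, vecMulVec_apply]] at h4'
      exact (Submodule.smul_mem_iff _ hi).1 h4')
    have h3 := Submodule.finrank_lt_finrank_of_lt hlt
    rw [hU, finrank_smemb _ H.hw] at h3
    exact absurd (h3.trans_le h1) (lt_irrefl _)
  -- the central involution
  have hzS : z ∈ moveGroup τ f M (T ⊔ (U ⊔ U')) (T ⊓ U) := by
    refine (Subgroup.closure_le _).2 ?_ hzcl
    rintro e (rfl | rfl)
    · refine ⟨M.mul_mem hx hx', fun u v' => by
        rw [LinearEquiv.mul_apply, LinearEquiv.mul_apply, hxi, hx'i], fun Y => ?_, fun Y hY => ?_⟩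
      · rw [hw2v, add_sub_cancel_left]
        exact Submodule.mem_sup_right (Submodule.smul_mem _ c (hNNmem Y))
      · rw [hw2v, hN0 _ (Submodule.mem_sup_left hY.2), hN'0 _ (Submodule.mem_sup_left hY.2),
          add_zero, smul_zero, add_zero]
    · refine ⟨hy, hyi, fun Y => ?_, fun Y hY => ?_⟩
      · rw [hyv, add_sub_cancel_left]
        exact Submodule.mem_sup_left (T.smul_mem c (H.P_mem hP Y))
      · rw [hyv, (H.P_eq_zero_iff hP Y).2 (H.isoT Y hY.1), smul_zero, add_zero]
  obtain ⟨hzM, hziso, hzmove, -⟩ := hzS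
  have hzzv : ∀ X, z (z X) = X := fun X => LinearEquiv.congr_fun hzz' X
  have hzU : ∀ X ∈ U ⊔ U', z X ∈ U ⊔ U' := fun X hX => by
    obtain ⟨Y, rfl⟩ := hsurj X hX
    have h1 := LinearEquiv.congr_fun hzw Y
    change z (w2 Y) = w2 (z Y) at h1
    rw [hw2v, hw2v, map_add, map_smul] at h1
    rw [smul_right_injective _ hc0 (add_left_cancel h1)]
    exact hNNmem _
  have hzT : ∀ t ∈ T, z t ∈ T := fun t ht => by
    obtain ⟨Y, rfl⟩ := H.P_surj hP ht
    have h1 := LinearEquiv.congr_fun hzy Y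
    rw [LinearEquiv.mul_apply, LinearEquiv.mul_apply, hyv, hyv, map_add, map_smul] at h1
    rw [smul_right_injective _ hc0 (add_left_cancel h1)]
    exact H.P_mem hP _
  have hzmono : z ∈ monoGroup F m (s + 1) := by
    refine mono_of_conj hM H.sc H.IH hzM (j := j) H.hw H.hww fun c' x₁ _ hx₁ hx₁v =>
      mono_of_member (k := j) (j := j) hM H.sc H.IH (M.mul_mem (M.mul_mem (M.inv_mem hzM) hx₁) hzM) H.hw H.hww H.hw
        fun u hu => ?_
    change z.symm (x₁ (z u)) ∈ U
    rw [hx₁v, ← hN, hN0 _ (hzU u (Submodule.mem_sup_left hu)), smul_zero, add_zero,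
      z.symm_apply_apply]
    exact hu
  obtain ⟨k', w₁, hw₁, hkw⟩ := exists_member_image hzmono j H.hw
  have hrows : ∀ X ∈ smemb k' w₁, ∀ i, slot j X i ∈ E := fun X hX i => by
    rw [← hkw] at hX
    obtain ⟨u, hu, rfl⟩ := hX
    exact rows_mem (hzU u (Submodule.mem_sup_left hu)) i
  obtain ⟨d, hd⟩ : ∃ d, d ∉ E := by
    by_contra! h
    obtain ⟨a, ha⟩ : ∃ a : Fin m → F, f a a ≠ 0 := by
      obtain ⟨a, ha⟩ := exists_unit_vec hM
      exact ⟨a, by rw [ha]; exact one_ne_zero⟩
    exact ha (hEiso a (h a) a (h a))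
  obtain rfl : k' = j := member_eq_of_rows hw₁ hd hrows
  obtain ⟨a, b, hab⟩ := exists_split hM H.sc hzM H.hw H.hww (k := k') (j := k') (v := w₁)
    fun u hu => hkw.le ⟨u, hu, rfl⟩
  -- vectors killed by a contraction orthogonal to `w`
  have hkill : ∀ z₀, z₀ ≠ 0 → f z₀ z₀ = 0 → f w z₀ = 0 → ∀ t ∈ T, nW f k' z₀ t = 0 → t ∈ U := by
    intro z₀ hz₀ hz₀z₀ hwz₀ t ht ht0
    by_contra htU
    refine H.hng (mono_of_meet hM H.sc H.IH H.hd H.hg H.hv H.hvv (j := k') hz₀ hz₀z₀
      ((T ⊓ U) ⊔ Submodule.span F {t})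
      (sup_le inf_le_left ((Submodule.span_singleton_le_iff_mem _ _).2 ht)) ?_ fun X hX => ?_)
    · exact Submodule.finrank_lt_finrank_of_lt (lt_of_le_not_ge le_sup_left fun h =>
        htU (h (Submodule.mem_sup_right (Submodule.mem_span_singleton_self t))).2)
    · obtain ⟨p, hp, q, hq, rfl⟩ := Submodule.mem_sup.1 hX
      obtain ⟨r, rfl⟩ := Submodule.mem_span_singleton.1 hq
      rw [map_add, map_smul, nW_eq_zero hM hwz₀ hp.2, ht0, smul_zero, add_zero]
      exact Submodule.zero_mem _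
  -- a pure vector in the sum lies in the two members
  have hpure : ∀ (u : TV F m s) (d : Fin m → F) (X : TV F m (s + 1)), X ∈ U ⊔ U' → d ∉ E →
      (slot k').symm (pure u d) + X ∈ T ⊔ (U ⊔ U') → u = 0 := by
    intro u d X hX hdE hmem
    obtain ⟨z₀, hz₀E, hz₀, hdz₀⟩ : ∃ z₀, z₀ ∈ E ∧ z₀ ≠ 0 ∧ f d z₀ = 0 := by
      by_cases hdw : f d w = 0
      · exact ⟨w, hwE, H.hw, hdw⟩
      · refine ⟨τ (-(f d w' / f d w)) • w + w', E.add_mem (E.smul_mem _ hwE) hw'E,
          fun h0 => hw'n (Submodule.mem_span_singleton.2 ⟨-τ (-(f d w' / f d w)), by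
            rw [neg_smul]; exact neg_eq_of_add_eq_zero_right h0⟩), ?_⟩
        rw [add_right hf, smul_right hf, hf.involutive]
        field_simp
        ring
    have hN0' : ∀ Z ∈ U ⊔ U', nW f k' z₀ Z = 0 := fun Z hZ => by
      obtain ⟨p, hp, q, hq, rfl⟩ := Submodule.mem_sup.1 hZ
      rw [map_add, nW_eq_zero hM (hEiso w hwE z₀ hz₀E) hp, nW_eq_zero hM (hEiso w' hw'E z₀ hz₀E) hq,
        add_zero]
    obtain ⟨t, ht, q, hq, htq⟩ := Submodule.mem_sup.1 hmem
    have ht0 : nW f k' z₀ t = 0 := by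
      have h1 := congrArg (nW f k' z₀) htq
      rwa [map_add, map_add, hN0' q hq, hN0' X hX, nW_apply k' z₀ ((slot k').symm _),
        LinearEquiv.apply_symm_apply, ctr_pure hf, hdz₀, zero_smul, pure_zero_l, map_zero, add_zero,
        add_zero] at h1
    have htU := hkill z₀ hz₀ (hEiso z₀ hz₀E z₀ hz₀E) (hEiso w hwE z₀ hz₀E) t ht ht0
    have h1 : (slot k').symm (pure u d) ∈ U ⊔ U' := by
      rw [eq_sub_of_add_eq htq.symm]
      exact Submodule.sub_mem _ (Submodule.add_mem _ (Submodule.mem_sup_left htU) hq) hX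
    funext i
    have h2' := rows_mem h1 i
    rw [LinearEquiv.apply_symm_apply, show (pure u d : Matrix _ _ F) i = u i • d from
      funext fun l => by simp [TensorMax.pure, vecMulVec_apply]] at h2'
    by_contra hi
    exact hdE ((Submodule.smul_mem_iff _ hi).1 h2')
  have hEmem : ∀ e ∈ E, ∀ u, (slot k').symm (pure u e) ∈ U ⊔ U' := fun e he u => by
    obtain ⟨p, q, rfl⟩ := Submodule.mem_span_pair.1 he
    rw [pure_add_right, pure_smul_right, pure_smul_right, map_add, map_smul, map_smul]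
    exact Submodule.add_mem_sup (U.smul_mem p (symm_pure_mem k' u w))
      (U'.smul_mem q (symm_pure_mem k' u w'))
  -- the first factor is a scalar
  have : Nonempty (Fin m) := ⟨⟨0, by omega⟩⟩
  obtain ⟨u₀, hu₀⟩ := exists_ne (0 : TV F m s)
  obtain ⟨χ, hχ⟩ := TensorMax.exists_dual hu₀
  set lam := χ ⬝ᵥ a (a u₀)
  have hb2 : ∀ e, lam • (b.val *ᵥ (b.val *ᵥ e)) = e := fun e => by
    have h1 : pure (a (a u₀)) (b.val *ᵥ (b.val *ᵥ e)) = pure u₀ e := by
      rw [← hab, ← hab, LinearEquiv.symm_apply_apply, hzzv, LinearEquiv.apply_symm_apply]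
    have h3 := congrArg (fun X => χ ᵥ* X) h1
    simp only [TensorMax.pure, vecMul_vecMulVec] at h3
    rwa [dotProduct_comm χ u₀, hχ, one_smul] at h3
  have hl0 : lam ≠ 0 := fun h0 => hd (by rw [← hb2 d, h0, zero_smul]; exact E.zero_mem)
  obtain ⟨μ, hμa⟩ : ∃ μ : F, ∀ u, μ • a u = u := by
    have eig : ∀ (e : Fin m → F) (μ : F), e ∉ E → b.val *ᵥ e - μ • e ∈ E → ∀ u, μ • a u = u := by
      intro e μ he hbe u
      refine sub_eq_zero.1 (hpure _ e _ (hEmem _ hbe (a u)) he ?_)
      convert hzmove ((slot k').symm (pure u e)) using 1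
      apply (slot k').injective
      rw [map_add, map_sub, LinearEquiv.apply_symm_apply, LinearEquiv.apply_symm_apply,
        LinearEquiv.apply_symm_apply, hab, pure_sub_left, pure_sub_right, pure_smul_left,
        pure_smul_right]
      abel
    obtain ⟨r, hr⟩ : ∃ r : F, r * r = lam⁻¹ := by
      have hchar : ringChar F = 2 := by
        have : CharP F 2 := CharTwo.of_one_ne_zero_of_two_eq_zero one_ne_zero h2
        exact ringChar.eq F 2
      obtain ⟨r, hr⟩ := FiniteField.isSquare_of_char_two hchar lam⁻¹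
      exact ⟨r, hr.symm⟩
    by_cases hd' : b.val *ᵥ d + r • d ∈ E
    · exact ⟨-r, eig d (-r) hd (by rwa [neg_smul, sub_neg_eq_add])⟩
    · refine ⟨r, eig _ r hd' ?_⟩
      have h1 : b.val *ᵥ (b.val *ᵥ d) = (r * r) • d := by
        rw [hr]; nth_rw 2 [← hb2 d]; rw [inv_smul_smul₀ hl0]
      rw [mulVec_add, mulVec_smul, h1,
        show (r * r) • d + r • b.val *ᵥ d - r • (b.val *ᵥ d + r • d) = 0 by module]
      exact E.zero_mem
  have hμ0 : μ ≠ 0 := fun h0 => hu₀ (by rw [← hμa u₀, h0, zero_smul])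
  set B : (Fin m → F) →ₗ[F] (Fin m → F) := μ⁻¹ • b.val.mulVecLin
  have hzB : ∀ u e, slot k' (z ((slot k').symm (pure u e))) = pure u (B e) := fun u e => by
    rw [hab]
    conv_rhs => rw [← hμa u]
    simp only [B, LinearMap.smul_apply, Matrix.mulVecLin_apply, pure_smul_left, pure_smul_right,
      smul_smul, inv_mul_cancel₀ hμ0, one_smul]
  have hBi := eq_mult_one hM hziso hzB
  have hBctr := ctr_right hM hziso hzB
  have hBB : ∀ e, B (B e) = e := fun e => by
    have h1 : pure u₀ (B (B e)) = pure u₀ e := by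
      rw [← hzB, ← hzB, LinearEquiv.symm_apply_apply, hzzv, LinearEquiv.apply_symm_apply]
    have h3 := congrArg (fun X => χ ᵥ* X) h1
    simp only [TensorMax.pure, vecMul_vecMulVec] at h3
    rwa [dotProduct_comm χ u₀, hχ, one_smul, one_smul] at h3
  set γ : (Fin m → F) →ₗ[F] (Fin m → F) := B - LinearMap.id with hγ
  have hγsym : ∀ e e', f (γ e) e' = f e (γ e') := fun e e' => by
    have hBsym : f (B e) e' = f e (B e') := by
      conv_lhs => rw [← hBB e', hBi]
    simp only [hγ, LinearMap.sub_apply, LinearMap.id_apply, sub_left hf, sub_right hf, hBsym]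
  have hγE : ∀ e, γ e ∈ E := fun e => by
    by_contra he
    refine hu₀ (hpure u₀ (γ e) 0 (zero_mem _) he ?_)
    convert hzmove ((slot k').symm (pure u₀ e)) using 1
    apply (slot k').injective
    rw [add_zero, map_sub, LinearEquiv.apply_symm_apply, LinearEquiv.apply_symm_apply, hzB,
      ← pure_sub_right]
    rfl
  have hγw : γ w = 0 := by
    by_contra hne
    obtain ⟨-, e, he⟩ := hf.nondegenerate _ hne
    exact he (by rw [hγsym]; exact hEiso w hwE _ (hγE e))
  have hBw : B w = w := sub_eq_zero.1 hγw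
  have hET : ∀ t ∈ T, z t - t ∈ U := fun t ht => by
    refine H.backT (T.sub_mem (hzT t ht) ht) ?_
    have h1 := hBctr w t
    rw [hBw] at h1
    rw [nW_apply, map_sub, map_sub, h1, sub_self, pure_zero_l, map_zero]
    exact Submodule.zero_mem _
  have hγT : ∀ e, f w e = 0 → ∀ t ∈ T, ctr f (γ e) (slot k' t) = 0 := fun e he t ht => by
    have h1 := ctr_memb hf he (mem_smemb.1 (hET t ht))
    rw [map_sub, map_sub] at h1
    have h3 := hBctr (B e) t
    rw [hBB] at h3
    rw [h3] at h1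
    rwa [hγ, LinearMap.sub_apply, LinearMap.id_apply, ctr_sub hf]
  by_cases hγ0 : ∃ e, f w e = 0 ∧ γ e ≠ 0
  · obtain ⟨e, hwe, hne⟩ := hγ0
    refine hTU fun t ht => hkill (γ e) hne (hEiso _ (hγE e) _ (hγE e))
      (hEiso w hwE _ (hγE e)) t ht ?_
    rw [nW_apply, hγT e hwe t ht, pure_zero_l, map_zero]
  push Not at hγ0
  -- a root element
  obtain ⟨e₀, -, hwe₀, he₀w⟩ := exists_partner hf H.hw H.hww
  obtain ⟨l, hl⟩ : ∃ l : F, γ e₀ = l • w := by
    by_contra! hne
    obtain ⟨e, he, hee⟩ := exists_orth_sep hf (U := Submodule.span F {w}) (x := γ e₀) (fun hm => by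
      obtain ⟨l, hl⟩ := Submodule.mem_span_singleton.1 hm
      exact hne l hl.symm)
    exact hee (by rw [hγsym, hγ0 e (he w (Submodule.mem_span_singleton_self w)), zero_right hf])
  have hγe : ∀ e, γ e = (l * f e w) • w := fun e => by
    have h1 := hγ0 (e - f e w • e₀) (by
      refine orth_comm hf ?_
      rw [sub_left hf, hf.smul_left, he₀w, mul_one, sub_self])
    rw [map_sub, map_smul, hl, sub_eq_zero, smul_smul] at h1
    rw [h1, mul_comm]
  have hzR : ∀ X, z X = X + l • N X := fun X => by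
    suffices hlin : z.toLinearMap = LinearMap.id + l • N from LinearMap.congr_fun hlin X
    refine linearMap_ext_pv fun p => ?_
    rw [← (slot k').symm_apply_apply (pv p), slot_pv]
    simp only [LinearEquiv.coe_coe, LinearMap.add_apply, LinearMap.id_apply, LinearMap.smul_apply]
    apply (slot k').injective
    rw [hzB, map_add, LinearEquiv.apply_symm_apply, map_smul, hN, nW_apply,
      LinearEquiv.apply_symm_apply, LinearEquiv.apply_symm_apply, ctr_pure hf, pure_smul_left,
      ← pure_smul_right, ← pure_smul_right, smul_smul, ← pure_add_right, ← hγe]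
    simp [hγ]
  have hl0' : l ≠ 0 := fun h0 => hz1 (LinearEquiv.ext fun X => by
    rw [hzR, h0, zero_smul, add_zero]; rfl)
  refine hTU fun t ht => H.backT ht ?_
  have h1 := T.sub_mem (hzT t ht) ht
  rw [hzR, add_sub_cancel_left] at h1
  exact (T.smul_mem_iff hl0').1 h1

/-- The plane in every case. -/
theorem plane : Plane f g k v j w := by
  by_cases h2 : (2 : F) = 0
  · rcases H.base.small with hl | h4
    · exact H.plane_small h2 hl
    · exact (H.false_of_four h2 h4).elim
  · exact H.plane_odd h2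

end Pos

/-- One step of the descent. -/
lemma mono_step (hM : UBase τ f M) (hsc : OnlyScal f M)
    (hIH : ∀ k, ∀ a ∈ WreathTensor14.factor M k, a ∈ monoGroup F m s)
    {g : TV F m (s + 1) ≃ₗ[F] TV F m (s + 1)} (hg : g ∈ M) {k j : Fin (s + 1)} {v w : Fin m → F}
    (hv : v ≠ 0) (hvv : f v v = 0) (hw : w ≠ 0) (hww : f w w = 0)
    (hd : ∀ g' ∈ M, ∀ (k' : Fin (s + 1)) (v' : Fin m → F) (j' : Fin (s + 1)) (w' : Fin m → F),
      v' ≠ 0 → f v' v' = 0 → w' ≠ 0 → f w' w' = 0 →
      finrank F ↥((smemb k v).map g.toLinearMap ⊓ smemb j w)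
        < finrank F ↥((smemb k' v').map (g' : TV F m (s + 1) ≃ₗ[F] TV F m (s + 1)).toLinearMap
          ⊓ smemb j' w') → g' ∈ monoGroup F m (s + 1)) :
    g ∈ monoGroup F m (s + 1) := by
  by_contra hng
  have H : Pos τ f M g k v j w := ⟨hM, hsc, hIH, hg, hng, hv, hvv, hw, hww, hd⟩
  obtain ⟨hC, w₂, hw₂, hle⟩ := H.plane
  set E := Submodule.span F ({w, w₂} : Set (Fin m → F))
  have hE2 : finrank F E ≤ 2 := by
    classical
    refine le_trans ?_ (Finset.card_le_two (a := w) (b := w₂))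
    have := finrank_span_finset_le_card (R := F) ({w, w₂} : Finset (Fin m → F))
    rwa [Finset.coe_pair, Set.finrank] at this
  obtain ⟨w', hw', hw'w', hw'E⟩ : ∃ w', w' ≠ 0 ∧ f w' w' = 0 ∧ w' ∉ E := by
    by_contra! h
    have htop : E = ⊤ := eq_top_iff.2 fun z _ => (Submodule.span_le.2 fun y hy => by
      rcases eq_or_ne y 0 with rfl | hy0
      · exact E.zero_mem
      · exact h y hy0 hy) (span_iso hM.uf (by have := hM.three; simp; omega) z)
    rw [htop, finrank_top, finrank_pi, Fintype.card_fin] at hE2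
    have := hM.three
    omega
  have H' : Pos τ f M g k v j w' := ⟨hM, hsc, hIH, hg, hng, hv, hvv, hw', hw'w',
    fun g' hg' k' v' j' w'' h1 h2 h3 h4 h5 => hd g' hg' k' v' j' w'' h1 h2 h3 h4 (by
      rw [hC, finrank_bot]; exact Nat.zero_lt_of_lt h5)⟩
  obtain ⟨-, w₃, -, hle'⟩ := H'.plane
  set E' := Submodule.span F ({w', w₃} : Set (Fin m → F))
  have hlt : E ⊓ E' < E' := lt_of_le_not_ge inf_le_right fun h =>
    hw'E (h (Submodule.subset_span (by simp))).1
  have hE2' : finrank F E' ≤ 2 := by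
    classical
    refine le_trans ?_ (Finset.card_le_two (a := w') (b := w₃))
    have := finrank_span_finset_le_card (R := F) ({w', w₃} : Finset (Fin m → F))
    rwa [Finset.coe_pair, Set.finrank] at this
  have hI : finrank F ↥(E ⊓ E') ≤ 1 := by
    have := Submodule.finrank_lt_finrank_of_lt hlt
    omega
  obtain ⟨w₄, hw₄⟩ : ∃ w₄, E ⊓ E' ≤ Submodule.span F {w₄} := by
    obtain ⟨e, he⟩ := finrank_le_one_iff.1 hI
    refine ⟨e, fun z hz => ?_⟩
    obtain ⟨r, hr⟩ := he ⟨z, hz⟩
    exact Submodule.mem_span_singleton.2 ⟨r, congrArg Subtype.val hr⟩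
  have hrow : ∀ t ∈ (smemb k v).map g.toLinearMap, ∀ i, slot j t i ∈ Submodule.span F {w₄} :=
    fun t ht i => hw₄ ⟨rows_mem (hle ht) i, rows_mem (hle' ht) i⟩
  have hne : w₄ ≠ 0 := fun h0 => by
    refine H.hnle fun t ht => ?_
    have hz : slot j t = 0 := by
      ext i l
      have h1 := hrow t ht i
      rw [h0, Submodule.span_singleton_eq_bot.2 rfl, Submodule.mem_bot] at h1
      exact congrFun h1 l
    rw [mem_smemb, hz]
    exact Submodule.zero_mem _
  refine hng (mono_of_member (k := k) (j := j) hM hsc hIH hg hv hvv hne fun x hx => ?_)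
  rw [mem_smemb]
  refine TensorMax.mem_memb_of_forall_orth hne fun φ hφ => funext fun i => ?_
  obtain ⟨r, hr⟩ := Submodule.mem_span_singleton.1 (hrow (g x) ⟨x, hx, rfl⟩ i)
  change (slot j (g x) i) ⬝ᵥ φ = 0
  rw [← hr, smul_dotProduct, hφ, smul_zero]

private lemma arith (a b c i : ℕ) (h : a ≤ b + (i + 1)) (h' : b < c) : a ≤ c + i := by omega

/-- With only scalar coefficients all elements are monomial. -/
theorem mono_all : ∀ (s : ℕ) (M : Subgroup (TV F m (s + 1) ≃ₗ[F] TV F m (s + 1))),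
    UBase τ f M → OnlyScal f M → ∀ g ∈ M, g ∈ monoGroup F m (s + 1) := by
  intro s
  induction s with
  | zero => exact fun _ _ _ g _ => mem_mono_one g
  | succ s ih =>
    intro M hM hsc g hg
    have hIH : ∀ k, ∀ a ∈ WreathTensor14.factor M k, a ∈ monoGroup F m (s + 1) := fun k =>
      ih _ (hM.factor k) (hsc.factor hM k)
    have hf := hM.uf
    obtain ⟨w, -, hw, hww⟩ := exists_iso_mem hf (⊤ : Submodule F (Fin m → F))
      (by rw [finrank_top, finrank_pi, Fintype.card_fin]; have := hM.three; omega)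
    suffices key : ∀ i, ∀ g' ∈ M, ∀ (k : Fin (s + 2)) (v : Fin m → F) (j : Fin (s + 2))
        (w : Fin m → F), v ≠ 0 → f v v = 0 → w ≠ 0 → f w w = 0 →
        m ^ (s + 1) ≤ finrank F
          ↥((smemb k v).map (g' : TV F m (s + 2) ≃ₗ[F] TV F m (s + 2)).toLinearMap ⊓ smemb j w) + i →
        g' ∈ monoGroup F m (s + 2) from
      key (m ^ (s + 1)) g hg 0 w 0 w hw hww hw hww (Nat.le_add_left _ _)
    intro i
    induction i with
    | zero =>
      intro g' hg' k v j w hv hvv hw hww hle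
      refine mono_of_member (k := k) (j := j) hM hsc hIH hg' hv hvv hw fun x hx => ?_
      have heq : (smemb k v).map g'.toLinearMap ⊓ smemb j w = (smemb k v).map g'.toLinearMap :=
        Submodule.eq_of_le_of_finrank_le inf_le_left
          (by rw [LinearEquiv.finrank_map_eq, finrank_smemb _ hv]; omega)
      exact (inf_eq_left.1 heq) ⟨x, hx, rfl⟩
    | succ i ihi =>
      intro g' hg' k v j w hv hvv hw hww hle
      exact mono_step hM hsc hIH hg' hv hvv hw hww fun g'' hg'' k' v' j' w' h1 h2 h3 h4 h5 =>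
        ihi g'' hg'' k' v' j' w' h1 h2 h3 h4 (arith _ _ _ i hle h5)

end CfsgLib.WreathForm14
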