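import Cfsg.Agent.WreathForm14.NonScalarSpread
import Cfsg.Agent.WreathTensor14.Final
import Cfsg.Agent.UnitTensor96.MatrixForm

/-!
The passage from the coordinates of the tensor power to the standard unitary group: maximality of
the tensor wreath product follows once the groups with only scalar coefficients are monomial.
-/

set_option autoImplicit false
set_option linter.unusedSectionVars false

namespace CfsgLib.WreathForm14

open Matrix Module Function
open CfsgLib.UnitCentres (upair upair_apply Iso uT uT_mulVec uT_iso uT_mem_specialLinear Centre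
  gu_le_of_centres)
open CfsgLib.WreathTensor14 (TV toE toE_apply toE_injective monoGroup krGL kronE permE nil nil_apply
  smemb finrank_smemb mono_classify map_toE_tensorWreathStandard)

variable {F : Type*} [Field F] {m s : ℕ}

/-- A map of square zero and rank one added to the identity is not monomial. -/
lemma rankOne_not_mono (hm : 3 ≤ m) (hs : 1 ≤ s) {z : TV F m (s + 1)}
    {g : TV F m (s + 1) ≃ₗ[F] TV F m (s + 1)} {φ : TV F m (s + 1) →ₗ[F] F}
    (hg : ∀ v, g v = v + φ v • z) (hz : φ z = 0) (hne : g ≠ 1) :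
    g ∉ monoGroup F m (s + 1) := by
  classical
  intro hmono
  have hN : ∀ v, nil g v = φ v • z := fun v => by rw [nil_apply, hg, add_sub_cancel_left]
  have hr : finrank F (LinearMap.range (nil g)) ≤ 1 := by
    refine (Submodule.finrank_mono (show LinearMap.range (nil g)
      ≤ Submodule.span F ({z} : Set (TV F m (s + 1))) from ?_)).trans ?_
    · rintro _ ⟨v, rfl⟩
      rw [hN]
      exact Submodule.smul_mem _ _ (Submodule.mem_span_singleton_self _)
    · simpa using finrank_span_le_card ({z} : Set (TV F m (s + 1)))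
  have hms : 3 ≤ m ^ s := hm.trans (Nat.le_self_pow (by omega) m)
  rcases mono_classify hm hmono (fun v => by rw [hN (nil g v), hN v, map_smul, hz, smul_zero,
      zero_smul]) hne (hr.trans (le_trans (by omega) hms)) with
    ⟨k, w, hw, hkw⟩ | ⟨hm3, D, a, b, hab, hs'⟩
  · rw [hkw, finrank_smemb _ hw] at hr
    omega
  · subst hm3
    set P : TV F 3 (s + 1) ≃ₗ[F] TV F 3 (s + 1) := permE (Equiv.swap a b)
    let p : Fin (s + 1) → Fin 3 := fun i => if i = b then 1 else 0
    let q : Fin (s + 1) → Fin 3 := fun i => if i = b then 2 else 0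
    let f : F × F →ₗ[F] TV F 3 (s + 1) := (kronE D).toLinearMap ∘ₗ nil P ∘ₗ
      (LinearMap.toSpanSingleton F _ (Pi.single p 1)).coprod
        (LinearMap.toSpanSingleton F _ (Pi.single q 1))
    have hf : Function.Injective f := by
      rw [injective_iff_map_eq_zero]
      rintro ⟨c, d⟩ h
      simp only [f, LinearMap.comp_apply, LinearEquiv.coe_coe, LinearEquiv.map_eq_zero_iff,
        LinearMap.coprod_apply, LinearMap.toSpanSingleton_apply, nil_apply] at h
      have hpq : p ≠ q := fun e => by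
        have := congrFun e b
        simp [p, q] at this
      have e1 : p ∘ Equiv.swap a b ≠ p := fun e => by
        have := congrFun e a
        simp [p, hab] at this
      have e2 : q ∘ Equiv.swap a b ≠ q := fun e => by
        have := congrFun e a
        simp [q, hab] at this
      have e3 : p ∘ Equiv.swap a b ≠ q := fun e => by
        have := congrFun e b
        simp [p, q, hab] at this
      have e4 : q ∘ Equiv.swap a b ≠ p := fun e => by
        have := congrFun e b
        simp [p, q, hab] at this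
      have h1 := congrFun h p
      have h2 := congrFun h q
      simp [P, e1, e2, e3, e4, hpq, hpq.symm] at h1 h2
      exact Prod.ext h1 h2
    have hle : LinearMap.range f ≤ LinearMap.range (nil g) := by
      rintro _ ⟨y, rfl⟩
      refine ⟨kronE D ((LinearMap.toSpanSingleton F _ (Pi.single p 1)).coprod
        (LinearMap.toSpanSingleton F _ (Pi.single q 1)) y), ?_⟩
      rw [nil_apply, hs']
      simp only [f, LinearMap.comp_apply, LinearEquiv.coe_coe, nil_apply, LinearEquiv.mul_apply,
        map_sub]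
      change kronE D (P ((kronE D).symm (kronE D _))) - _ = _
      rw [LinearEquiv.symm_apply_apply]
    have h2 := Submodule.finrank_mono hle
    rw [LinearMap.finrank_range_of_inj hf, Module.finrank_prod, Module.finrank_self] at h2
    omega

lemma unitary_of_formPow {n q k : ℕ} {τ : F ≃+* F}
    (hB : Cfsg.Geo.IsUnitaryForm τ (Cfsg.hermForm n F q)) (hτ : ∀ a, τ a = a ^ q)
    {f : (Fin k → F) → (Fin k → F) → F} (hf : Cfsg.Geo.IsUnitaryFormPow q f) :
    Cfsg.Geo.IsUnitaryForm τ f :=
  ⟨hB.ne_refl, hB.involutive, hf.add_left, hf.smul_left, fun v w => by rw [hτ, ← hf.herm],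
    hf.nondegenerate⟩

/-- The stabiliser of a unitary tensor power is maximal, given that overgroups with only scalar
coefficients are monomial. -/
theorem isMaximalIn_of_mono [Fintype F] {n q k : ℕ} (hF : Fintype.card F = q ^ 2) (hn : 4 ≤ n)
    (hk : 3 ≤ k) (hs : 1 ≤ s) (hex : ¬ (q = 2 ∧ k = 3))
    (honly : ∀ (τ : F ≃+* F) (f : (Fin k → F) → (Fin k → F) → F)
      (M : Subgroup (TV F k (s + 1) ≃ₗ[F] TV F k (s + 1))),
      UBase τ f M → OnlyScal f M → ∀ g ∈ M, g ∈ monoGroup F k (s + 1))
    (e : Fin n ≃ (Fin (s + 1) → Fin k)) (P : GL (Fin n) F)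
    {f₁ : (Fin k → F) → (Fin k → F) → F} (hf₁ : Cfsg.Geo.IsUnitaryFormPow q f₁)
    (hT : Cfsg.Geo.IsTensorPowerFormStructure (fun x : F => x ^ q) (Cfsg.hermForm n F q) f₁ e P) :
    Cfsg.Geo.IsMaximalIn (Cfsg.GU n F q ⊓ Cfsg.Geo.specialLinear (Fin n) F)
      (Cfsg.Geo.tensorWreathSubgroup k (s + 1) e P ⊓
        (Cfsg.GU n F q ⊓ Cfsg.Geo.specialLinear (Fin n) F)) := by
  classical
  obtain ⟨c, hc, hcT⟩ := hT
  obtain ⟨τ, hτ, hB⟩ := CfsgLib.LinAlg.Witt.exists_isUnitaryForm_hermForm (n := n) hF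
  have hf : Cfsg.Geo.IsUnitaryForm τ f₁ := unitary_of_formPow hB hτ hf₁
  set Φ := pform τ f₁ (s + 1) with hΦdef
  have hΦ : Cfsg.Geo.IsUnitaryForm τ Φ := pform_unitary hf (s + 1)
  let φ : TV F k (s + 1) → (Fin n → F) := fun x => (P : Matrix (Fin n) (Fin n) F) *ᵥ (x ∘ e)
  have hform : ∀ x y, Cfsg.hermForm n F q (φ x) (φ y) = c * Φ x y := fun x y => by
    rw [hcT, hΦdef, pform]
    refine congrArg _ (Finset.sum_congr rfl fun a _ => Finset.sum_congr rfl fun b _ => ?_)
    rw [hτ]
    simp only [Cfsg.Geo.gramMatrix]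
    ring
  have hφ : Surjective φ := fun v =>
    ⟨(((P⁻¹ : GL (Fin n) F) : Matrix (Fin n) (Fin n) F) *ᵥ v) ∘ e.symm, by
      simp [φ, Function.comp_assoc, Matrix.mulVec_mulVec]⟩
  have hφadd : ∀ x y, φ (x + y) = φ x + φ y := fun x y => by
    rw [← Matrix.mulVec_add]; rfl
  have hφsmul : ∀ (a : F) x, φ (a • x) = a • φ x := fun a x => by
    rw [← Matrix.mulVec_smul]; rfl
  have hcτ : τ c = c := by
    obtain ⟨x, hx⟩ : ∃ x, x ∈ {x : TV F k (s + 1) | x ≠ 0} :=
      ⟨Pi.single (fun _ => ⟨0, by omega⟩) 1, by simp⟩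
    obtain ⟨-, y, hy⟩ := hΦ.nondegenerate x hx
    have h := hB.herm (φ x) (φ y)
    rw [hform, hform, map_mul, ← hΦ.herm] at h
    exact mul_right_cancel₀ hy h.symm
  set ψ : GL (Fin (s + 1) → Fin k) F ≃* GL (Fin n) F :=
    (Cfsg.Geo.glReindex e.symm).trans (MulAut.conj P)
  have hψ : ∀ g u, (ψ g : Matrix (Fin n) (Fin n) F) *ᵥ φ u = φ (toE g u) := fun g u => by
    change ((P : Matrix (Fin n) (Fin n) F) * Matrix.reindex e.symm e.symm g.val
      * ((P⁻¹ : GL (Fin n) F) : Matrix (Fin n) (Fin n) F)) *ᵥ _ = _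
    simp only [φ, ← Matrix.mulVec_mulVec]
    rw [Matrix.mulVec_mulVec (M := ((P⁻¹ : GL (Fin n) F) : Matrix (Fin n) (Fin n) F)),
      ← Units.val_mul, inv_mul_cancel, Units.val_one, one_mulVec, Matrix.reindex_apply,
      Matrix.submatrix_mulVec_equiv]
    simp [Function.comp_assoc]
  have hψdet : ∀ g, (ψ g).val.det = g.val.det := fun g => by
    change ((P : Matrix (Fin n) (Fin n) F) * Matrix.reindex e.symm e.symm g.val
      * ((P⁻¹ : GL (Fin n) F) : Matrix (Fin n) (Fin n) F)).det = _
    rw [Matrix.det_units_conj, Matrix.det_reindex_self]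
  have hψW : ∀ g, ψ g ∈ Cfsg.Geo.tensorWreathSubgroup k (s + 1) e P ↔
      toE g ∈ monoGroup F k (s + 1) := fun g => by
    rw [show Cfsg.Geo.tensorWreathSubgroup k (s + 1) e P
        = (Cfsg.Geo.tensorWreathStandard k (s + 1) F).map ψ.toMonoidHom from by
          rw [Cfsg.Geo.tensorWreathSubgroup, Subgroup.map_map]; rfl,
      ← map_toE_tensorWreathStandard]
    exact (Subgroup.mem_map_iff_mem ψ.injective).trans
      (Subgroup.mem_map_iff_mem toE_injective).symm
  have hψK : ∀ g, (∀ u v, Φ (toE g u) (toE g v) = Φ u v) → g.val.det = 1 →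
      ψ g ∈ Cfsg.GU n F q ⊓ Cfsg.Geo.specialLinear (Fin n) F := fun g hg hd => by
    refine CfsgLib.UnitCentres.mem_special.2 ⟨fun x y => ?_,
      CfsgLib.PseudoRefl.mem_specialLinear_iff.2 (by rw [hψdet, hd])⟩
    obtain ⟨u, rfl⟩ := hφ x
    obtain ⟨v, rfl⟩ := hφ y
    rw [hψ, hψ, hform, hform, hg]
  refine ⟨lt_of_le_of_ne inf_le_right fun h => ?_, fun M hle hMle => ?_⟩
  · -- some transvection is not monomial
    obtain ⟨v, -, hv, hvv⟩ := CfsgLib.UnitTensor96.exists_iso_mem hB
      (⊤ : Submodule F (Fin n → F)) (by rw [finrank_top, Module.finrank_fin_fun]; omega)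
    obtain ⟨Z, rfl⟩ := hφ v
    obtain ⟨ε, hε, hεσ⟩ := CfsgLib.UnitCentres.exists_traceZero hB
    obtain ⟨g, hg⟩ := ψ.surjective (uT hB hvv ε)
    have hgW : ψ g ∈ Cfsg.Geo.tensorWreathSubgroup k (s + 1) e P := by
      rw [hg]
      exact (h.ge (CfsgLib.UnitCentres.mem_special.2
        ⟨uT_iso hB hvv hεσ, uT_mem_specialLinear hB hvv ε⟩)).1
    have hev : ∀ u, φ (toE g u) = φ (u + (ε * c * Φ u Z) • Z) := fun u => by
      rw [← hψ, hg, uT_mulVec, hform, hφadd, hφsmul, mul_assoc]
    have hinj : Injective φ := fun x y hxy => by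
      have := congrArg (fun w => ((P⁻¹ : GL (Fin n) F) : Matrix (Fin n) (Fin n) F) *ᵥ w) hxy
      simp only [φ, Matrix.mulVec_mulVec, ← Units.val_mul, inv_mul_cancel, Units.val_one,
        one_mulVec] at this
      exact e.surjective.injective_comp_right this
    refine rankOne_not_mono hk hs (z := Z) (φ := (ε * c) • upair hΦ Z) (fun u => hinj (hev u))
      ?_ (fun h1 => ?_) ((hψW g).1 hgW)
    · have : Φ Z Z = 0 := (mul_eq_zero.1 ((hform Z Z).symm.trans hvv)).resolve_left hc
      simp [this]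
    · have hZ : Z ≠ 0 := fun hZ => hv (by simp [φ, hZ])
      obtain ⟨⟨u, hu⟩, -⟩ := hΦ.nondegenerate Z hZ
      have := hinj (hev u)
      rw [h1] at this
      exact smul_ne_zero (mul_ne_zero (mul_ne_zero hε hc) hu) hZ
        (left_eq_add.1 (this : u = u + (ε * c * Φ u Z) • Z))
  set M' : Subgroup (TV F k (s + 1) ≃ₗ[F] TV F k (s + 1)) := (M.comap ψ.toMonoidHom).map toE
  have hmem : ∀ g, ψ g ∈ M → toE g ∈ M' := fun g hg => Subgroup.mem_map_of_mem _ hg
  have hlift : ∀ {g}, toE g ∈ monoGroup F k (s + 1) → (∀ u v, Φ (toE g u) (toE g v) = Φ u v) →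
      g.val.det = 1 → toE g ∈ M' := fun {g} hg hi hd =>
    hmem g (hle ⟨(hψW g).2 hg, hψK g hi hd⟩)
  have hU : UBase τ f₁ M' :=
    { uf := hf
      three := hk
      small := by
        by_cases hq : 3 ≤ q
        · exact Or.inl (CfsgLib.UnitTensor96.exists_fixed_scalar hF hq hB.involutive hτ)
        · have : 1 < Fintype.card F := Fintype.one_lt_card
          rw [hF] at this
          have : q ≠ 0 ∧ q ≠ 1 := ⟨by rintro rfl; simp at this, by rintro rfl; simp at this⟩
          exact Or.inr (by omega)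
      sim := by
        rintro _ ⟨g, hg, rfl⟩
        refine ⟨1, fun u v => ?_⟩
        have h : Cfsg.hermForm n F q ((ψ g : Matrix (Fin n) (Fin n) F) *ᵥ φ u)
            ((ψ g : Matrix (Fin n) (Fin n) F) *ᵥ φ v) = Cfsg.hermForm n F q (φ u) (φ v) :=
          (hMle hg).1 _ _
        rw [hψ, hψ, hform, hform] at h
        rw [one_mul]
        exact mul_left_cancel₀ hc h
      kron_mem := fun gs hiso hsl => hlift (WreathTensor14.kronE_mem_mono gs)
        (fun u v => by
          have := kronE_iso hf (gs := gs) (cs := fun _ => 1)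
            (fun i x y => by rw [one_mul]; exact hiso i x y) u v
          rwa [Finset.prod_const_one, one_mul] at this)
        (WreathTensor14.det_krGL fun i => CfsgLib.PseudoRefl.mem_specialLinear_iff.1 (hsl i))
      perm_mem := fun σ hσ => by
        obtain ⟨g, -, hdet, hgσ⟩ := WreathTensor14.exists_perm_GL (F := F) (m := k) σ hσ
        rw [← hgσ]
        exact hlift (by rw [hgσ]; exact WreathTensor14.permE_mem_mono σ)
          (fun u v => by rw [hgσ]; exact permE_iso hf σ u v) hdet }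
  by_cases hsc : OnlyScal f₁ M'
  · refine Or.inl (le_antisymm (le_inf (fun g hg => ?_) hMle) hle)
    obtain ⟨g, rfl⟩ := ψ.surjective g
    exact (hψW g).2 (honly τ f₁ M' hU hsc _ (hmem g hg))
  · refine Or.inr (le_antisymm hMle (gu_le_of_centres hF hn hτ hB fun v hv => ⟨hv, fun d hd => ?_⟩))
    obtain ⟨Z, rfl⟩ := hφ v
    have hZ : Φ Z Z = 0 := (mul_eq_zero.1 ((hform Z Z).symm.trans hv)).resolve_left hc
    obtain ⟨_, ⟨g, hg, rfl⟩, hgX⟩ := centre_of_not_onlyScal hU hs hsc hZ (c := d * c)
      (by rw [map_mul, hcτ, ← add_mul, hd, zero_mul])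
    convert (Subgroup.mem_comap.1 hg) using 1
    refine CfsgLib.TransvGL.ext_mulVec fun x => ?_
    obtain ⟨u, rfl⟩ := hφ x
    change (uT hB hv d : Matrix (Fin n) (Fin n) F) *ᵥ φ u = (ψ g : Matrix (Fin n) (Fin n) F) *ᵥ φ u
    rw [hψ, hgX, uT_mulVec, hform, hφadd, hφsmul, ← mul_assoc]

end CfsgLib.WreathForm14
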