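import Cfsg.Agent.TensorMax.Intersection
import Cfsg.Agent.UnitTensor96.Forms

/-!
A unitary space written as matrices `X`, the tensor product of two unitary spaces: contractions,
the product form and root maps at the isotropic vectors of the second factor.
-/

set_option autoImplicit false
set_option linter.unusedSectionVars false

namespace CfsgLib.WreathForm14

open Matrix Module
open CfsgLib.TensorMax (InM rootMap pure pure_mulVec rootMap_apply)
open CfsgLib.UnitCentres (add_right smul_right zero_left zero_right sub_left sub_right orth_comm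
  upair upair_apply exists_upair_eq Iso uT uT_mulVec uT_iso uT_mem_specialLinear)

variable {F : Type*} [Field F] {τ : F ≃+* F} {ι κ : Type} [Fintype ι] [DecidableEq ι] [Fintype κ]
  [DecidableEq κ] {b : (ι → F) → (ι → F) → F} {f : (κ → F) → (κ → F) → F}

/-- The covector `z ↦ f z w`. -/
def dual (f : (κ → F) → (κ → F) → F) (w : κ → F) : κ → F := fun j => f (Pi.single j 1) w

/-- The contraction with a vector of the second factor. -/
def ctr (f : (κ → F) → (κ → F) → F) (w : κ → F) : Matrix ι κ F →ₗ[F] (ι → F) where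
  toFun X := X *ᵥ dual f w
  map_add' X Y := add_mulVec X Y _
  map_smul' c X := smul_mulVec c X _

@[simp] lemma ctr_apply (w : κ → F) (X : Matrix ι κ F) : ctr f w X = X *ᵥ dual f w := rfl

/-- The product of the two forms. -/
def phi (b : (ι → F) → (ι → F) → F) (f : (κ → F) → (κ → F) → F) (X Y : Matrix ι κ F) : F :=
  ∑ j, ∑ l, b (Xᵀ j) (Yᵀ l) * f (Pi.single j 1) (Pi.single l 1)

/-- The root map with coefficient `θ`. -/
def R (f : (κ → F) → (κ → F) → F) (θ : Matrix ι ι F) (w : κ → F) :
    Matrix ι κ F →ₗ[F] Matrix ι κ F := rootMap θ w (dual f w)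

@[simp] lemma R_apply (θ : Matrix ι ι F) (w : κ → F) (X : Matrix ι κ F) :
    R f θ w X = pure (θ *ᵥ ctr f w X) w := rfl

/-- A similitude of a two-argument form on any module. -/
def IsSim {V : Type*} [AddCommGroup V] [Module F V] (B : V → V → F) (g : V ≃ₗ[F] V) : Prop :=
  ∃ c : F, ∀ u v, B (g u) (g v) = c * B u v

/-- `θ'` is the adjoint of `θ`. -/
def IsAdj (b : (ι → F) → (ι → F) → F) (θ θ' : Matrix ι ι F) : Prop :=
  ∀ x u, b (θ' *ᵥ x) u = b x (θ *ᵥ u)

/-- A group on matrices preserving the product form up to scalars and containing the special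
isometries of the second factor. -/
structure Ctx (τ : F ≃+* F) (b : (ι → F) → (ι → F) → F) (f : (κ → F) → (κ → F) → F)
    (M : Subgroup (Matrix ι κ F ≃ₗ[F] Matrix ι κ F)) : Prop where
  ub : Cfsg.Geo.IsUnitaryForm τ b
  uf : Cfsg.Geo.IsUnitaryForm τ f
  three : 3 ≤ Fintype.card κ
  sim : ∀ g ∈ M, IsSim (phi b f) g
  right : ∀ a : GL κ F, Iso f a → a ∈ Cfsg.Geo.specialLinear κ F →
    ∃ e ∈ M, ∀ X, e X = X * (a : Matrix κ κ F)ᵀ

lemma sum_left (hf : Cfsg.Geo.IsUnitaryForm τ f) {γ : Type*} (s : Finset γ) (x : γ → κ → F)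
    (v : κ → F) : f (∑ i ∈ s, x i) v = ∑ i ∈ s, f (x i) v :=
  map_sum (upair hf v) x s

section
variable (hf : Cfsg.Geo.IsUnitaryForm τ f)
include hf

lemma dotProduct_dual (z w : κ → F) : z ⬝ᵥ dual f w = f z w := by
  conv_rhs => rw [pi_eq_sum_univ' z, sum_left hf]
  exact Finset.sum_congr rfl fun j _ => (hf.smul_left _ _ _).symm

lemma dual_add (w w' : κ → F) : dual f (w + w') = dual f w + dual f w' :=
  funext fun _ => add_right hf _ _ _

lemma dual_sub (w w' : κ → F) : dual f (w - w') = dual f w - dual f w' :=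
  funext fun _ => sub_right hf _ _ _

lemma dual_smul (c : F) (w : κ → F) : dual f (c • w) = τ c • dual f w :=
  funext fun _ => smul_right hf c _ _

lemma dual_zero : dual f (0 : κ → F) = 0 := funext fun _ => zero_right hf _

lemma dual_ne_zero {w : κ → F} (hw : w ≠ 0) : dual f w ≠ 0 := fun h => by
  obtain ⟨⟨z, hz⟩, -⟩ := hf.nondegenerate w hw
  exact hz (by rw [← dotProduct_dual hf, h, dotProduct_zero])

lemma exists_dual_eq [Finite F] (ψ : κ → F) : ∃ w, dual f w = ψ := by
  obtain ⟨w, hw⟩ := exists_upair_eq hf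
    ({ toFun := fun z => z ⬝ᵥ ψ
       map_add' := fun x y => add_dotProduct x y ψ
       map_smul' := fun c x => smul_dotProduct c x ψ } : (κ → F) →ₗ[F] F)
  refine ⟨w, funext fun j => ?_⟩
  simpa [dual] using LinearMap.congr_fun hw (Pi.single j 1)

lemma ctr_pure (u : ι → F) (z w : κ → F) : ctr f w (pure u z) = f z w • u := by
  rw [ctr_apply, pure_mulVec, dotProduct_dual hf]

lemma ctr_add (w w' : κ → F) (X : Matrix ι κ F) : ctr f (w + w') X = ctr f w X + ctr f w' X := by
  simp [dual_add hf, mulVec_add]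

lemma ctr_sub (w w' : κ → F) (X : Matrix ι κ F) : ctr f (w - w') X = ctr f w X - ctr f w' X := by
  simp [dual_sub hf, mulVec_sub]

lemma ctr_smul (c : F) (w : κ → F) (X : Matrix ι κ F) : ctr f (c • w) X = τ c • ctr f w X := by
  simp [dual_smul hf, mulVec_smul]

lemma ctr_zero (X : Matrix ι κ F) : ctr f 0 X = 0 := by simp [dual_zero hf]

lemma ctr_ext [Finite F] {X : Matrix ι κ F} (h : ∀ w, ctr f w X = 0) : X = 0 :=
  Matrix.ext_of_mulVec_single fun j => by
    obtain ⟨w, hw⟩ := exists_dual_eq hf (Pi.single j 1)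
    rw [← hw, zero_mulVec]
    exact h w

/-- An element of the second factor on matrices. -/
lemma mul_transpose_eq {a : Matrix κ κ F} {y w v : κ → F}
    (ha : ∀ x, a *ᵥ x = x + f x y • w + f x v • y) (X : Matrix ι κ F) :
    X * aᵀ = X + pure (ctr f y X) w + pure (ctr f v X) y := by
  ext i j
  have h := congrFun (ha (X i)) j
  rw [← dotProduct_dual hf, ← dotProduct_dual hf] at h
  simp only [Pi.add_apply, Pi.smul_apply, smul_eq_mul] at h
  rw [Matrix.mul_apply]
  simp only [Matrix.add_apply, TensorMax.pure, vecMulVec_apply, ctr_apply]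
  refine (Eq.trans ?_ h)
  simp [mulVec, dotProduct, mul_comm]

lemma R_sq {θ θ' : Matrix ι ι F} {w : κ → F} (hw : f w w = 0) (X : Matrix ι κ F) :
    R f θ w (R f θ' w X) = 0 := by
  rw [R_apply, R_apply, ctr_pure hf, hw, zero_smul, mulVec_zero, TensorMax.pure, zero_vecMulVec]

/-- An element of the second factor fixing what is orthogonal to two vectors. -/
lemma exists_transvection_elem {M : Subgroup (Matrix ι κ F ≃ₗ[F] Matrix ι κ F)}
    (hM : Ctx τ b f M) {c : F} (hc : c + τ c = 0) {w : κ → F} (hw : f w w = 0) :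
    InM M (R f (c • (1 : Matrix ι ι F)) w) := by
  obtain ⟨e, he, heX⟩ := hM.right _ (uT_iso hf hw hc) (uT_mem_specialLinear hf hw c)
  refine ⟨e, he, fun X => ?_⟩
  rw [heX]
  ext i j
  have h := congrFun (uT_mulVec hf hw c (X i)) j
  simp only [Pi.add_apply, Pi.smul_apply, smul_eq_mul, ← dotProduct_dual hf] at h
  rw [Matrix.mul_apply]
  simp only [Matrix.add_apply, R_apply, TensorMax.pure, vecMulVec_apply, ctr_apply, smul_mulVec, one_mulVec,
    Pi.smul_apply, smul_eq_mul]
  refine (Eq.trans ?_ h)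
  simp [mulVec, dotProduct, mul_comm]

end

section
variable (hb : Cfsg.Geo.IsUnitaryForm τ b) (hf : Cfsg.Geo.IsUnitaryForm τ f)
include hb

lemma phi_add_left (X X' Y : Matrix ι κ F) : phi b f (X + X') Y = phi b f X Y + phi b f X' Y := by
  simp only [phi, ← Finset.sum_add_distrib, ← add_mul]
  exact Finset.sum_congr rfl fun j _ => Finset.sum_congr rfl fun l _ => by
    rw [← hb.add_left]; rfl

lemma phi_smul_left (c : F) (X Y : Matrix ι κ F) : phi b f (c • X) Y = c * phi b f X Y := by
  simp only [phi, Finset.mul_sum, ← mul_assoc]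
  exact Finset.sum_congr rfl fun j _ => Finset.sum_congr rfl fun l _ => by
    rw [← hb.smul_left]; rfl

include hf

lemma phi_herm (X Y : Matrix ι κ F) : phi b f X Y = τ (phi b f Y X) := by
  rw [phi, phi, map_sum, Finset.sum_comm]
  refine Finset.sum_congr rfl fun j _ => ?_
  rw [map_sum]
  exact Finset.sum_congr rfl fun l _ => by rw [map_mul, ← hb.herm, ← hf.herm]

lemma phi_add_right (X Y Y' : Matrix ι κ F) : phi b f X (Y + Y') = phi b f X Y + phi b f X Y' := by
  rw [phi_herm hb hf, phi_add_left hb, map_add, ← phi_herm hb hf, ← phi_herm hb hf]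

lemma phi_smul_right (c : F) (X Y : Matrix ι κ F) : phi b f X (c • Y) = τ c * phi b f X Y := by
  rw [phi_herm hb hf, phi_smul_left hb, map_mul, ← phi_herm hb hf]

lemma phi_pure_right (X : Matrix ι κ F) (u : ι → F) (z : κ → F) :
    phi b f X (pure u z) = b (ctr f z X) u := by
  have h : ∀ j, (∑ l, b (Xᵀ j) ((pure u z)ᵀ l) * f (Pi.single j 1) (Pi.single l 1))
      = f (Pi.single j 1) z * b (Xᵀ j) u := fun j => by
    have hp : ∀ l, (pure u z)ᵀ l = z l • u := fun l => funext fun i => by
      simp [TensorMax.pure, vecMulVec_apply, mul_comm]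
    have hz : f (Pi.single j 1) z = ∑ l, τ (z l) * f (Pi.single j 1) (Pi.single l 1) := by
      rw [hf.herm, ← dotProduct_dual hf, dotProduct, map_sum]
      exact Finset.sum_congr rfl fun l _ => by rw [map_mul]; exact congrArg _ (hf.herm _ _).symm
    rw [hz, Finset.sum_mul]
    exact Finset.sum_congr rfl fun l _ => by rw [hp, smul_right hb]; ring
  rw [phi, Finset.sum_congr rfl fun j _ => h j, ctr_apply]
  have hX : X *ᵥ dual f z = ∑ j, f (Pi.single j 1) z • Xᵀ j := funext fun i => by
    simp [mulVec, dotProduct, dual, mul_comm]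
  rw [hX, sum_left hb]
  exact Finset.sum_congr rfl fun j _ => (hb.smul_left _ _ _).symm

lemma phi_pure_left (u : ι → F) (z : κ → F) (Y : Matrix ι κ F) :
    phi b f (pure u z) Y = b u (ctr f z Y) := by
  rw [phi_herm hb hf, phi_pure_right hb hf, ← hb.herm]

lemma phi_pure_pure (u u' : ι → F) (z z' : κ → F) :
    phi b f (pure u z) (pure u' z') = f z z' * b u u' := by
  rw [phi_pure_right hb hf, ctr_pure hf, hb.smul_left]

lemma phi_nondeg [Finite F] {X : Matrix ι κ F} (h : ∀ Y, phi b f X Y = 0) : X = 0 :=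
  ctr_ext hf fun w => by
    by_contra hne
    obtain ⟨-, u, hu⟩ := hb.nondegenerate _ hne
    exact hu (by rw [← phi_pure_right hb hf]; exact h _)

/-- A contraction of the image under a similitude. -/
lemma ctr_image [Finite F] {g : Matrix ι κ F ≃ₗ[F] Matrix ι κ F} {c : F}
    (hc : ∀ X Y, phi b f (g X) (g Y) = c * phi b f X Y) {w v : κ → F}
    {α : (ι → F) →ₗ[F] (ι → F)} (hα : ∀ u, g (pure u w) = pure (α u) v) (X : Matrix ι κ F)
    (u : ι → F) : b (ctr f v (g X)) (α u) = c * b (ctr f w X) u := by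
  rw [← phi_pure_right hb hf, ← hα, hc, phi_pure_right hb hf]

end

end CfsgLib.WreathForm14
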