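import Cfsg.Agent.WreathForm14.Factor

/-!
Conjugates of root elements: when they are monomial, or move a large part of an image of a member
into itself, the conjugating element is monomial.
-/

set_option autoImplicit false
set_option linter.unusedSectionVars false

namespace CfsgLib.WreathForm14

open Matrix Module
open CfsgLib.TensorMax (InM rootMap pure pure_mulVec memb mem_memb pure_mem_memb pure_eq_zero_iff)
open CfsgLib.UnitCentres (Iso exists_traceZero)
open CfsgLib.WreathTensor14 (TV slot slotGroup kronE permE permE_mul_kronE InV inM_slotGroup_iff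
  monoGroup smemb symm_pure_mem rootV rootV_apply rootV_mem_smemb range_rootV rootV_comp rootV_eq_zero
  nil nil_apply mono_classify finrank_smemb IsSwap eq_one_of_kronE_mul_permE)

variable {F : Type*} [Field F] [Finite F] {τ : F ≃+* F} {m s : ℕ}
  {f : (Fin m → F) → (Fin m → F) → F}
  {M : Subgroup (TV F m (s + 1) ≃ₗ[F] TV F m (s + 1))}

/-- The nilpotent map of the root group at an isotropic vector of the factor `k`. -/
noncomputable def nW (f : (Fin m → F) → (Fin m → F) → F) (k : Fin (s + 1)) (w : Fin m → F) :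
    TV F m (s + 1) →ₗ[F] TV F m (s + 1) := rootV k w (dual f w)

lemma nW_mem (k : Fin (s + 1)) (w : Fin m → F) (x : TV F m (s + 1)) : nW f k w x ∈ smemb k w :=
  rootV_mem_smemb _ _ _ _

lemma nW_apply (k : Fin (s + 1)) (w : Fin m → F) (x : TV F m (s + 1)) :
    nW f k w x = (slot k).symm (pure (ctr f w (slot k x)) w) := rootV_apply _ _ _ _

section
variable (hM : UBase τ f M)
include hM

lemma range_nW (k : Fin (s + 1)) {w : Fin m → F} (hw : w ≠ 0) :
    LinearMap.range (nW f k w) = smemb k w := range_rootV k w (dual_ne_zero hM.uf hw)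

lemma nW_eq_zero {k : Fin (s + 1)} {w w' : Fin m → F} (h : f w' w = 0) {x : TV F m (s + 1)}
    (hx : x ∈ smemb k w') : nW f k w x = 0 :=
  rootV_eq_zero (by rw [dotProduct_dual hM.uf, h]) hx

lemma nW_nW (k : Fin (s + 1)) {w : Fin m → F} (h : f w w = 0) (x : TV F m (s + 1)) :
    nW f k w (nW f k w x) = 0 := rootV_comp k (by rw [dotProduct_dual hM.uf, h]) x

lemma nW_eq_zero_iff (k : Fin (s + 1)) {w : Fin m → F} (hw : w ≠ 0) (x : TV F m (s + 1)) :
    nW f k w x = 0 ↔ ∀ u ∈ smemb k w, pform τ f (s + 1) x u = 0 := by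
  have hb := pform_unitary hM.uf s
  rw [nW_apply, LinearEquiv.map_eq_zero_iff, pure_eq_zero_iff hw]
  refine ⟨fun h u hu => ?_, fun h => by_contra fun hne => ?_⟩
  · obtain ⟨y, hy⟩ := mem_memb.1 hu
    rw [← phi_slot k, show slot k u = _ from hy.symm, phi_pure_right hb hM.uf, h,
      UnitCentres.zero_left hb]
  · obtain ⟨-, y, hy⟩ := hb.nondegenerate _ hne
    refine hy ?_
    rw [← phi_pure_right hb hM.uf, ← (slot k).apply_symm_apply (pure y w), phi_slot]
    exact h _ (symm_pure_mem k y w)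

/-- The root group. -/
lemma exists_root (k : Fin (s + 1)) {w : Fin m → F} (hw : w ≠ 0) (hww : f w w = 0) {c : F}
    (hc : c + τ c = 0) : ∃ x ∈ M, (∀ v, x v = v + c • nW f k w v) ∧
      ∀ u v, pform τ f (s + 1) (x u) (x v) = pform τ f (s + 1) u v := by
  have hf := hM.uf
  have : Nonempty (Fin m) := ⟨⟨0, by have := hM.three; omega⟩⟩
  obtain ⟨e, he, heX⟩ := exists_transvection_elem hf (hM.ctx k) hc hww
  have hiso := iso_of_rad (hM.ctx k) he hww (φ := c • ctr f w) fun X hX => by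
    rw [heX, R_apply, hX]
    simp [hX, mulVec_zero]
  obtain ⟨x, hx, rfl⟩ := he
  refine ⟨x, hx, fun v => (slot k).injective ?_, fun u v => ?_⟩
  · have h := heX (slot k v)
    rw [WreathTensor14.slotConj_apply, LinearEquiv.symm_apply_apply, R_apply, smul_mulVec,
      one_mulVec, pure_smul_left] at h
    rw [h, map_add, map_smul, nW_apply, LinearEquiv.apply_symm_apply]
  · have h := hiso (slot k u) (slot k v)
    simpa [phi_slot] using h

omit hM in
lemma exists_swap_form {g : TV F m (s + 1) ≃ₗ[F] TV F m (s + 1)} (h : IsSwap g) :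
    ∃ (gs : Fin (s + 1) → GL (Fin m) F) (a b : Fin (s + 1)),
      a ≠ b ∧ g = kronE gs * permE (Equiv.swap a b) := by
  obtain ⟨-, D, a, b, hab, rfl⟩ := h
  refine ⟨D * fun i => (D ((Equiv.swap a b)⁻¹ i))⁻¹, a, b, hab, ?_⟩
  rw [map_mul, mul_assoc, ← map_inv, permE_mul_kronE, ← mul_assoc]
  rfl

/-- If the conjugates of a root group are monomial, so is the conjugating element. -/
theorem mono_of_conj (hsc : OnlyScal f M)
    (hIH : ∀ k, ∀ a ∈ WreathTensor14.factor M k, a ∈ monoGroup F m s)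
    {g : TV F m (s + 1) ≃ₗ[F] TV F m (s + 1)} (hg : g ∈ M) {j : Fin (s + 1)} {w : Fin m → F}
    (hw : w ≠ 0) (hww : f w w = 0)
    (hall : ∀ (c : F) (x : TV F m (s + 1) ≃ₗ[F] TV F m (s + 1)), c + τ c = 0 → x ∈ M →
      (∀ v, x v = v + c • nW f j w v) → g⁻¹ * x * g ∈ monoGroup F m (s + 1)) :
    g ∈ monoGroup F m (s + 1) := by
  by_contra hng
  have key : ∀ (c : F) (x : TV F m (s + 1) ≃ₗ[F] TV F m (s + 1)), c + τ c = 0 → c ≠ 0 → x ∈ M →
      (∀ v, x v = v + c • nW f j w v) → IsSwap (g⁻¹ * x * g) := by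
    intro c x hc hc0 hx hxv
    have hnil : nil (g⁻¹ * x * g) = g.symm.toLinearMap ∘ₗ (c • nW f j w) ∘ₗ g.toLinearMap :=
      LinearMap.ext fun v => by
        change g.symm (x (g v)) - v = g.symm (c • nW f j w (g v))
        rw [hxv, map_add, LinearEquiv.symm_apply_apply, add_sub_cancel_left]
    have hr : LinearMap.range (nil (g⁻¹ * x * g)) = (smemb j w).map g.symm.toLinearMap := by
      rw [hnil, LinearMap.range_comp, LinearMap.range_comp_of_range_eq_top _ g.range,
        LinearMap.range_smul _ _ hc0, range_nW hM j hw]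
    have hrank : finrank F (LinearMap.range (nil (g⁻¹ * x * g))) = m ^ s := by
      rw [hr, LinearEquiv.finrank_map_eq, finrank_smemb _ hw]
    have hne : g⁻¹ * x * g ≠ 1 := fun h => by
      rw [h, show nil (1 : TV F m (s + 1) ≃ₗ[F] TV F m (s + 1)) = 0 from
        LinearMap.ext fun v => sub_self v, LinearMap.range_zero, finrank_bot] at hrank
      exact (pow_pos (show 0 < m by have := hM.three; omega) s).ne hrank
    rcases mono_classify hM.three (hall c x hc hx hxv) (fun v => by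
        rw [hnil]
        simp [map_smul, nW_nW hM j hww]) hne hrank.le with ⟨k, w', hw', hkw⟩ | hswap
    · refine absurd ?_ hng
      have := mono_of_member hM hsc hIH (M.inv_mem hg) hw hww hw' fun z hz => by
        rw [← hkw, hr]; exact ⟨z, hz, rfl⟩
      simpa using (monoGroup F m (s + 1)).inv_mem this
    · exact hswap
  obtain ⟨c₁, hc₁, hcσ₁⟩ := exists_traceZero hM.uf
  obtain ⟨x₁, hx₁, hx₁v, -⟩ := exists_root hM j hw hww hcσ₁
  have h₁ := key c₁ x₁ hcσ₁ hc₁ hx₁ hx₁v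
  obtain ⟨c₂, hc₂, hcσ₂, hsum⟩ : ∃ c₂, c₂ ≠ 0 ∧ c₂ + τ c₂ = 0 ∧ c₁ + c₂ ≠ 0 := by
    by_cases h2 : (2 : F) = 0
    · obtain ⟨l, hlτ, hl0, hl1⟩ := hM.small.resolve_right (by have := h₁.1; omega)
      refine ⟨l * c₁, mul_ne_zero hl0 hc₁, by rw [map_mul, hlτ, ← mul_add, hcσ₁, mul_zero],
        fun h => hl1 ?_⟩
      have h' : (1 + l) * c₁ = 0 := by linear_combination h
      linear_combination (mul_eq_zero.1 h').resolve_right hc₁ - h2
    · exact ⟨c₁, hc₁, hcσ₁, fun h => (mul_ne_zero h2 hc₁) (by rw [two_mul, h])⟩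
  obtain ⟨x₂, hx₂, hx₂v, -⟩ := exists_root hM j hw hww hcσ₂
  have h₂ := key c₂ x₂ hcσ₂ hc₂ hx₂ hx₂v
  have hx₃v : ∀ v, (x₁ * x₂ : TV F m (s + 1) ≃ₗ[F] TV F m (s + 1)) v
      = v + (c₁ + c₂) • nW f j w v := fun v => by
    rw [LinearEquiv.mul_apply, hx₂v, hx₁v, map_add, map_smul, nW_nW hM j hww, smul_zero, add_zero,
      add_smul]
    abel
  have h₃ := key (c₁ + c₂) (x₁ * x₂) (by rw [map_add]; linear_combination hcσ₁ + hcσ₂) hsum
    (M.mul_mem hx₁ hx₂) hx₃v
  rw [show g⁻¹ * (x₁ * x₂) * g = g⁻¹ * x₁ * g * (g⁻¹ * x₂ * g) by group] at h₃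
  obtain ⟨G₁, a₁, b₁, hab₁, e₁⟩ := exists_swap_form h₁
  obtain ⟨G₂, a₂, b₂, hab₂, e₂⟩ := exists_swap_form h₂
  obtain ⟨G₃, a₃, b₃, hab₃, e₃⟩ := exists_swap_form h₃
  rw [e₁, e₂, mul_assoc (kronE G₁), ← mul_assoc (permE _) (kronE G₂), permE_mul_kronE,
    mul_assoc (kronE _) (permE _) (permE _), ← mul_assoc, ← map_mul, ← map_mul] at e₃
  set G := G₁ * fun i => G₂ ((Equiv.swap a₁ b₁)⁻¹ i)
  have h1 : kronE (G₃⁻¹ * G) * permE (Equiv.swap a₁ b₁ * Equiv.swap a₂ b₂ * (Equiv.swap a₃ b₃)⁻¹)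
      = (1 : TV F m (s + 1) ≃ₗ[F] TV F m (s + 1)) := by
    rw [map_mul, map_inv, map_mul permE, map_inv, mul_assoc, ← mul_assoc (kronE G), e₃]
    group
  have h2 := congrArg Equiv.Perm.sign (eq_one_of_kronE_mul_permE hM.three h1).1
  simp [Equiv.Perm.sign_swap hab₁, Equiv.Perm.sign_swap hab₂, Equiv.Perm.sign_swap hab₃] at h2

/-- A root group keeping a large part of the image of a member forces a monomial element. -/
theorem mono_of_meet (hsc : OnlyScal f M)
    (hIH : ∀ k, ∀ a ∈ WreathTensor14.factor M k, a ∈ monoGroup F m s) {d : ℕ}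
    (hd : ∀ g ∈ M, ∀ (k : Fin (s + 1)) (v : Fin m → F) (j : Fin (s + 1)) (w : Fin m → F),
      v ≠ 0 → f v v = 0 → w ≠ 0 → f w w = 0 →
      d < finrank F ↥((smemb k v).map (g : TV F m (s + 1) ≃ₗ[F] TV F m (s + 1)).toLinearMap
        ⊓ smemb j w) → g ∈ monoGroup F m (s + 1))
    {g : TV F m (s + 1) ≃ₗ[F] TV F m (s + 1)} (hg : g ∈ M) {k j : Fin (s + 1)} {v z : Fin m → F}
    (hv : v ≠ 0) (hvv : f v v = 0) (hz : z ≠ 0) (hzz : f z z = 0)
    (S : Submodule F (TV F m (s + 1))) (hS : S ≤ (smemb k v).map g.toLinearMap)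
    (hdS : d < finrank F S)
    (hNS : ∀ x ∈ S, nW f j z x ∈ (smemb k v).map g.toLinearMap) :
    g ∈ monoGroup F m (s + 1) := by
  refine mono_of_conj hM hsc hIH hg (j := j) hz hzz fun c x _ hx hxv =>
    hd _ (M.mul_mem (M.mul_mem (M.inv_mem hg) hx) hg) k v k v hv hvv hv hvv ?_
  set T := (smemb k v).map g.toLinearMap
  have hle : (S.map x.toLinearMap).map g.symm.toLinearMap
      ≤ (smemb k v).map (g⁻¹ * x * g).toLinearMap ⊓ smemb k v := by
    rintro _ ⟨_, ⟨y, hy, rfl⟩, rfl⟩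
    obtain ⟨y', hy', hyy⟩ := hS hy
    refine ⟨⟨y', hy', ?_⟩, ?_⟩
    · change g.symm (x (g y')) = g.symm (x y)
      rw [show g y' = y from hyy]
    · obtain ⟨z', hz', hzz'⟩ : x y ∈ T := by
        rw [hxv]; exact T.add_mem (hS hy) (T.smul_mem c (hNS y hy))
      rw [LinearEquiv.coe_coe, LinearEquiv.coe_coe, show x y = g z' from hzz'.symm, g.symm_apply_apply]
      exact hz'
  refine lt_of_lt_of_le hdS (le_of_eq_of_le ?_ (Submodule.finrank_mono hle))
  rw [LinearEquiv.finrank_map_eq, LinearEquiv.finrank_map_eq]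

end

end CfsgLib.WreathForm14
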