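import Cfsg.Agent.WreathForm14.Radical
import Cfsg.Agent.TensorMax.Member

/-!
With only scalar root coefficients, a similitude carrying one isotropic member to a member is a
product map.
-/

set_option autoImplicit false
set_option linter.unusedSectionVars false

namespace CfsgLib.WreathForm14

open Matrix Module
open CfsgLib.TensorMax (InM rootMap pure pure_mulVec memb mem_memb pure_mem_memb pureL pureL_apply
  colL colL_apply exists_dual pure_eq_zero_iff pureL_injective)
open CfsgLib.UnitCentres (add_right smul_right zero_left zero_right sub_left sub_right orth_comm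
  upair upair_apply Iso exists_traceZero exists_orth_sep norm_fixed exists_norm)
open CfsgLib.UnitTensor96 (exists_iso_dual exists_iso_conn span_iso_perp)

variable {F : Type*} [Field F] [Finite F] {τ : F ≃+* F} {ι κ : Type} [Fintype ι] [DecidableEq ι]
  [Fintype κ] [DecidableEq κ] {b : (ι → F) → (ι → F) → F} {f : (κ → F) → (κ → F) → F}
  {M M' : Subgroup (Matrix ι κ F ≃ₗ[F] Matrix ι κ F)} {e : Matrix ι κ F ≃ₗ[F] Matrix ι κ F}

lemma pure_zero_r (u : ι → F) : pure u (0 : κ → F) = (0 : Matrix ι κ F) := by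
  ext i j; simp [TensorMax.pure, vecMulVec_apply]

/-- The vectors over which `e` is `α` on the first factor. -/
def prodSub (e : Matrix ι κ F ≃ₗ[F] Matrix ι κ F) (α : (ι → F) →ₗ[F] (ι → F)) :
    Submodule F (κ → F) where
  carrier := {z | ∃ ξ : κ → F, ∀ u, e (pure u z) = pure (α u) ξ}
  add_mem' := by
    rintro z z' ⟨ξ, h⟩ ⟨ξ', h'⟩
    exact ⟨ξ + ξ', fun u => by rw [pure_add_right, map_add, h, h', ← pure_add_right]⟩
  zero_mem' := ⟨0, fun u => by rw [pure_zero_r, pure_zero_r, map_zero]⟩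
  smul_mem' := by
    rintro c z ⟨ξ, h⟩
    exact ⟨c • ξ, fun u => by rw [pure_smul_right, map_smul, h, ← pure_smul_right]⟩

/-- Two groups and a similitude carrying one onto the other. -/
structure Move (τ : F ≃+* F) (b : (ι → F) → (ι → F) → F) (f : (κ → F) → (κ → F) → F)
    (M M' : Subgroup (Matrix ι κ F ≃ₗ[F] Matrix ι κ F))
    (e : Matrix ι κ F ≃ₗ[F] Matrix ι κ F) : Prop where
  src : Ctx τ b f M
  tgt : Ctx τ b f M'
  scal : Scal f M
  scal' : Scal f M'
  sim : IsSim (phi b f) e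
  conj : ∀ x ∈ M, e.symm.trans (x.trans e) ∈ M'
  conj' : ∀ y ∈ M', e.trans (y.trans e.symm) ∈ M

/-- The data of a member carried to a member: the factor and the scale. -/
structure Img (τ : F ≃+* F) (b : (ι → F) → (ι → F) → F) (f : (κ → F) → (κ → F) → F)
    (e : Matrix ι κ F ≃ₗ[F] Matrix ι κ F) (α : (ι → F) ≃ₗ[F] (ι → F)) (ρ : F)
    (w v : κ → F) : Prop where
  w0 : w ≠ 0
  ww : f w w = 0
  v0 : v ≠ 0
  vv : f v v = 0
  map : ∀ u, e (pure u w) = pure (α u) v
  ρ0 : ρ ≠ 0
  ρτ : τ ρ = ρ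
  ker : ∀ X, ctr f w X = 0 ↔ ctr f v (e X) = 0
  mid : ∀ z, f z w = 0 → ∃ (ξ : κ → F) (δ : (ι → F) →ₗ[F] (ι → F)), f ξ v = 0 ∧
    ∀ u, e (pure u z) = pure (α u) ξ + pure (δ u) v
  scale : ∀ (z ξ : κ → F) (δ : (ι → F) →ₗ[F] (ι → F)),
    (∀ u, e (pure u z) = pure (α u) ξ + pure (δ u) v) → ∀ X, ctr f v (e X) = 0 →
      ctr f ξ (e X) = ρ • α (ctr f z X)
  scalev : ∀ X, ctr f v (e X) = ρ • α (ctr f w X)
  norm : ∀ (z ξ : κ → F) (δ : (ι → F) →ₗ[F] (ι → F)), f z w = 0 →
    (∀ u, e (pure u z) = pure (α u) ξ + pure (δ u) v) → f ξ ξ = ρ * f z z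

variable (H : Move τ b f M M' e)
include H

set_option maxHeartbeats 800000 in
/-- A member going to a member gives the data. -/
lemma exists_img [Nonempty ι] {w v : κ → F} (hw : w ≠ 0) (hww : f w w = 0)
    (hmap : ∀ u, e (pure u w) ∈ memb v) :
    ∃ (α : (ι → F) ≃ₗ[F] (ι → F)) (ρ : F), Img τ b f e α ρ w v := by
  have hf := H.src.uf
  have hb := H.src.ub
  obtain ⟨u₀, hu₀⟩ := exists_ne (0 : ι → F)
  have hv : v ≠ 0 := by
    rintro rfl
    obtain ⟨z, hz⟩ := mem_memb.1 (hmap u₀)
    refine hu₀ ((pure_eq_zero_iff hw).1 (e.injective ?_))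
    rw [← hz, map_zero, pure_zero_r]
  obtain ⟨η, hη⟩ := exists_dual hv
  let α₀ : (ι → F) →ₗ[F] (ι → F) := colL η ∘ₗ e.toLinearMap ∘ₗ pureL w
  have hα₀ : ∀ u, e (pure u w) = pure (α₀ u) v := fun u => by
    obtain ⟨z, hz⟩ := mem_memb.1 (hmap u)
    simp only [α₀, LinearMap.comp_apply, pureL_apply, LinearEquiv.coe_coe, colL_apply]
    rw [← hz, pure_mulVec, hη, one_smul]
  have hinj : Function.Injective α₀ := fun x y hxy =>
    pureL_injective hw (e.injective (by simp [hα₀, hxy]))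
  let α := LinearEquiv.ofBijective α₀ ⟨hinj, LinearMap.surjective_of_injective hinj⟩
  have hα : ∀ u, e (pure u w) = pure (α u) v := hα₀
  obtain ⟨c, hc⟩ := H.sim
  obtain ⟨-, u₁, hu₁⟩ := hb.nondegenerate u₀ hu₀
  have hc0 : c ≠ 0 := fun h0 => by
    refine hu₀ ((pure_eq_zero_iff hw).1 (e.injective ?_))
    rw [map_zero]
    refine phi_nondeg hb hf fun Y => ?_
    obtain ⟨y, rfl⟩ := e.surjective Y
    rw [hc, h0, zero_mul]
  have hvv : f v v = 0 := by
    obtain ⟨-, u', hu'⟩ := hb.nondegenerate (α u₀)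
      fun h => hu₀ ((LinearEquiv.map_eq_zero_iff α).1 h)
    obtain ⟨p, rfl⟩ := α.surjective u'
    have h4 := hc (pure u₀ w) (pure p w)
    rw [hα, hα, phi_pure_pure hb hf, phi_pure_pure hb hf, hww, zero_mul, mul_zero] at h4
    exact (mul_eq_zero.1 h4).resolve_right hu'
  have himg : ∀ X u, b (ctr f v (e X)) (α u) = c * b (ctr f w X) u := fun X u =>
    ctr_image hb hf hc (α := α.toLinearMap) hα X u
  have hker : ∀ X, ctr f w X = 0 ↔ ctr f v (e X) = 0 := fun X => by
    refine ⟨fun h => by_contra fun hne => ?_, fun h => by_contra fun hne => ?_⟩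
    · obtain ⟨-, y, hy⟩ := hb.nondegenerate _ hne
      obtain ⟨u, rfl⟩ := α.surjective y
      exact hy (by rw [himg, h, zero_left hb, mul_zero])
    · obtain ⟨-, y, hy⟩ := hb.nondegenerate _ hne
      have := himg X y
      rw [h, zero_left hb, zero_eq_mul] at this
      exact this.elim hc0 hy
  -- the images of the vectors orthogonal to `w`
  have hmid : ∀ z, f z w = 0 → ∃ (ξ : κ → F) (δ : (ι → F) →ₗ[F] (ι → F)), f ξ v = 0 ∧
      ∀ u, e (pure u z) = pure (α u) ξ + pure (δ u) v := by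
    intro z hz
    obtain ⟨χ, hχ⟩ := exists_dual (show α u₀ ≠ 0 from fun h => hu₀ ((LinearEquiv.map_eq_zero_iff α).1 h))
    set ξ := χ ᵥ* e (pure u₀ z) with hξ
    have hkz : ∀ u : ι → F, ctr f w (pure u z) = 0 := fun u => by rw [ctr_pure hf, hz, zero_smul]
    have htr : ∀ a', f a' v = 0 → ∃ a, ∀ u, ctr f a' (e (pure u z)) = f z a • α u := by
      intro a' ha'
      obtain ⟨d, hd⟩ := UnitCentres.exists_trace hf (r := -f a' a') (by rw [map_neg, norm_fixed hf])
      obtain ⟨q, hq, hqX⟩ := exists_q H.tgt hvv ha' hd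
      have hgw : ∀ u, (e.trans (q.trans e.symm)) (pure u w) = pure u w := fun u => by
        simp only [LinearEquiv.trans_apply, hα, hqX, ctr_pure hf, hvv, orth_comm hf ha',
          zero_smul, pure_zero_l, add_zero]
        rw [← hα u, e.symm_apply_apply]
      obtain ⟨a, -, ha⟩ := exists_covec_of_rad H.src H.scal hw hww (H.conj' q hq) hgw
        (α.symm.toLinearMap ∘ₗ ctr f a' ∘ₗ e.toLinearMap) fun X hX => by
          simp only [LinearEquiv.trans_apply, hqX, (hker X).1 hX, pure_zero_l, add_zero, map_add,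
            LinearEquiv.symm_apply_apply, LinearMap.comp_apply, LinearEquiv.coe_coe]
          congr 1
          rw [e.symm_apply_eq, hα, α.apply_symm_apply]
      refine ⟨a, fun u => ?_⟩
      have h := ha _ (hkz u)
      simp only [LinearMap.comp_apply, LinearEquiv.coe_coe, α.symm_apply_eq] at h
      rw [h, ctr_pure hf, map_smul]
    have hξv : ∀ a', f a' v = 0 → ∀ u, ctr f a' (e (pure u z)) = f ξ a' • α u := by
      intro a' ha' u
      obtain ⟨a, ha⟩ := htr a' ha'
      rw [ha]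
      congr 1
      have h := congrArg (fun y => χ ⬝ᵥ y) (ha u₀)
      simp only [ctr_apply, dotProduct_mulVec, dotProduct_smul, smul_eq_mul, ← hξ,
        dotProduct_dual hf] at h
      rw [h, dotProduct_comm χ, hχ, mul_one]
    let δ : (ι → F) →ₗ[F] (ι → F) :=
      colL η ∘ₗ (e.toLinearMap ∘ₗ pureL z - pureL ξ ∘ₗ α.toLinearMap)
    have hdec : ∀ u, e (pure u z) = pure (α u) ξ + pure (δ u) v := fun u => by
      obtain ⟨y, hy⟩ := mem_memb.1 (mem_memb_of_ctr hf hv (Z := e (pure u z) - pure (α u) ξ)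
        fun a' ha' => by rw [map_sub, hξv a' ha', ctr_pure hf, sub_self])
      simp only [δ, LinearMap.comp_apply, LinearMap.sub_apply, LinearEquiv.coe_coe, pureL_apply,
        colL_apply, ← hy, pure_mulVec, hη, one_smul]
      rw [hy, add_sub_cancel]
    refine ⟨ξ, δ, ?_, hdec⟩
    have h := (hker _).1 (hkz u₀)
    rw [hdec, map_add, ctr_pure hf, ctr_pure hf, hvv, zero_smul, add_zero, smul_eq_zero] at h
    exact h.resolve_right fun h0 => hu₀ ((LinearEquiv.map_eq_zero_iff α).1 h0)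
  -- the scale
  obtain ⟨a, ha, haa⟩ := exists_aniso_orth hf H.src.three w
  obtain ⟨ξa, δa, hξa, hda⟩ := hmid a ha
  have hξv := orth_comm hf hξa
  set ρ := f ξa ξa
  have hαc : ∀ u u', ρ * b (α u) (α u') = c * b u u' := fun u u' => by
    have h := hc (pure u a) (pure u' a)
    simp only [hda, phi_add_left hb, phi_add_right hb hf, phi_pure_pure hb hf, hξa, hξv, hvv, haa,
      zero_mul, add_zero, one_mul] at h
    exact h
  have hρ0 : ρ ≠ 0 := fun h0 => by
    have h := hαc u₀ u₁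
    rw [h0, zero_mul, zero_eq_mul] at h
    exact h.elim hc0 hu₁
  have hconv : ∀ (x y : ι → F), (∀ u, b x (α u) = c * b y u) → x = ρ • α y := fun x y hxy => by
    refine sub_eq_zero.1 (by_contra fun hne => ?_)
    obtain ⟨-, u', hu'⟩ := hb.nondegenerate _ hne
    obtain ⟨u, rfl⟩ := α.surjective u'
    exact hu' (by rw [sub_left hb, hxy, hb.smul_left, hαc, sub_self])
  refine ⟨α, ρ, hw, hww, hv, hvv, hα, hρ0, norm_fixed hf ξa, hker, hmid, ?_,
    fun X => hconv _ _ (himg X), ?_⟩
  · intro z ξ δ hz X hX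
    refine hconv _ _ fun u => ?_
    have h := hc X (pure u z)
    rw [hz, phi_add_right hb hf, phi_pure_right hb hf, phi_pure_right hb hf, phi_pure_right hb hf,
      hX, zero_left hb, add_zero] at h
    exact h
  · intro z ξ δ hzw hz
    have h1 := (hker (pure u₀ z)).1 (by rw [ctr_pure hf, hzw, zero_smul])
    rw [hz, map_add, ctr_pure hf, ctr_pure hf, hvv, zero_smul, add_zero, smul_eq_zero] at h1
    have hξ := h1.resolve_right fun h0 => hu₀ ((LinearEquiv.map_eq_zero_iff α).1 h0)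
    have h := hc (pure u₀ z) (pure u₁ z)
    simp only [hz, phi_add_left hb, phi_add_right hb hf, phi_pure_pure hb hf, hξ, orth_comm hf hξ,
      hvv, zero_mul, add_zero] at h
    have hb' : b (α u₀) (α u₁) ≠ 0 := fun h0 => by
      have h2 := hαc u₀ u₁
      rw [h0, mul_zero, zero_eq_mul] at h2
      exact h2.elim hc0 hu₁
    refine mul_right_cancel₀ hb' (h.trans ?_)
    linear_combination f z z * (-(hαc u₀ u₁))

/-- Dimension at least four: everything orthogonal to `w` splits. -/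
lemma perp_prod [Nonempty ι] (h4 : 4 ≤ Fintype.card κ) {α : (ι → F) ≃ₗ[F] (ι → F)} {ρ : F}
    {w v : κ → F} (I : Img τ b f e α ρ w v) {z : κ → F} (hz : f z w = 0) :
    z ∈ prodSub e α.toLinearMap := by
  have hf := H.src.uf
  suffices hiso : ∀ y, f y y = 0 → f w y = 0 → y ∈ prodSub e α.toLinearMap from
    Submodule.span_le.2 (fun y hy => hiso y hy.1 hy.2) (span_iso_perp hf h4 I.ww (orth_comm hf hz))
  clear hz z
  intro z hzz hwz
  have hzw := orth_comm hf hwz
  by_cases hm : z ∈ Submodule.span F ({w} : Set (κ → F))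
  · have hwP : w ∈ prodSub e α.toLinearMap := ⟨v, I.map⟩
    exact (Submodule.span_singleton_le_iff_mem _ _).2 hwP hm
  obtain ⟨ξ, δ, hξv, hdec⟩ := I.mid z hzw
  have hvξ := orth_comm hf hξv
  have hξξ : f ξ ξ = 0 := by rw [I.norm z ξ δ hzw hdec, hzz, mul_zero]
  obtain ⟨t, ht0, ht⟩ := exists_traceZero hf
  obtain ⟨x, hx, hxX⟩ := exists_transvection_elem hf H.src ht hzz
  obtain ⟨y, hy, hyX⟩ := (exists_transvection_elem hf H.tgt (c := t / ρ)
    (by rw [map_div₀, I.ρτ, ← add_div, ht, zero_div]) hξξ).neg fun X => R_sq hf hξξ X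
  set g := (e.symm.trans (x.trans e)) * y
  have hg : g ∈ M' := M'.mul_mem (H.conj x hx) hy
  have hgv : ∀ p, g (pure p v) = pure p v := fun p => by
    obtain ⟨u, rfl⟩ := α.surjective p
    simp only [g, LinearEquiv.mul_apply, hyX, LinearMap.neg_apply, R_apply, ctr_pure hf, hvξ,
      zero_smul, mulVec_zero, pure_zero_l, neg_zero, add_zero, LinearEquiv.trans_apply]
    rw [← I.map, e.symm_apply_apply, hxX, R_apply, ctr_pure hf, hwz, zero_smul, mulVec_zero,
      pure_zero_l, add_zero]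
  obtain ⟨a', ha'v, ha'⟩ := exists_covec_of_rad H.tgt H.scal' I.v0 I.vv hg hgv
    (t • δ ∘ₗ ctr f z ∘ₗ e.symm.toLinearMap) fun Y hY => by
      obtain ⟨X, rfl⟩ := e.surjective Y
      simp only [g, LinearEquiv.mul_apply, hyX, LinearMap.neg_apply, R_apply, smul_mulVec,
        one_mulVec, I.scale z ξ δ hdec X hY, LinearEquiv.trans_apply, LinearMap.smul_apply,
        LinearMap.comp_apply, LinearEquiv.coe_coe, LinearEquiv.symm_apply_apply, smul_smul,
        div_mul_cancel₀ _ I.ρ0, map_add, map_neg, pure_smul_left, map_smul]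
      have h2 : e.symm (pure (α (ctr f z X)) ξ)
          = pure (ctr f z X) z - e.symm (pure (δ (ctr f z X)) v) := by
        rw [eq_sub_iff_add_eq, ← map_add, e.symm_apply_eq, hdec]
      have h3 : ∀ p, x (e.symm (pure p v)) = e.symm (pure p v) := fun p => by
        obtain ⟨u, rfl⟩ := α.surjective p
        rw [← I.map, e.symm_apply_apply, hxX, R_apply, ctr_pure hf, hwz, zero_smul, mulVec_zero,
          pure_zero_l, add_zero]
      rw [h2, map_sub, hxX (pure (ctr f z X) z), h3, hxX X, R_apply, R_apply, ctr_pure hf, hzz,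
        zero_smul, mulVec_zero, pure_zero_l, add_zero, smul_mulVec, one_mulVec, pure_smul_left,
        map_add, map_smul, map_sub, e.apply_symm_apply, hdec]
      module
  obtain ⟨z', hz', hzz'⟩ : ∃ z', f z' w = 0 ∧ f z' z ≠ 0 := by
    obtain ⟨d, hd, hd'⟩ := exists_orth_sep hf hm
    exact ⟨d, orth_comm hf (hd w (Submodule.mem_span_singleton_self w)),
      fun h0 => hd' (orth_comm hf h0)⟩
  obtain ⟨ξ', δ', hξ'v, hdec'⟩ := I.mid z' hz'
  set d := (t * f z' z)⁻¹ * f ξ' a'
  refine ⟨ξ + d • v, fun u => ?_⟩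
  have hk : ctr f v (e (pure u z')) = 0 := (I.ker _).1 (by rw [ctr_pure hf, hz', zero_smul])
  have h := ha' _ hk
  simp only [LinearMap.smul_apply, LinearMap.comp_apply, LinearEquiv.coe_coe,
    LinearEquiv.symm_apply_apply, ctr_pure hf, map_smul, smul_smul] at h
  rw [hdec', map_add, ctr_pure hf, ctr_pure hf, orth_comm hf ha'v, zero_smul, add_zero] at h
  have hδ : δ u = d • α u := by
    rw [show d • α u = (t * f z' z)⁻¹ • f ξ' a' • α u from mul_smul _ _ _, ← h,
      inv_smul_smul₀ (mul_ne_zero ht0 hzz')]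
  rw [hdec, hδ, pure_add_right, pure_smul_right, pure_smul_left]
  rfl

omit H in
/-- The expansion in a hyperbolic pair and an anisotropic vector orthogonal to it. -/
lemma expand_three (hf : Cfsg.Geo.IsUnitaryForm τ f) (h3 : Fintype.card κ = 3) {w a v : κ → F}
    (hww : f w w = 0) (hvv : f v v = 0) (hwv : f w v = 1) (haw : f a w = 0) (hav : f a v = 0)
    (haa : f a a ≠ 0) : ∃ B : Basis (Fin 3) F (κ → F), (B : Fin 3 → κ → F) = ![w, a, v] ∧
      ∀ x, x = f x v • w + (f x a / f a a) • a + f x w • v := by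
  have hvw : f v w = 1 := by rw [hf.herm, hwv, map_one]
  have hli : LinearIndependent F ![w, a, v] := by
    rw [Fintype.linearIndependent_iff]
    intro g hg
    simp only [Fin.sum_univ_three, Matrix.cons_val_zero, Matrix.cons_val_one, Matrix.cons_val] at hg
    have h0 := congrArg (fun z => f z v) hg
    have h1 := congrArg (fun z => f z a) hg
    have h2 := congrArg (fun z => f z w) hg
    simp only [hf.add_left, hf.smul_left, zero_left hf, hwv, hav, hvv, hww, haw, hvw,
      orth_comm hf haw, orth_comm hf hav, mul_zero, mul_one, add_zero, zero_add] at h0 h1 h2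
    intro i
    fin_cases i
    exacts [h0, (mul_eq_zero.1 h1).resolve_right haa, h2]
  set B := basisOfLinearIndependentOfCardEqFinrank hli
    (by rw [Fintype.card_fin, Module.finrank_fintype_fun_eq_card, h3]) with hB
  have hBc : (B : Fin 3 → κ → F) = ![w, a, v] :=
    coe_basisOfLinearIndependentOfCardEqFinrank _ _
  refine ⟨B, hBc, fun x => ?_⟩
  have h := (B.sum_repr x).symm
  simp only [hBc, Fin.sum_univ_three, Matrix.cons_val_zero, Matrix.cons_val_one, Matrix.cons_val] at h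
  set p := B.repr x 0
  set q := B.repr x 1
  set r := B.repr x 2
  have e0 : f x v = p := by simp [h, hf.add_left, hf.smul_left, hwv, hav, hvv]
  have e1 : f x a = q * f a a := by
    simp [h, hf.add_left, hf.smul_left, orth_comm hf haw, orth_comm hf hav]
  have e2 : f x w = r := by simp [h, hf.add_left, hf.smul_left, hww, haw, hvw]
  rw [e0, e1, e2, mul_div_cancel_right₀ _ haa]
  exact h

omit H in
/-- The torus of the hyperbolic pair in dimension three. -/
lemma exists_torus (hM : Ctx τ b f M) (h3 : Fintype.card κ = 3) {w a v : κ → F}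
    (hww : f w w = 0) (hvv : f v v = 0) (hwv : f w v = 1) (haw : f a w = 0) (hav : f a v = 0)
    (haa : f a a ≠ 0) {l : F} (hl : l ≠ 0) :
    ∃ x ∈ M, ∀ u, x (pure u w) = l • pure u w ∧ x (pure u a) = (τ l / l) • pure u a ∧
      x (pure u v) = (τ l)⁻¹ • pure u v := by
  have hf := hM.uf
  obtain ⟨B, hB, hexp⟩ := expand_three hf h3 hww hvv hwv haw hav haa
  have hvw : f v w = 1 := by rw [hf.herm, hwv, map_one]
  have hτl : τ l ≠ 0 := (map_ne_zero τ).2 hl
  let A : (κ → F) →ₗ[F] (κ → F) :=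
    { toFun := fun x => (l * f x v) • w + (τ l / l * (f x a / f a a)) • a + ((τ l)⁻¹ * f x w) • v
      map_add' := fun x y => by simp only [hf.add_left]; module
      map_smul' := fun c x => by simp only [hf.smul_left, RingHom.id_apply]; module }
  have hw' : A w = l • w := by simp [A, hwv, hww, orth_comm hf haw]
  have ha' : A a = (τ l / l) • a := by simp [A, hav, haw, haa]
  have hv' : A v = (τ l)⁻¹ • v := by simp [A, hvv, hvw, orth_comm hf hav]
  have hdet : (LinearMap.toMatrix' A).det = 1 := by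
    rw [LinearMap.det_toMatrix', ← LinearMap.det_toMatrix B,
      show LinearMap.toMatrix B B A = Matrix.diagonal ![l, τ l / l, (τ l)⁻¹] from ?_]
    · rw [Matrix.det_diagonal, Fin.prod_univ_three]
      simp
      field_simp
    · ext i j
      rw [LinearMap.toMatrix_apply]
      have hAB : A (B j) = ![l, τ l / l, (τ l)⁻¹] j • B j := by
        rw [hB]; fin_cases j <;> simp [hw', ha', hv']
      rw [hAB, map_smul, B.repr_self, Finsupp.smul_single, smul_eq_mul, mul_one,
        Finsupp.single_apply, Matrix.diagonal_apply]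
      rcases eq_or_ne i j with rfl | hij <;> simp [*, Ne.symm]
  set g := Matrix.GeneralLinearGroup.mkOfDetNeZero (LinearMap.toMatrix' A)
    (by rw [hdet]; exact one_ne_zero)
  have hiso : Iso f g := fun x y => by
    change f (LinearMap.toMatrix' A *ᵥ x) (LinearMap.toMatrix' A *ᵥ y) = f x y
    rw [LinearMap.toMatrix'_mulVec, LinearMap.toMatrix'_mulVec]
    conv_rhs => rw [hexp x, hexp y]
    simp only [A, LinearMap.coe_mk, AddHom.coe_mk, hf.add_left, add_right hf, hf.smul_left,
      smul_right hf, hww, hvv, hwv, hvw, haw, hav, orth_comm hf haw, orth_comm hf hav, map_mul,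
      map_div₀, map_inv₀, hf.involutive, norm_fixed hf a]
    field_simp
    ring
  obtain ⟨x, hx, hxX⟩ := hM.right g hiso (MonoidHom.mem_ker.2 (Units.ext hdet))
  refine ⟨x, hx, fun u => ?_⟩
  have key : ∀ z, x (pure u z) = pure u (A z) := fun z => by
    rw [hxX]
    change pure u z * (LinearMap.toMatrix' A)ᵀ = _
    rw [TensorMax.pure, TensorMax.pure, vecMulVec_mul, vecMul_transpose, LinearMap.toMatrix'_mulVec]
  simp [key, hw', ha', hv', pure_smul_right]

set_option maxHeartbeats 800000 in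
/-- Dimension three: everything splits. -/
lemma prod_three [Nonempty ι] (h3 : Fintype.card κ = 3) (hc : ∃ c : F, τ c = c ∧ c ≠ 0 ∧ c ≠ 1)
    {α : (ι → F) ≃ₗ[F] (ι → F)} {ρ : F} {w v : κ → F} (I : Img τ b f e α ρ w v) (z : κ → F) :
    z ∈ prodSub e α.toLinearMap := by
  have hf := H.src.uf
  obtain ⟨k, hkτ, hk0, hk1⟩ := hc
  obtain ⟨l, hl⟩ := exists_norm hf hkτ
  have hl0 : l ≠ 0 := fun h0 => hk0 (by rw [← hl, h0, zero_mul])
  have hτl : τ l ≠ 0 := (map_ne_zero τ).2 hl0
  have hνl : τ l / l - l ≠ 0 := fun h0 => by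
    have h1 : τ l = l * l := by
      rw [sub_eq_zero, div_eq_iff hl0] at h0; exact h0
    have h2 : l = τ l * τ l := by
      have := congrArg τ h1
      rwa [hf.involutive, map_mul] at this
    rw [h1] at h2
    have h3' : l * (l * (l * l) - 1) = 0 := by linear_combination -h2
    refine hk1 ?_
    rw [← hl, h1]
    exact (sub_eq_zero.1 ((mul_eq_zero.1 h3').resolve_left hl0))
  obtain ⟨a, haw, haa1⟩ := exists_aniso_orth hf H.src.three w
  have haa : f a a ≠ 0 := by rw [haa1]; exact one_ne_zero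
  have hwa : w ∉ Submodule.span F ({a} : Set (κ → F)) := fun hm => by
    obtain ⟨r, hr⟩ := Submodule.mem_span_singleton.1 hm
    have h := congrArg (fun y => f y a) hr
    simp only [hf.smul_left, orth_comm hf haw] at h
    exact I.w0 (by rw [← hr, (mul_eq_zero.1 h).resolve_right haa, zero_smul])
  obtain ⟨p, hpp, hwp, hp⟩ := exists_iso_dual hf hwa I.ww fun u hu => by
    obtain ⟨r, rfl⟩ := Submodule.mem_span_singleton.1 hu
    rw [hf.smul_left, haw, mul_zero]
  have hap := hp a (Submodule.mem_span_singleton_self a)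
  obtain ⟨ξ, δ, hξv, hdec⟩ := I.mid a haw
  have hvξ := orth_comm hf hξv
  have hξξ : f ξ ξ = ρ := by rw [I.norm a ξ δ haw hdec, haa1, mul_one]
  obtain ⟨x, hx, hxp⟩ := exists_torus H.src h3 I.ww hpp hwp haw hap haa hl0
  have hvξ' : ∀ ξ', f ξ' ξ' = ρ → f ξ' v = 0 → ∃ p', f p' p' = 0 ∧ f v p' = 1 ∧ f ξ' p' = 0 := by
    intro ξ' h1 h2
    have hn : v ∉ Submodule.span F ({ξ'} : Set (κ → F)) := fun hm => by
      obtain ⟨r, hr⟩ := Submodule.mem_span_singleton.1 hm
      have h := congrArg (fun y => f y ξ') hr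
      simp only [hf.smul_left, orth_comm hf h2, h1] at h
      exact I.v0 (by rw [← hr, (mul_eq_zero.1 h).resolve_right I.ρ0, zero_smul])
    obtain ⟨p', h3', h4, h5⟩ := exists_iso_dual hf hn I.vv fun u hu => by
      obtain ⟨r, rfl⟩ := Submodule.mem_span_singleton.1 hu
      rw [hf.smul_left, h2, mul_zero]
    exact ⟨p', h3', h4, h5 ξ' (Submodule.mem_span_singleton_self ξ')⟩
  -- the vector orthogonal to `w`
  obtain ⟨d, hd⟩ : ∃ d : F, ∀ u, δ u = d • α u := by
    obtain ⟨p', hp'p', hvp', hξp'⟩ := hvξ' ξ hξξ hξv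
    obtain ⟨y, hy, hyp⟩ := exists_torus H.tgt h3 I.vv hp'p' hvp' hξv hξp' (by rw [hξξ]; exact I.ρ0) hl0
    obtain ⟨-, -, hexp'⟩ := expand_three hf h3 I.vv hp'p' hvp' hξv hξp' (by rw [hξξ]; exact I.ρ0)
    set g := e.symm.trans (x.trans e) * y⁻¹
    have hg : g ∈ M' := M'.mul_mem (H.conj x hx) (M'.inv_mem hy)
    have hyv : ∀ q, y⁻¹ (pure q v) = l⁻¹ • pure q v := fun q => by
      rw [eq_inv_smul_iff₀ hl0, ← map_smul]
      exact y.symm_apply_eq.2 (hyp q).1.symm
    have hyξ : ∀ q, y⁻¹ (pure q ξ) = (τ l / l)⁻¹ • pure q ξ := fun q => by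
      rw [eq_inv_smul_iff₀ (div_ne_zero hτl hl0), ← map_smul]
      exact y.symm_apply_eq.2 (hyp q).2.1.symm
    have hev : ∀ u, e.symm (pure (α u) v) = pure u w := fun u => by
      rw [e.symm_apply_eq, I.map]
    have hgv : ∀ q, g (pure q v) = pure q v := fun q => by
      obtain ⟨u, rfl⟩ := α.surjective q
      simp only [g, LinearEquiv.mul_apply, LinearEquiv.trans_apply, hyv, map_smul, hev, (hxp u).1,
        I.map, smul_smul, inv_mul_cancel₀ hl0, one_smul]
    have hgξ : ∀ u, g (pure (α u) ξ) = pure (α u) ξ + ((τ l / l)⁻¹ * (τ l / l - l)) • pure (δ u) v := by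
      intro u
      obtain ⟨u', hu'⟩ := α.surjective (δ u)
      have h2 : e.symm (pure (α u) ξ) = pure u a - pure u' w := by
        rw [eq_sub_iff_add_eq, ← hev, ← map_add, e.symm_apply_eq, hu', hdec]
      simp only [g, LinearEquiv.mul_apply, LinearEquiv.trans_apply, hyξ, map_smul, h2, map_sub,
        (hxp u).2.1, (hxp u').1, hdec, I.map, hu', smul_smul, inv_mul_cancel₀ (div_ne_zero hτl hl0)]
      match_scalars <;> field_simp
    obtain ⟨a', ha'v, ha'⟩ := exists_covec_of_rad H.tgt H.scal' I.v0 I.vv hg hgv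
      (((τ l / l)⁻¹ * (τ l / l - l) / ρ) • δ ∘ₗ α.symm.toLinearMap ∘ₗ ctr f ξ) fun Y hY => by
        have hYd : Y = pure (ctr f p' Y) v + pure (ρ⁻¹ • ctr f ξ Y) ξ := by
          have h := congrFun hY
          ext i j
          have hj := congrFun (hexp' (Y i)) j
          simp only [← ctr_row hf, hξξ, Pi.add_apply, Pi.smul_apply, smul_eq_mul] at hj
          rw [h i, Pi.zero_apply, zero_mul, add_zero] at hj
          simp only [Matrix.add_apply, TensorMax.pure, vecMulVec_apply, Pi.smul_apply, smul_eq_mul]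
          rw [hj]; ring
        obtain ⟨u, hu⟩ := α.surjective (ρ⁻¹ • ctr f ξ Y)
        conv_lhs => rw [hYd, map_add, hgv, ← hu, hgξ]
        conv_rhs => arg 1; rw [hYd, ← hu]
        simp only [LinearMap.smul_apply, LinearMap.comp_apply, LinearEquiv.coe_coe, pure_smul_left,
          show α.symm (ctr f ξ Y) = ρ • u by
            rw [α.symm_apply_eq, map_smul, hu, smul_inv_smul₀ I.ρ0], map_smul, smul_smul,
          div_mul_cancel₀ _ I.ρ0]
        abel
    refine ⟨((τ l / l)⁻¹ * (τ l / l - l))⁻¹ * f ξ a', fun u => ?_⟩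
    have h := ha' (pure (α u) ξ) (by rw [ctr_pure hf, hξv, zero_smul])
    simp only [LinearMap.smul_apply, LinearMap.comp_apply, LinearEquiv.coe_coe, ctr_pure hf, map_smul,
      LinearEquiv.symm_apply_apply, hξξ, smul_smul, div_mul_cancel₀ _ I.ρ0] at h
    rw [mul_smul, ← h, inv_smul_smul₀ (mul_ne_zero (inv_ne_zero (div_ne_zero hτl hl0)) hνl)]
  set ξ' := ξ + d • v
  have hdec' : ∀ u, e (pure u a) = pure (α u) ξ' := fun u => by
    rw [hdec, hd, pure_add_right, pure_smul_right, pure_smul_left]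
  have hξ'v : f ξ' v = 0 := by rw [hf.add_left, hf.smul_left, hξv, I.vv, mul_zero, add_zero]
  have hξ'ξ' : f ξ' ξ' = ρ := by
    simp only [ξ', hf.add_left, add_right hf, hf.smul_left, smul_right hf, hξv, hvξ, I.vv, hξξ,
      mul_zero, add_zero]
  -- the partner of `w`
  obtain ⟨p', hp'p', hvp', hξp'⟩ := hvξ' ξ' hξ'ξ' hξ'v
  obtain ⟨y, hy, hyp⟩ := exists_torus H.tgt h3 I.vv hp'p' hvp' hξ'v hξp' (by rw [hξ'ξ']; exact I.ρ0) hl0
  obtain ⟨-, -, hexp'⟩ := expand_three hf h3 I.vv hp'p' hvp' hξ'v hξp' (by rw [hξ'ξ']; exact I.ρ0)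
  have hYd : ∀ Y : Matrix ι κ F, Y = pure (ctr f p' Y) v + pure (ρ⁻¹ • ctr f ξ' Y) ξ' + pure (ctr f v Y) p' := by
    intro Y
    ext i j
    have hj := congrFun (hexp' (Y i)) j
    simp only [← ctr_row hf, hξ'ξ', Pi.add_apply, Pi.smul_apply, smul_eq_mul] at hj
    simp only [Matrix.add_apply, TensorMax.pure, vecMulVec_apply, Pi.smul_apply, smul_eq_mul]
    rw [hj]; ring
  set r : (ι → F) →ₗ[F] (ι → F) := ctr f p' ∘ₗ e.toLinearMap ∘ₗ pureL p
  have hZ : ∀ u, e (pure u p) = pure (r u) v + ρ • pure (α u) p' := fun u => by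
    have h1 : ctr f v (e (pure u p)) = ρ • α u := by
      rw [I.scalev, ctr_pure hf, hf.herm p w, hwp, map_one, one_smul]
    have h2 : ctr f ξ' (e (pure u p)) = 0 := by
      obtain ⟨c, hc⟩ := H.sim
      refine by_contra fun hne => ?_
      obtain ⟨-, q, hq⟩ := H.src.ub.nondegenerate _ hne
      obtain ⟨u', rfl⟩ := α.surjective q
      refine hq ?_
      rw [← phi_pure_right H.src.ub hf, ← hdec', hc, phi_pure_pure H.src.ub hf, orth_comm hf hap,
        zero_mul, mul_zero]
    conv_lhs => rw [hYd (e (pure u p)), h1, h2, smul_zero, pure_zero_l, add_zero, pure_smul_left]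
    rfl
  set g := e.symm.trans (x.trans e) * y⁻¹
  have hg : g ∈ M' := M'.mul_mem (H.conj x hx) (M'.inv_mem hy)
  have hyi : ∀ q, y⁻¹ (pure q v) = l⁻¹ • pure q v ∧ y⁻¹ (pure q ξ') = (τ l / l)⁻¹ • pure q ξ' ∧
      y⁻¹ (pure q p') = τ l • pure q p' := fun q => by
    refine ⟨?_, ?_, y.symm_apply_eq.2 ?_⟩
    · rw [eq_inv_smul_iff₀ hl0, ← map_smul]; exact y.symm_apply_eq.2 (hyp q).1.symm
    · rw [eq_inv_smul_iff₀ (div_ne_zero hτl hl0), ← map_smul]
      exact y.symm_apply_eq.2 (hyp q).2.1.symm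
    · rw [map_smul, (hyp q).2.2, smul_inv_smul₀ hτl]
  have hev : ∀ u, e.symm (pure (α u) v) = pure u w := fun u => by rw [e.symm_apply_eq, I.map]
  have hgv : ∀ q, g (pure q v) = pure q v := fun q => by
    obtain ⟨u, rfl⟩ := α.surjective q
    simp only [g, LinearEquiv.mul_apply, LinearEquiv.trans_apply, (hyi _).1, map_smul, hev, (hxp u).1,
      I.map, smul_smul, inv_mul_cancel₀ hl0, one_smul]
  have hgξ : ∀ q, g (pure q ξ') = pure q ξ' := fun q => by
    obtain ⟨u, rfl⟩ := α.surjective q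
    have : e.symm (pure (α u) ξ') = pure u a := by rw [e.symm_apply_eq, hdec']
    simp only [g, LinearEquiv.mul_apply, LinearEquiv.trans_apply, (hyi _).2.1, map_smul, this,
      (hxp u).2.1, hdec', smul_smul, inv_mul_cancel₀ (div_ne_zero hτl hl0), one_smul]
  set θ := LinearMap.toMatrix' ((ρ⁻¹ * (1 - l * τ l)) • r ∘ₗ α.symm.toLinearMap)
  have hgp : ∀ u, g (pure (α u) p') = pure (α u) p' + pure (θ *ᵥ α u) v := fun u => by
    obtain ⟨u', hu'⟩ := α.surjective (r u)
    have h2 : e.symm (pure (α u) p') = ρ⁻¹ • (pure u p - pure u' w) := by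
      rw [eq_inv_smul_iff₀ I.ρ0, eq_sub_iff_add_eq, ← hev, ← map_smul, ← map_add,
        e.symm_apply_eq, hu', hZ, add_comm]
    rw [show θ *ᵥ α u = (ρ⁻¹ * (1 - l * τ l)) • r u by simp [θ, smul_mulVec]]
    simp only [g, LinearEquiv.mul_apply, LinearEquiv.trans_apply, (hyi _).2.2, map_smul, h2, map_sub,
      (hxp u).2.2, (hxp u').1, hZ, I.map, hu', pure_smul_left]
    match_scalars <;> field_simp [I.ρ0]
  obtain ⟨c, hc⟩ := H.scal' θ v I.v0 I.vv ⟨g, hg, fun Y => by
    obtain ⟨u, hu⟩ := α.surjective (ctr f v Y)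
    conv_lhs => rw [hYd Y, map_add, map_add, hgv, hgξ, ← hu, hgp, hu]
    conv_rhs => arg 1; rw [hYd Y]
    rw [R_apply]
    abel⟩
  have hk1' : 1 - l * τ l ≠ 0 := by rw [hl, sub_ne_zero]; exact fun h0 => hk1 h0.symm
  have hpP : p ∈ prodSub e α.toLinearMap := by
    refine ⟨(ρ⁻¹ * (1 - l * τ l))⁻¹ • c • v + ρ • p', fun u => ?_⟩
    have h := congrArg (fun N : Matrix ι ι F => N *ᵥ α u) hc
    rw [show θ *ᵥ α u = (ρ⁻¹ * (1 - l * τ l)) • r u by simp [θ, smul_mulVec]] at h
    simp only [smul_mulVec, one_mulVec] at h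
    have hr : r u = (ρ⁻¹ * (1 - l * τ l))⁻¹ • c • α u := by
      rw [← h, inv_smul_smul₀ (mul_ne_zero (inv_ne_zero I.ρ0) hk1')]
    simp only [hZ, hr, pure_smul_left, pure_add_right, pure_smul_right, LinearEquiv.coe_coe]
  obtain ⟨-, -, hexp⟩ := expand_three hf h3 I.ww hpp hwp haw hap haa
  rw [hexp z]
  have hwP : w ∈ prodSub e α.toLinearMap := ⟨v, I.map⟩
  have haP : a ∈ prodSub e α.toLinearMap := ⟨ξ', hdec'⟩
  exact Submodule.add_mem _ (Submodule.add_mem _ (Submodule.smul_mem _ _ hwP)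
    (Submodule.smul_mem _ _ haP)) (Submodule.smul_mem _ _ hpP)

/-- A similitude carrying an isotropic member to a member is a product. -/
theorem exists_mul_mul_of_member [Nonempty ι]
    (hsmall : (∃ c : F, τ c = c ∧ c ≠ 0 ∧ c ≠ 1) ∨ 4 ≤ Fintype.card κ) {w v : κ → F} (hw : w ≠ 0)
    (hww : f w w = 0) (hmap : ∀ u, e (pure u w) ∈ memb v) :
    ∃ (A : Matrix ι ι F) (B : Matrix κ κ F), ∀ X, e X = A * X * Bᵀ := by
  have hf := H.src.uf
  obtain ⟨α, ρ, I⟩ := exists_img H hw hww hmap
  have hall : ∀ z, z ∈ prodSub e α.toLinearMap := by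
    by_cases h4 : 4 ≤ Fintype.card κ
    · intro z
      obtain ⟨y, hy, hyy, hwy, -, hyw, -⟩ := exists_iso_conn hf h4 hww hww
      have hperp : ∀ z, f z w = 0 → z ∈ prodSub e α.toLinearMap := fun z hz => perp_prod H h4 I hz
      obtain ⟨ξ, hξ⟩ := hperp y (orth_comm hf hwy)
      obtain ⟨α', ρ', I'⟩ := exists_img H hy hyy (v := ξ) fun u => by
        rw [hξ]; exact pure_mem_memb _ _
      have hα : α' = α := LinearEquiv.ext fun u =>
        TensorMax.pureL_injective I'.v0 ((I'.map u).symm.trans (hξ u))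
      subst hα
      have hwy' : w ∉ Submodule.span F ({y} : Set (κ → F)) := fun hm => by
        obtain ⟨r, hr⟩ := Submodule.mem_span_singleton.1 hm
        rcases eq_or_ne r 0 with rfl | hr0
        · exact hw (by rw [← hr, zero_smul])
        · exact hyw (Submodule.mem_span_singleton.2 ⟨r⁻¹, by rw [← hr, inv_smul_smul₀ hr0]⟩)
      obtain ⟨d, hd, hwd⟩ := exists_orth_sep hf hwy'
      have hdy : f d y = 0 := orth_comm hf (hd y (Submodule.mem_span_singleton_self y))
      have hdw : f d w ≠ 0 := fun h0 => hwd (orth_comm hf h0)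
      rw [show z = (z - (f z w / f d w) • d) + (f z w / f d w) • d from (sub_add_cancel _ _).symm]
      refine Submodule.add_mem _ (hperp _ ?_) (Submodule.smul_mem _ _ (perp_prod H h4 I' hdy))
      rw [sub_left hf, hf.smul_left, div_mul_cancel₀ _ hdw, sub_self]
    · have h3 : Fintype.card κ = 3 := by have := H.src.three; omega
      exact fun z => prod_three H h3 (hsmall.resolve_right h4) I z
  have : Nonempty κ := Fintype.card_pos_iff.1 (by have := H.src.three; omega)
  refine TensorMax.exists_mul_mul e fun z _ => ?_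
  obtain ⟨ξ, hξ⟩ := hall z
  exact ⟨ξ, fun u => by rw [hξ]; exact pure_mem_memb _ _⟩

end CfsgLib.WreathForm14
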