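import Cfsg.Agent.WreathForm14.Global
import Cfsg.Agent.WreathForm14.Preserve
import Cfsg.Agent.WreathTensor14.Rigid

/-!
The group induced on a tensor factor, and elements carrying an isotropic member to a member.
-/

set_option autoImplicit false
set_option linter.unusedSectionVars false

namespace CfsgLib.WreathForm14

open Matrix Module
open CfsgLib.TensorMax (InM rootMap pure pure_mulVec memb mem_memb pure_mem_memb)
open CfsgLib.UnitCentres (Iso)
open CfsgLib.WreathTensor14 (TV pv slot slot_pv slotGroup slotConj slotConj_apply kronE permE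
  permE_pv InV inM_slotGroup_iff linearMap_ext_pv monoGroup mono_of_split mem_mono_one
  permE_mem_mono smemb symm_pure_mem symm_pure_swap extPerm extPerm_cube kronE_insertNth_left
  kronE_insertNth_one permE_smemb slot_pv_insertNth)

variable {F : Type*} [Field F] [Finite F] {τ : F ≃+* F} {m s : ℕ}
  {f : (Fin m → F) → (Fin m → F) → F}
  {M : Subgroup (TV F m (s + 1) ≃ₗ[F] TV F m (s + 1))}

lemma pow_eq_one_char {p : ℕ} [CharP F p] (hp : p.Prime) {e : ℕ} {x : F} (h : x ^ p ^ e = 1) :
    x = 1 := by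
  have := Fact.mk hp
  have h1 : (x - 1) ^ p ^ e = 0 := by rw [sub_pow_char_pow, h, one_pow, sub_self]
  exact sub_eq_zero.1 ((pow_eq_zero_iff (pow_ne_zero _ hp.ne_zero)).1 h1)

lemma exists_unit_vec (hM : UBase τ f M) : ∃ z : Fin m → F, f z z = 1 := by
  obtain ⟨z, -, hz⟩ := exists_aniso_orth hM.uf (by simpa using hM.three) (0 : Fin m → F)
  exact ⟨z, hz⟩

lemma exists_pform_ne_zero (hf : Cfsg.Geo.IsUnitaryForm τ f) (hm : 0 < m) (t : ℕ) :
    ∃ u v : TV F m t, pform τ f t u v ≠ 0 := by
  have : Nonempty (Fin m) := ⟨⟨0, hm⟩⟩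
  obtain ⟨u, hu⟩ := exists_ne (0 : TV F m t)
  obtain ⟨-, v, hv⟩ := (pform_unitary hf t).nondegenerate u hu
  exact ⟨u, v, hv⟩

/-- The multiplier of an element of `M` is not zero. -/
lemma exists_mult (hM : UBase τ f M) {g : TV F m (s + 1) ≃ₗ[F] TV F m (s + 1)} (hg : g ∈ M) :
    ∃ c : F, c ≠ 0 ∧ ∀ u v, pform τ f (s + 1) (g u) (g v) = c * pform τ f (s + 1) u v := by
  obtain ⟨c, hc⟩ := hM.sim g hg
  refine ⟨c, fun h0 => ?_, hc⟩
  obtain ⟨u, v, huv⟩ := exists_pform_ne_zero (t := s + 1) hM.uf (by have := hM.three; omega)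
  have h := hc (g.symm u) (g.symm v)
  rw [g.apply_symm_apply, g.apply_symm_apply, h0, zero_mul] at h
  exact huv h

/-- A split element scales both factors. -/
lemma split_sim (hM : UBase τ f M) {g : TV F m (s + 1) ≃ₗ[F] TV F m (s + 1)} (hg : g ∈ M)
    {k : Fin (s + 1)} {a : TV F m s ≃ₗ[F] TV F m s} {b : GL (Fin m) F}
    (hab : ∀ u w, slotConj k g (pure u w) = pure (a u) (b.val *ᵥ w)) :
    ∃ μ d : F, μ ≠ 0 ∧ (∀ u v, pform τ f s (a u) (a v) = μ * pform τ f s u v) ∧
      ∀ y z, f (b.val *ᵥ y) (b.val *ᵥ z) = d * f y z := by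
  have hf := hM.uf
  have hb := pform_unitary hf s
  obtain ⟨c, hc0, hc⟩ := exists_mult hM hg
  have key : ∀ u v y z, f (b.val *ᵥ y) (b.val *ᵥ z) * pform τ f s (a u) (a v)
      = c * (f y z * pform τ f s u v) := fun u v y z => by
    have h := hc ((slot k).symm (pure u y)) ((slot k).symm (pure v z))
    simp only [← phi_slot (τ := τ) (f := f) k, LinearEquiv.apply_symm_apply] at h
    rw [← phi_pure_pure hb hf, ← phi_pure_pure hb hf, ← hab, ← hab]
    exact h
  obtain ⟨z₀, hz₀⟩ := exists_unit_vec hM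
  obtain ⟨u₀, v₀, huv⟩ := exists_pform_ne_zero (t := s) hf (by have := hM.three; omega)
  have h0 := key u₀ v₀ z₀ z₀
  rw [hz₀, one_mul] at h0
  have hne := mul_ne_zero hc0 huv
  rw [← h0] at hne
  refine ⟨c / f (b.val *ᵥ z₀) (b.val *ᵥ z₀), c * pform τ f s u₀ v₀ / pform τ f s (a u₀) (a v₀),
    div_ne_zero hc0 (left_ne_zero_of_mul hne), fun u v => ?_, fun y z => ?_⟩
  · have h := key u v z₀ z₀
    rw [hz₀, one_mul] at h
    rw [div_mul_eq_mul_div, eq_div_iff (left_ne_zero_of_mul hne), mul_comm, h]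
  · have h := key u₀ v₀ y z
    rw [div_mul_eq_mul_div, eq_div_iff (right_ne_zero_of_mul hne), h]
    ring

/-- The induced group satisfies the hypotheses. -/
lemma UBase.factor (hM : UBase τ f M) (k : Fin (s + 1)) :
    UBase τ f (WreathTensor14.factor M k) where
  uf := hM.uf
  three := hM.three
  small := hM.small
  sim := by
    rintro a ⟨g, hg, b, hab⟩
    obtain ⟨μ, -, -, hμ, -⟩ := split_sim hM hg hab
    exact ⟨μ, hμ⟩
  kron_mem gs hgs hgs' := by
    refine ⟨kronE (Fin.insertNth (α := fun _ => GL (Fin m) F) k 1 gs), hM.kron_mem _ ?_ ?_, 1,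
      fun u w => ?_⟩
    · intro i
      rcases Fin.eq_self_or_eq_succAbove k i with rfl | ⟨l, rfl⟩
      · intro x y; simp
      · simpa using hgs l
    · intro i
      rcases Fin.eq_self_or_eq_succAbove k i with rfl | ⟨l, rfl⟩
      · simp
      · simpa using hgs' l
    · rw [kronE_insertNth_left, TensorMax.pure, mul_vecMulVec, Units.val_one, one_mulVec]
      rfl
  perm_mem σ hσ := by
    refine ⟨permE (extPerm k k σ), hM.perm_mem _ (extPerm_cube k hσ), 1, fun u w => ?_⟩
    have : (slotConj k (permE (extPerm k k σ))).toLinearMap ∘ₗ TensorMax.pureL w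
        = TensorMax.pureL w ∘ₗ (permE (F := F) (m := m) σ).toLinearMap := by
      refine linearMap_ext_pv fun x => ?_
      simp only [LinearMap.comp_apply, LinearEquiv.coe_coe, TensorMax.pureL_apply, slotConj_apply,
        permE_pv]
      rw [← slot_pv_insertNth k w x, LinearEquiv.symm_apply_apply, permE_pv, slot_pv]
      have hk : (extPerm k k σ)⁻¹ k = k := by rw [Equiv.Perm.inv_eq_iff_eq]; simp
      congr 1
      · congr 1
        funext i
        have hi : (extPerm k k σ)⁻¹ (k.succAbove i) = k.succAbove (σ⁻¹ i) := by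
          rw [Equiv.Perm.inv_eq_iff_eq]; simp
        rw [Fin.removeNth_apply, hi]
        simp
      · simp [hk]
    rw [Units.val_one, one_mulVec]
    exact LinearMap.congr_fun this u

set_option maxHeartbeats 800000 in
/-- The induced group has only scalar coefficients. -/
theorem OnlyScal.factor {M : Subgroup (TV F m (s + 2) ≃ₗ[F] TV F m (s + 2))} (hM : UBase τ f M)
    (hsc : OnlyScal f M) (k : Fin (s + 2)) : OnlyScal f (WreathTensor14.factor M k) := by
  intro l θ w hw hww hθ
  have hf := hM.uf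
  obtain ⟨a, ⟨g, hg, b, hgb⟩, hav⟩ := inM_slotGroup_iff.1 hθ
  set N := (slot l).symm.toLinearMap ∘ₗ R f θ w ∘ₗ (slot l).toLinearMap with hN
  have hNN : ∀ y, N (N y) = 0 := fun y => by
    simp only [hN, LinearMap.comp_apply, LinearEquiv.coe_coe, LinearEquiv.apply_symm_apply,
      R_sq hf hww, map_zero]
  have hapow : ∀ (n : ℕ) y, (a ^ n) y = y + (n : F) • N y := by
    intro n
    induction n with
    | zero => intro y; simp
    | succ n ih =>
      intro y
      rw [pow_succ, LinearEquiv.mul_apply, ih, hav, map_add, hNN, add_zero, Nat.cast_succ, add_smul,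
        one_smul]
      abel
  have hpow : ∀ (n : ℕ) u z, slotConj k (g ^ n) (pure u z)
      = pure ((a ^ n) u) ((b ^ n).val *ᵥ z) := by
    intro n
    induction n with
    | zero => intro u z; simp
    | succ n ih =>
      intro u z
      rw [pow_succ, map_mul, LinearEquiv.mul_apply, hgb, ih, pow_succ b, Units.val_mul,
        ← mulVec_mulVec]
      rfl
  -- remove the second factor
  obtain ⟨p, hp⟩ := CharP.exists F
  have hpp : p.Prime :=
    (CharP.char_is_prime_or_zero F p).resolve_right (CharP.char_ne_zero_of_finite F p)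
  have := hp
  obtain ⟨e, r, hr, hord⟩ := Nat.exists_eq_pow_mul_and_not_dvd (orderOf_pos b).ne' p hpp.ne_one
  obtain ⟨n, hnr, hnp⟩ := Nat.chineseRemainder (n := r) (m := p)
    ((hpp.coprime_iff_not_dvd.2 hr).symm) 0 1
  have hn1 : (n : F) = 1 := by
    rw [← Nat.cast_one, CharP.natCast_eq_natCast F p]; exact hnp
  have han : a ^ n = a := LinearEquiv.ext fun y => by rw [hapow, hav, hn1, one_smul]
  have hb1 : (b ^ n) ^ p ^ e = 1 := by
    obtain ⟨j, hj⟩ := Nat.modEq_zero_iff_dvd.1 hnr
    rw [← pow_mul, hj, mul_assoc, mul_comm j, ← mul_assoc, mul_comm r, ← hord, pow_mul,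
      pow_orderOf_eq_one, one_pow]
  obtain ⟨-, d, -, -, hd⟩ := split_sim hM (M.pow_mem hg n) (hpow n)
  have hdpow : ∀ (j : ℕ) y z, f (((b ^ n) ^ j).val *ᵥ y) (((b ^ n) ^ j).val *ᵥ z) = d ^ j * f y z := by
    intro j
    induction j with
    | zero => intro y z; simp
    | succ j ih =>
      intro y z
      rw [pow_succ, Units.val_mul, ← mulVec_mulVec, ← mulVec_mulVec, ih, hd, pow_succ, mul_assoc]
  obtain ⟨z₀, hz₀⟩ := exists_unit_vec hM
  have hd1 : d = 1 := by
    refine pow_eq_one_char hpp (e := e) ?_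
    have h := hdpow (p ^ e) z₀ z₀
    rw [hb1, Units.val_one, one_mulVec, hz₀, mul_one] at h
    exact h.symm
  have hiso : Iso f (b ^ n) := fun y z => by rw [hd, hd1, one_mul]
  have hdet : b ^ n ∈ Cfsg.Geo.specialLinear (Fin m) F := by
    refine MonoidHom.mem_ker.2 (Units.ext (pow_eq_one_char hpp (e := e) ?_))
    rw [← Units.val_pow_eq_pow_val, ← map_pow, hb1, map_one, Units.val_one]
  set B := kronE (Fin.insertNth (α := fun _ => GL (Fin m) F) k (b ^ n) 1)
  have hB : B ∈ M := hM.kron_mem _
    (fun i => by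
      rcases Fin.eq_self_or_eq_succAbove k i with rfl | ⟨i', rfl⟩
      · simpa using hiso
      · intro x y; simp)
    (fun i => by
      rcases Fin.eq_self_or_eq_succAbove k i with rfl | ⟨i', rfl⟩
      · simpa using hdet
      · simp)
  have hG : ∀ u z, slotConj k (g ^ n * B⁻¹) (pure u z) = pure (a u) z := by
    intro u z
    have hBp : ∀ u z, slotConj k B (pure u z) = pure u ((b ^ n).val *ᵥ z) := fun u z => by
      rw [kronE_insertNth_one, TensorMax.pure, TensorMax.pure, vecMulVec_mul, vecMul_transpose]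
    have hBi : slotConj k B⁻¹ (pure u z) = pure u (((b ^ n)⁻¹).val *ᵥ z) := by
      apply (slotConj k B).injective
      rw [← LinearEquiv.mul_apply, ← map_mul, mul_inv_cancel, map_one, hBp, mulVec_mulVec,
        ← Units.val_mul, mul_inv_cancel, Units.val_one, one_mulVec]
      rfl
    rw [map_mul, LinearEquiv.mul_apply, hBi, hpow, han, mulVec_mulVec, ← Units.val_mul,
      mul_inv_cancel, Units.val_one, one_mulVec]
  -- the element is a root element of another factor
  set l' := k.succAbove l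
  set k' := l.predAbove k
  let T : Matrix (Fin (s + 1) → Fin m) (Fin (s + 1) → Fin m) F :=
    LinearMap.toMatrix' ((slot k').symm.toLinearMap ∘ₗ mulLeftLinearMap (Fin m) F θ ∘ₗ
      (slot k').toLinearMap)
  have hT : InM (slotGroup M l') (R f T w) := by
    refine inM_slotGroup_iff.2 ⟨g ^ n * B⁻¹, M.mul_mem (M.pow_mem hg n) (M.inv_mem hB), fun v => ?_⟩
    suffices h : (g ^ n * B⁻¹ : TV F m (s + 2) ≃ₗ[F] TV F m (s + 2)).toLinearMap
        = LinearMap.id + (slot l').symm.toLinearMap ∘ₗ R f T w ∘ₗ (slot l').toLinearMap from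
      LinearMap.congr_fun h v
    refine linearMap_ext_pv fun x => ?_
    have e1 := hG (pv (Fin.removeNth k x)) (x k)
    rw [slotConj_apply, ← slot_pv, LinearEquiv.symm_apply_apply] at e1
    have e2 : pure (a (pv (Fin.removeNth k x))) (x k)
        = slot k (pv x) + pure (N (pv (Fin.removeNth k x))) (x k) := by
      rw [hav, slot_pv, pure_add_left]
    rw [e2] at e1
    rw [LinearEquiv.coe_coe, LinearMap.add_apply, LinearMap.id_apply]
    apply (slot k).injective
    rw [e1, map_add]
    congr 1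
    rw [← LinearEquiv.symm_apply_eq]
    simp only [hN, R, T, LinearMap.comp_apply, LinearEquiv.coe_coe, TensorMax.rootMap_apply, slot_pv,
      TensorMax.pure_mulVec, mulVec_smul, LinearMap.toMatrix'_mulVec, map_smul,
      mulLeftLinearMap_apply]
    simp only [TensorMax.pure, smul_vecMulVec, mul_vecMulVec, mulVec_smul, map_smul]
    have hxl : Fin.removeNth k x l = x l' := Fin.removeNth_apply ..
    have hxk : Fin.removeNth l' x k' = x k := by
      simp [Fin.removeNth_apply, l', k', Fin.succAbove_succAbove_predAbove]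
    have hr : Fin.removeNth l (Fin.removeNth k x) = Fin.removeNth k' (Fin.removeNth l' x) :=
      funext fun i => by
        simp [Fin.removeNth_apply, l', k', Fin.succAbove_succAbove_succAbove_predAbove]
    rw [hxl, hxk, hr]
    exact congrArg _ (symm_pure_swap k l _ _ _)
  obtain ⟨c, hc⟩ := hsc l' T w hw hww hT
  refine ⟨c, ?_⟩
  ext x x'
  let o : Fin m := ⟨0, by have := hM.three; omega⟩
  have := congrFun (congrFun hc (Fin.insertNth (α := fun _ => Fin m) k' o x))
    (Fin.insertNth (α := fun _ => Fin m) k' o x')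
  simp only [T, LinearMap.toMatrix'_apply, LinearMap.comp_apply, LinearEquiv.coe_coe,
    mulLeftLinearMap_apply, WreathTensor14.slot_symm_apply, Fin.removeNth_insertNth,
    Fin.insertNth_apply_same, Matrix.mul_apply, Matrix.smul_apply] at this
  have e2 : (1 : Matrix (Fin (s + 1) → Fin m) (Fin (s + 1) → Fin m) F)
      (Fin.insertNth (α := fun _ => Fin m) k' o x) (Fin.insertNth (α := fun _ => Fin m) k' o x')
      = (1 : Matrix (Fin s → Fin m) (Fin s → Fin m) F) x x' := by
    simp only [one_apply, (Fin.insertNth_right_injective (α := fun _ => Fin m) o).eq_iff]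
  rw [e2, Fintype.sum_eq_single x' fun u hu => by simp [WreathTensor14.slot_apply, hu]] at this
  rw [Matrix.smul_apply, ← this]
  simp [WreathTensor14.slot_apply]

/-- An element carrying an isotropic member to a member splits. -/
theorem exists_split (hM : UBase τ f M) (hsc : OnlyScal f M)
    {g : TV F m (s + 1) ≃ₗ[F] TV F m (s + 1)} (hg : g ∈ M) {k j : Fin (s + 1)}
    {w v : Fin m → F} (hw : w ≠ 0) (hww : f w w = 0) (hmap : ∀ x ∈ smemb k w, g x ∈ smemb j v) :
    ∃ (a : TV F m s ≃ₗ[F] TV F m s) (b : GL (Fin m) F), ∀ u z,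
      slot j (g ((slot k).symm (pure u z))) = pure (a u) (b.val *ᵥ z) := by
  have hm := hM.three
  have : Nonempty (Fin m) := ⟨⟨0, by omega⟩⟩
  set e := ((slot k).symm.trans g).trans (slot j)
  have H : Move τ (pform τ f s) f (slotGroup M k) (slotGroup M j) e :=
    { src := hM.ctx k
      tgt := hM.ctx j
      scal := hsc k
      scal' := hsc j
      sim := by
        obtain ⟨c, hc⟩ := hM.sim g hg
        refine ⟨c, fun X Y => ?_⟩
        obtain ⟨x, rfl⟩ := (slot k).surjective X
        obtain ⟨y, rfl⟩ := (slot k).surjective Y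
        simp [e, phi_slot, hc]
      conj := by
        rintro _ ⟨x, hx, rfl⟩
        exact ⟨g * x * g⁻¹, M.mul_mem (M.mul_mem hg hx) (M.inv_mem hg),
          LinearEquiv.ext fun X => by simp only [slotConj_apply]; simp [e]⟩
      conj' := by
        rintro _ ⟨y, hy, rfl⟩
        exact ⟨g⁻¹ * y * g, M.mul_mem (M.mul_mem (M.inv_mem hg) hy) hg,
          LinearEquiv.ext fun X => by simp only [slotConj_apply]; simp [e]⟩ }
  obtain ⟨A, B, hAB⟩ := exists_mul_mul_of_member H (by simpa using hM.small) hw hww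
    (fun u => hmap _ (symm_pure_mem k u w))
  have hA : A.det ≠ 0 := fun ha => by
    obtain ⟨z, hz, haz⟩ := Matrix.exists_mulVec_eq_zero_iff.2 ha
    refine hz ((TensorMax.pure_eq_zero_iff hw).1 (e.injective ?_))
    rw [hAB, map_zero, TensorMax.pure, mul_vecMulVec, haz]
    simp
  have hB : B.det ≠ 0 := fun hb => by
    obtain ⟨z, hz, hbz⟩ := Matrix.exists_mulVec_eq_zero_iff.2 hb
    obtain ⟨u, hu⟩ := exists_ne (0 : TV F m s)
    refine hu ((TensorMax.pure_eq_zero_iff hz).1 (e.injective ?_))
    rw [hAB, map_zero, TensorMax.pure, mul_vecMulVec, vecMulVec_mul, vecMul_transpose, hbz]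
    ext p q
    simp [vecMulVec_apply]
  refine ⟨WreathTensor14.toE (Matrix.GeneralLinearGroup.mkOfDetNeZero A hA),
    Matrix.GeneralLinearGroup.mkOfDetNeZero B hB, fun u z => ?_⟩
  change e (pure u z) = _
  rw [hAB, TensorMax.pure, mul_vecMulVec, vecMulVec_mul, vecMul_transpose]
  rfl

/-- An element carrying an isotropic member to a member is monomial. -/
theorem mono_of_member (hM : UBase τ f M) (hsc : OnlyScal f M)
    (hIH : ∀ k, ∀ a ∈ WreathTensor14.factor M k, a ∈ monoGroup F m s)
    {g : TV F m (s + 1) ≃ₗ[F] TV F m (s + 1)} (hg : g ∈ M) {k j : Fin (s + 1)}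
    {w v : Fin m → F} (hw : w ≠ 0) (hww : f w w = 0) (hv : v ≠ 0)
    (hmap : ∀ x ∈ smemb k w, g x ∈ smemb j v) :
    g ∈ monoGroup F m (s + 1) := by
  by_cases hs : s = 1
  · subst hs
    obtain ⟨a, b, hab⟩ := exists_split hM hsc hg hw hww hmap
    exact mono_of_split (mem_mono_one a) hab
  -- move the factor `j` to `k`
  obtain ⟨σ, hσ, hσj⟩ : ∃ σ : Equiv.Perm (Fin (s + 1)), σ ^ 3 = 1 ∧ σ j = k := by
    rcases eq_or_ne j k with rfl | hjk
    · exact ⟨1, one_pow 3, rfl⟩
    have h2 : 2 ≤ s := by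
      rcases s with _ | _ | s
      · exact absurd (Subsingleton.elim (α := Fin 1) j k) hjk
      · exact absurd rfl hs
      · omega
    obtain ⟨l, -, hl⟩ := Finset.exists_mem_notMem_of_card_lt_card
      (s := ({j, k} : Finset (Fin (s + 1)))) (t := Finset.univ)
      (lt_of_le_of_lt Finset.card_le_two (by simp only [Finset.card_univ, Fintype.card_fin]; omega))
    simp only [Finset.mem_insert, Finset.mem_singleton, not_or] at hl
    refine ⟨Equiv.swap j l * Equiv.swap j k, ?_, ?_⟩
    · rw [← (Equiv.Perm.isThreeCycle_swap_mul_swap_same (Ne.symm hl.1) hjk hl.2).orderOf]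
      exact pow_orderOf_eq_one _
    · rw [Equiv.Perm.mul_apply, Equiv.swap_apply_left,
        Equiv.swap_apply_of_ne_of_ne hjk.symm (Ne.symm hl.2)]
  have hhg := M.mul_mem (hM.perm_mem σ hσ) hg
  obtain ⟨a, b, hab⟩ := exists_split hM hsc hhg hw hww (k := k) (j := k) (v := v) fun x hx => by
    rw [LinearEquiv.mul_apply, ← hσj]
    exact permE_smemb σ j hv (hmap x (by rwa [hσj] at *))
  have := mono_of_split (hIH k a ⟨_, hhg, b, hab⟩) hab
  simpa using (monoGroup F m (s + 1)).mul_mem ((monoGroup F m (s + 1)).inv_mem (permE_mem_mono σ)) this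

end CfsgLib.WreathForm14
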