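import Cfsg.Agent.WreathForm14.Basic
import Cfsg.Agent.WreathTensor14.Basic

/-!
The tensor power of a unitary form in coordinates, and groups of its similitudes containing the
products of special isometries of the factors.
-/

set_option autoImplicit false
set_option linter.unusedSectionVars false

namespace CfsgLib.WreathForm14

open Matrix Module
open CfsgLib.TensorMax (InM rootMap pure pure_mulVec)
open CfsgLib.UnitCentres (add_right smul_right upair upair_apply Iso)
open CfsgLib.WreathTensor14 (TV pv slot slot_apply slot_pv slotGroup slotConj kronE kronE_pv permE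
  permE_pv InV linearMap_ext_pv)

variable {F : Type*} [Field F] {τ : F ≃+* F} {m t s : ℕ}
  {f : (Fin m → F) → (Fin m → F) → F}

/-- The tensor power of a form, in coordinates. -/
def pform (τ : F ≃+* F) (f : (Fin m → F) → (Fin m → F) → F) (t : ℕ) : TV F m t → TV F m t → F :=
  fun u v => ∑ p, ∑ q, u p * τ (v q) * ∏ i, f (Pi.single (p i) 1) (Pi.single (q i) 1)

lemma expand (hf : Cfsg.Geo.IsUnitaryForm τ f) (x y : Fin m → F) :
    f x y = ∑ a, ∑ b, x a * τ (y b) * f (Pi.single a 1) (Pi.single b 1) := by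
  rw [← dotProduct_dual hf]
  refine Finset.sum_congr rfl fun a _ => ?_
  rw [show dual f y a = f (Pi.single a 1) y from rfl, hf.herm (Pi.single a 1) y,
    ← dotProduct_dual hf, dotProduct, map_sum, Finset.mul_sum]
  refine Finset.sum_congr rfl fun b _ => ?_
  rw [map_mul, show τ (dual f (Pi.single a 1) b) = f (Pi.single a 1) (Pi.single b 1) from
    (hf.herm _ _).symm, mul_assoc]

lemma pform_pv (hf : Cfsg.Geo.IsUnitaryForm τ f) (x y : Fin t → Fin m → F) :
    pform τ f t (pv x) (pv y) = ∏ i, f (x i) (y i) := by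
  simp only [expand hf (x _) (y _)]
  rw [pform, Fintype.prod_sum]
  refine Finset.sum_congr rfl fun p _ => ?_
  rw [Fintype.prod_sum]
  refine Finset.sum_congr rfl fun q _ => ?_
  simp only [pv, map_prod, Finset.prod_mul_distrib]

/-- Splitting the form along one factor. -/
lemma phi_slot (k : Fin (s + 1)) (u v : TV F m (s + 1)) :
    phi (pform τ f s) f (slot k u) (slot k v) = pform τ f (s + 1) u v := by
  let e : Fin m × (Fin s → Fin m) ≃ (Fin (s + 1) → Fin m) := Fin.insertNthEquiv (fun _ => Fin m) k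
  symm
  rw [pform, ← e.sum_comp, Fintype.sum_prod_type, phi]
  refine Finset.sum_congr rfl fun a _ => ?_
  calc _ = ∑ p, ∑ b, ∑ q, u (e (a, p)) * τ (v (e (b, q)))
        * ∏ i, f (Pi.single (e (a, p) i) 1) (Pi.single (e (b, q) i) 1) :=
        Finset.sum_congr rfl fun p _ => by rw [← e.sum_comp, Fintype.sum_prod_type]
    _ = _ := by
      rw [Finset.sum_comm]
      refine Finset.sum_congr rfl fun b _ => ?_
      rw [pform, Finset.sum_mul]
      refine Finset.sum_congr rfl fun p _ => ?_
      rw [Finset.sum_mul]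
      refine Finset.sum_congr rfl fun q _ => ?_
      rw [Fin.prod_univ_succAbove _ k]
      simp only [e, Fin.insertNthEquiv, Equiv.coe_fn_mk, Fin.insertNth_apply_same, Fin.insertNth_apply_succAbove,
        slot_apply, Matrix.transpose_apply]
      ring

lemma pform_add_left (x y v : TV F m t) :
    pform τ f t (x + y) v = pform τ f t x v + pform τ f t y v := by
  simp only [pform, Pi.add_apply, add_mul, Finset.sum_add_distrib]

lemma pform_smul_left (c : F) (x v : TV F m t) :
    pform τ f t (c • x) v = c * pform τ f t x v := by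
  simp only [pform, Pi.smul_apply, smul_eq_mul, Finset.mul_sum, mul_assoc]

lemma pform_herm (hf : Cfsg.Geo.IsUnitaryForm τ f) (u v : TV F m t) :
    pform τ f t u v = τ (pform τ f t v u) := by
  rw [pform, pform, map_sum, Finset.sum_comm]
  refine Finset.sum_congr rfl fun p _ => ?_
  rw [map_sum]
  refine Finset.sum_congr rfl fun q _ => ?_
  rw [map_mul, map_mul, hf.involutive, map_prod, mul_comm (τ (v p))]
  exact congrArg _ (Finset.prod_congr rfl fun i _ => hf.herm _ _)

/-- The tensor power of a unitary form is unitary. -/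
theorem pform_unitary [Finite F] (hf : Cfsg.Geo.IsUnitaryForm τ f) (t : ℕ) :
    Cfsg.Geo.IsUnitaryForm τ (pform τ f t) := by
  suffices hnd : ∀ v, (∀ x, pform τ f t v x = 0) → v = 0 from
    ⟨hf.ne_refl, hf.involutive, pform_add_left, pform_smul_left, pform_herm hf, fun v hv => by
      obtain ⟨x, hx⟩ := not_forall.1 fun h => hv (hnd v h)
      exact ⟨⟨x, fun h => hx (by rw [pform_herm hf, h, map_zero])⟩, ⟨x, hx⟩⟩⟩
  induction t with
  | zero =>
    intro v h
    funext p
    have h1 := h (Pi.single p 1)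
    simpa [pform, Fintype.sum_unique, Subsingleton.elim (default : Fin 0 → Fin m) p] using h1
  | succ s ih =>
    intro v h
    have hb : Cfsg.Geo.IsUnitaryForm τ (pform τ f s) :=
      ⟨hf.ne_refl, hf.involutive, pform_add_left, pform_smul_left, pform_herm hf, fun v hv => by
        obtain ⟨x, hx⟩ := not_forall.1 fun h => hv (ih v h)
        exact ⟨⟨x, fun h => hx (by rw [pform_herm hf, h, map_zero])⟩, ⟨x, hx⟩⟩⟩
    refine (slot (0 : Fin (s + 1))).map_eq_zero_iff.1 (phi_nondeg hb hf fun Y => ?_)
    obtain ⟨y, rfl⟩ := (slot (0 : Fin (s + 1))).surjective Y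
    rw [phi_slot]
    exact h y

/-- Similitude on pure vectors suffices. -/
lemma sim_of_pv [Finite F] (hf : Cfsg.Geo.IsUnitaryForm τ f) {g : TV F m t ≃ₗ[F] TV F m t} {c : F}
    (h : ∀ x y, pform τ f t (g (pv x)) (g (pv y)) = c * pform τ f t (pv x) (pv y)) :
    ∀ u v, pform τ f t (g u) (g v) = c * pform τ f t u v := by
  have hB := pform_unitary hf t
  have h1 : ∀ y u, pform τ f t (g u) (g (pv y)) = c * pform τ f t u (pv y) := fun y =>
    LinearMap.congr_fun (f := upair hB (g (pv y)) ∘ₗ g.toLinearMap) (g := c • upair hB (pv y))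
      (linearMap_ext_pv fun x => by simpa using h x y)
  intro u v
  have h2 : pform τ f t (g v) (g u) = τ c * pform τ f t v u :=
    LinearMap.congr_fun (f := upair hB (g u) ∘ₗ g.toLinearMap) (g := τ c • upair hB u)
      (linearMap_ext_pv fun y => by
        simp only [LinearMap.comp_apply, LinearEquiv.coe_coe, upair_apply, LinearMap.smul_apply,
          smul_eq_mul]
        rw [hB.herm, h1, map_mul, ← hB.herm]) v
  rw [hB.herm, h2, map_mul, hf.involutive, ← hB.herm]

/-- The hypotheses on an overgroup of the tensor wreath product in a unitary group. -/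
structure UBase (τ : F ≃+* F) (f : (Fin m → F) → (Fin m → F) → F)
    (M : Subgroup (TV F m t ≃ₗ[F] TV F m t)) : Prop where
  uf : Cfsg.Geo.IsUnitaryForm τ f
  three : 3 ≤ m
  small : (∃ c : F, τ c = c ∧ c ≠ 0 ∧ c ≠ 1) ∨ 4 ≤ m
  sim : ∀ g ∈ M, IsSim (pform τ f t) g
  kron_mem : ∀ gs : Fin t → GL (Fin m) F, (∀ i, Iso f (gs i)) →
    (∀ i, gs i ∈ Cfsg.Geo.specialLinear (Fin m) F) → kronE gs ∈ M
  perm_mem : ∀ σ : Equiv.Perm (Fin t), σ ^ 3 = 1 → permE σ ∈ M

/-- Every coefficient of a root element is scalar. -/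
def OnlyScal (f : (Fin m → F) → (Fin m → F) → F)
    (M : Subgroup (TV F m (s + 1) ≃ₗ[F] TV F m (s + 1))) : Prop :=
  ∀ (k : Fin (s + 1)) (θ : Matrix (Fin s → Fin m) (Fin s → Fin m) F) (w : Fin m → F), w ≠ 0 →
    f w w = 0 → InM (slotGroup M k) (R f θ w) → ∃ c : F, θ = c • 1

/-- The context of one factor. -/
lemma UBase.ctx [Finite F] {M : Subgroup (TV F m (s + 1) ≃ₗ[F] TV F m (s + 1))}
    (hM : UBase τ f M) (k : Fin (s + 1)) : Ctx τ (pform τ f s) f (slotGroup M k) where
  ub := pform_unitary hM.uf s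
  uf := hM.uf
  three := by rw [Fintype.card_fin]; exact hM.three
  sim := by
    rintro _ ⟨g, hg, rfl⟩
    obtain ⟨c, hc⟩ := hM.sim g hg
    refine ⟨c, fun X Y => ?_⟩
    obtain ⟨u, rfl⟩ := (slot k).surjective X
    obtain ⟨v, rfl⟩ := (slot k).surjective Y
    simp [phi_slot, hc]
  right := fun a hiso hs => by
    refine ⟨_, Subgroup.mem_map_of_mem _ (hM.kron_mem
      (Fin.insertNth (α := fun _ => GL (Fin m) F) k a 1) ?_ ?_),
      WreathTensor14.kronE_insertNth_one k a⟩
    · intro i
      rcases Fin.eq_self_or_eq_succAbove k i with rfl | ⟨j, rfl⟩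
      · simpa using hiso
      · intro x y; simp
    · intro i
      rcases Fin.eq_self_or_eq_succAbove k i with rfl | ⟨j, rfl⟩
      · simpa using hs
      · simp

/-- Products of isometries of the factors are isometries. -/
lemma kronE_iso [Finite F] (hf : Cfsg.Geo.IsUnitaryForm τ f) {gs : Fin t → GL (Fin m) F}
    {cs : Fin t → F}
    (h : ∀ i x y, f ((gs i).val *ᵥ x) ((gs i).val *ᵥ y) = cs i * f x y) :
    ∀ u v, pform τ f t (kronE gs u) (kronE gs v) = (∏ i, cs i) * pform τ f t u v :=
  sim_of_pv hf fun x y => by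
    simp only [kronE_pv, pform_pv hf, h, Finset.prod_mul_distrib]

/-- Permutations of the factors are isometries. -/
lemma permE_iso [Finite F] (hf : Cfsg.Geo.IsUnitaryForm τ f) (σ : Equiv.Perm (Fin t)) :
    ∀ u v, pform τ f t (permE σ u) (permE σ v) = pform τ f t u v := fun u v => by
  rw [sim_of_pv hf (c := 1) (fun x y => ?_) u v, one_mul]
  rw [permE_pv, permE_pv, pform_pv hf, pform_pv hf, one_mul]
  exact Equiv.prod_comp σ⁻¹ fun i => f (x i) (y i)

end CfsgLib.WreathForm14
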