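import Cfsg.Agent.WreathForm14.Basic

/-!
Rank one maps of a unitary space: spans, adjoints and the two-sided product with a transvection.
-/

set_option autoImplicit false
set_option linter.unusedSectionVars false

namespace CfsgLib.WreathForm14

open Matrix Module
open CfsgLib.UnitCentres (add_right smul_right zero_left zero_right sub_left sub_right orth_comm
  norm_fixed norm_add_smul exists_traceZero exists_trace_one exists_trace)

variable {F : Type*} [Field F] {τ : F ≃+* F} {κ : Type} [Fintype κ] [DecidableEq κ]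
  {f : (κ → F) → (κ → F) → F}

/-- The rank one map `z ↦ f z y • x`. -/
def nmat (f : (κ → F) → (κ → F) → F) (x y : κ → F) : Matrix κ κ F := vecMulVec x (dual f y)

section
variable (hf : Cfsg.Geo.IsUnitaryForm τ f)
include hf

lemma nmat_mulVec (x y z : κ → F) : nmat f x y *ᵥ z = f z y • x := by
  rw [nmat, vecMulVec_mulVec, dotProduct_comm, dotProduct_dual hf]
  ext i; simp [mul_comm]

lemma nmat_mul (x y x' y' : κ → F) : nmat f x y * nmat f x' y' = f x' y • nmat f x y' := by
  refine Matrix.ext_of_mulVec_single fun i => ?_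
  rw [← mulVec_mulVec, nmat_mulVec hf, nmat_mulVec hf, smul_mulVec, nmat_mulVec hf, hf.smul_left,
    smul_smul, mul_comm]

lemma nmat_smul_left (c : F) (x y : κ → F) : nmat f (c • x) y = c • nmat f x y := smul_vecMulVec ..

lemma nmat_add_left (x x' y : κ → F) : nmat f (x + x') y = nmat f x y + nmat f x' y := add_vecMulVec ..

lemma nmat_smul_right (c : F) (x y : κ → F) : nmat f x (c • y) = τ c • nmat f x y := by
  rw [nmat, dual_smul hf, vecMulVec_smul]; rfl

lemma nmat_add_right (x y y' : κ → F) : nmat f x (y + y') = nmat f x y + nmat f x y' := by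
  rw [nmat, dual_add hf, vecMulVec_add]; rfl

lemma nmat_zero : nmat f (0 : κ → F) (0 : κ → F) = 0 := by
  rw [nmat, zero_vecMulVec]

lemma nmat_adj (x y : κ → F) : IsAdj f (nmat f x y) (nmat f y x) := fun z u => by
  rw [nmat_mulVec hf, nmat_mulVec hf, hf.smul_left, smul_right hf, ← hf.herm, mul_comm]

lemma isAdj_add {θ θ' φ φ' : Matrix κ κ F} (h : IsAdj f θ θ') (h' : IsAdj f φ φ') :
    IsAdj f (θ + φ) (θ' + φ') := fun x u => by
  rw [add_mulVec, add_mulVec, hf.add_left, add_right hf, h, h']

lemma isAdj_smul {θ θ' : Matrix κ κ F} (h : IsAdj f θ θ') (c : F) : IsAdj f (c • θ) (τ c • θ') :=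
  fun x u => by rw [smul_mulVec, smul_mulVec, hf.smul_left, smul_right hf, h]

lemma isAdj_neg {θ θ' : Matrix κ κ F} (h : IsAdj f θ θ') : IsAdj f (-θ) (-θ') := by
  simpa using isAdj_smul hf h (-1)

lemma isAdj_zero : IsAdj f (0 : Matrix κ κ F) 0 := fun x u => by
  rw [zero_mulVec, zero_mulVec, zero_left hf, zero_right hf]

lemma isAdj_one : IsAdj f (1 : Matrix κ κ F) 1 := fun x u => by rw [one_mulVec, one_mulVec]

lemma isAdj_mul {θ θ' φ φ' : Matrix κ κ F} (h : IsAdj f θ θ') (h' : IsAdj f φ φ') :
    IsAdj f (θ * φ) (φ' * θ') := fun x u => by rw [← mulVec_mulVec, ← mulVec_mulVec, h', h]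

lemma isAdj_symm {θ θ' : Matrix κ κ F} (h : IsAdj f θ θ') : IsAdj f θ' θ := fun x u => by
  rw [hf.herm, ← h, ← hf.herm]

lemma isAdj_unique {θ θ₁ θ₂ : Matrix κ κ F} (h₁ : IsAdj f θ θ₁) (h₂ : IsAdj f θ θ₂) : θ₁ = θ₂ := by
  refine Matrix.ext_of_mulVec_single fun i => sub_eq_zero.1 ?_
  by_contra hne
  obtain ⟨-, u, hu⟩ := hf.nondegenerate _ hne
  exact hu (by rw [sub_left hf, h₁, h₂, sub_self])

variable [Finite F] (h3 : 3 ≤ Fintype.card κ)
include h3

/-- A sesquilinear form vanishing on the isotropic vectors is a multiple of the form. -/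
lemma eq_smul_one_of_iso (K : Matrix κ κ F) (h : ∀ a, f a a = 0 → f (K *ᵥ a) a = 0) :
    ∃ c : F, K = c • 1 := by
  obtain ⟨a, -, ha, haa⟩ := UnitTensor96.exists_iso_mem hf (⊤ : Submodule F (κ → F))
    (by rw [finrank_top, Module.finrank_fintype_fun_eq_card]; omega)
  obtain ⟨b, hbb, hab, hba⟩ := UnitTensor96.exists_partner hf ha haa
  set c := f (K *ᵥ a) b
  refine ⟨c, ?_⟩
  set K' := K - c • (1 : Matrix κ κ F) with hK'
  set φ : (κ → F) → (κ → F) → F := fun x y => f (K' *ᵥ x) y
  have addl : ∀ x x' y, φ (x + x') y = φ x y + φ x' y := fun x x' y => by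
    simp only [φ, mulVec_add, hf.add_left]
  have addr : ∀ x y y', φ x (y + y') = φ x y + φ x y' := fun x y y' => add_right hf _ _ _
  have smull : ∀ (r : F) x y, φ (r • x) y = r * φ x y := fun r x y => by
    simp only [φ, mulVec_smul, hf.smul_left]
  have smulr : ∀ (r : F) x y, φ x (r • y) = τ r * φ x y := fun r x y => smul_right hf _ _ _
  have hiso : ∀ v, f v v = 0 → φ v v = 0 := fun v hv => by
    simp only [φ, hK', sub_mulVec, smul_mulVec, one_mulVec, sub_left hf, hf.smul_left, h v hv, hv,
      mul_zero, sub_zero]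
  have hab' : φ a b = 0 := by
    simp only [φ, hK', sub_mulVec, smul_mulVec, one_mulVec, sub_left hf, hf.smul_left, hab, mul_one, c,
      sub_self]
  obtain ⟨ε, hε, hεε⟩ := exists_traceZero hf
  have hba' : φ b a = 0 := by
    have h1 := hiso (a + ε • b) (by
      rw [norm_add_smul hf, haa, hbb, hab, hba]
      linear_combination hεε)
    rw [addl, addr, addr, smull, smulr, smull, smulr, hiso a haa, hiso b hbb, hab'] at h1
    simpa [hε] using h1
  obtain ⟨l, hl⟩ : ∃ l, τ l ≠ l := by
    by_contra! h0; exact hf.ne_refl (RingEquiv.ext h0)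
  -- the quadratic identity at vectors orthogonal to the pair
  have key : ∀ u, f u a = 0 → f u b = 0 → ∀ μ : F, τ μ + μ + f u u = 0 →
      φ a u + φ u a + μ * φ b u + τ μ * φ u b + φ u u = 0 := by
    intro u hua hub μ hμ
    have h1 := hiso (a + μ • b + u) (by
      simp only [hf.add_left, add_right hf, hf.smul_left, smul_right hf, haa, hbb, hab, hba, hua, hub,
        orth_comm hf hua, orth_comm hf hub]
      linear_combination hμ)
    simp only [addl, addr, smull, smulr, hiso a haa, hiso b hbb, hab', hba'] at h1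
    linear_combination h1
  have hzero : ∀ u, f u a = 0 → f u b = 0 →
      φ b u = 0 ∧ φ u b = 0 ∧ φ a u + φ u a + φ u u = 0 := by
    have hsym : ∀ u, f u a = 0 → f u b = 0 → φ b u = φ u b := by
      intro u hua hub
      obtain ⟨μ, hμ⟩ := exists_trace hf (r := -(f u u)) (by rw [map_neg, norm_fixed hf])
      have h1 := key u hua hub μ (by linear_combination hμ)
      have h2 := key u hua hub (μ + ε) (by rw [map_add]; linear_combination hμ + hεε)
      rw [map_add] at h2
      have h4 : ε * (φ b u - φ u b) = 0 := by linear_combination h2 - h1 - φ u b * hεε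
      exact sub_eq_zero.1 ((mul_eq_zero.1 h4).resolve_left hε)
    intro u hua hub
    have h2 := hsym (l • u) (by rw [hf.smul_left, hua, mul_zero]) (by rw [hf.smul_left, hub, mul_zero])
    rw [smull, smulr, hsym u hua hub] at h2
    have h5 : φ u b = 0 :=
      (mul_eq_zero.1 (show (τ l - l) * φ u b = 0 by linear_combination h2)).resolve_left (sub_ne_zero.2 hl)
    have h6 : φ b u = 0 := (hsym u hua hub).trans h5
    obtain ⟨μ, hμ⟩ := exists_trace hf (r := -(f u u)) (by rw [map_neg, norm_fixed hf])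
    have h7 := key u hua hub μ (by linear_combination hμ)
    rw [h5, h6] at h7
    exact ⟨h6, h5, by linear_combination h7⟩
  -- the same with the two roles exchanged
  have hzero' : ∀ u, f u a = 0 → f u b = 0 → φ a u = 0 ∧ φ u a = 0 := by
    intro u hua hub
    have key' : ∀ v, f v a = 0 → f v b = 0 → φ a v = φ v a := by
      intro v hva hvb
      obtain ⟨μ, hμ⟩ := exists_trace hf (r := -(f v v)) (by rw [map_neg, norm_fixed hf])
      have e : ∀ μ : F, τ μ + μ + f v v = 0 →
          φ b v + φ v b + μ * φ a v + τ μ * φ v a + φ v v = 0 := by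
        intro μ hμ
        have h1 := hiso (b + μ • a + v) (by
          simp only [hf.add_left, add_right hf, hf.smul_left, smul_right hf, haa, hbb, hab, hba, hva, hvb,
            orth_comm hf hva, orth_comm hf hvb]
          linear_combination hμ)
        simp only [addl, addr, smull, smulr, hiso a haa, hiso b hbb, hab', hba'] at h1
        linear_combination h1
      have h1 := e μ (by linear_combination hμ)
      have h2 := e (μ + ε) (by rw [map_add]; linear_combination hμ + hεε)
      rw [map_add] at h2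
      have h4 : ε * (φ a v - φ v a) = 0 := by linear_combination h2 - h1 - φ v a * hεε
      exact sub_eq_zero.1 ((mul_eq_zero.1 h4).resolve_left hε)
    have h2 := key' (l • u) (by rw [hf.smul_left, hua, mul_zero]) (by rw [hf.smul_left, hub, mul_zero])
    rw [smull, smulr, key' u hua hub] at h2
    have h5 : φ u a = 0 :=
      (mul_eq_zero.1 (show (τ l - l) * φ u a = 0 by linear_combination h2)).resolve_left (sub_ne_zero.2 hl)
    exact ⟨(key' u hua hub).trans h5, h5⟩
  have hq : ∀ u, f u a = 0 → f u b = 0 → φ u u = 0 := fun u hua hub => by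
    obtain ⟨-, -, h1⟩ := hzero u hua hub
    obtain ⟨h2, h4⟩ := hzero' u hua hub
    linear_combination h1 - h2 - h4
  have hpol : ∀ u v, f u a = 0 → f u b = 0 → f v a = 0 → f v b = 0 → φ u v = 0 := by
    intro u v hua hub hva hvb
    have h1 := hq (u + v) (by rw [hf.add_left, hua, hva, add_zero]) (by rw [hf.add_left, hub, hvb, add_zero])
    have h2 := hq (u + l • v) (by rw [hf.add_left, hf.smul_left, hua, hva, mul_zero, add_zero])
      (by rw [hf.add_left, hf.smul_left, hub, hvb, mul_zero, add_zero])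
    simp only [addl, addr, smull, smulr, hq u hua hub, hq v hva hvb] at h1 h2
    have h4 : (τ l - l) * φ u v = 0 := by linear_combination h2 - l * h1
    exact (mul_eq_zero.1 h4).resolve_left (sub_ne_zero.2 hl)
  have hall : ∀ x y, φ x y = 0 := by
    have dec : ∀ x : κ → F, ∃ u, f u a = 0 ∧ f u b = 0 ∧ x = f x b • a + f x a • b + u := fun x =>
      ⟨x - f x b • a - f x a • b, by simp [sub_left hf, hf.smul_left, haa, hba],
        by simp [sub_left hf, hf.smul_left, hbb, hab], by abel⟩
    intro x y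
    obtain ⟨u, hua, hub, hx⟩ := dec x
    obtain ⟨v, hva, hvb, hy⟩ := dec y
    obtain ⟨h1, h2, -⟩ := hzero u hua hub
    obtain ⟨h1', -, -⟩ := hzero v hva hvb
    obtain ⟨-, h4⟩ := hzero' u hua hub
    obtain ⟨h4', -⟩ := hzero' v hva hvb
    rw [hx, hy]
    simp [addl, addr, smull, smulr, hiso a haa, hiso b hbb, hab', hba', h2, h4, h1', h4',
      hpol u v hua hub hva hvb]
  refine Matrix.ext_of_mulVec_single fun i => sub_eq_zero.1 ?_
  by_contra hne
  obtain ⟨-, u, hu⟩ := hf.nondegenerate _ hne
  have := hall (Pi.single i 1) u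
  simp only [φ, hK', sub_mulVec] at this
  exact hu this

/-- Isotropic vectors off a hyperplane span. -/
lemma span_iso_avoid {q : κ → F} (hq : q ≠ 0) (z : κ → F) :
    z ∈ Submodule.span F {c | f c c = 0 ∧ f c q ≠ 0} := by
  refine (Submodule.span_le (p := Submodule.span F {c | f c c = 0 ∧ f c q ≠ 0})).2 (fun c hc => ?_)
    (UnitTensor96.span_iso hf (by omega) z)
  by_cases hcq : f c q = 0
  swap
  · exact Submodule.subset_span ⟨hc, hcq⟩
  obtain ⟨c₀, hc₀, hc₀q⟩ : ∃ c₀, f c₀ c₀ = 0 ∧ f c₀ q ≠ 0 := by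
    by_contra! h
    obtain ⟨⟨x, hx⟩, -⟩ := hf.nondegenerate q hq
    refine hx ?_
    have : x ∈ UnitCentres.perp hf {q} := Submodule.span_le.2 (fun y hy w hw => by
      rw [Set.mem_singleton_iff.1 hw]; exact h y hy) (UnitTensor96.span_iso hf (by omega) x)
    exact this q rfl
  obtain ⟨r, hr0, hr⟩ : ∃ r : F, r ≠ 0 ∧ τ r * f c c₀ + r * f c₀ c = 0 := by
    obtain ⟨ε, hε, hεε⟩ := exists_traceZero hf
    rcases eq_or_ne (f c₀ c) 0 with h0 | h0
    · exact ⟨1, one_ne_zero, by rw [h0, orth_comm hf h0, mul_zero, mul_zero, add_zero]⟩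
    · refine ⟨ε / f c₀ c, div_ne_zero hε h0, ?_⟩
      rw [div_mul_cancel₀ _ h0, map_div₀, ← hf.herm, div_mul_cancel₀ _ (fun e => h0 (orth_comm hf e))]
      linear_combination hεε
  have h1 : f (c + r • c₀) (c + r • c₀) = 0 := by
    rw [norm_add_smul hf, hc, hc₀]
    linear_combination hr
  have h2 : f (c + r • c₀) q ≠ 0 := by
    rw [hf.add_left, hf.smul_left, hcq, zero_add]; exact mul_ne_zero hr0 hc₀q
  rw [show c = (c + r • c₀) - r • c₀ by abel]
  exact sub_mem (Submodule.subset_span ⟨h1, h2⟩)
    (Submodule.smul_mem _ _ (Submodule.subset_span ⟨hc₀, hc₀q⟩))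

/-- Membership in a span of matrices, tested by the trace pairing. -/
lemma mem_span_of_trace {S : Set (Matrix κ κ F)} {K : Matrix κ κ F}
    (h : ∀ L : Matrix κ κ F, (∀ x ∈ S, trace (L * x) = 0) → trace (L * K) = 0) :
    K ∈ Submodule.span F S := by
  by_contra hK
  obtain ⟨ψ, hψK, hψ⟩ := Submodule.exists_dual_map_eq_bot_of_notMem hK inferInstance
  let L : Matrix κ κ F := Matrix.of fun j i => ψ (single i j 1)
  have hL : ∀ X, trace (L * X) = ψ X := fun X => by
    induction X using Matrix.induction_on' with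
    | h_zero => simp
    | h_add p q hp hq => rw [mul_add, trace_add, map_add, hp, hq]
    | h_std_basis i j x =>
      rw [show single i j x = x • single i j (1 : F) by rw [smul_single, smul_eq_mul, mul_one],
        Matrix.mul_smul, trace_smul, map_smul]
      congr 1
      simp [L, Matrix.trace, Matrix.mul_apply, single_apply, ite_and]
  refine hψK ((hL K).symm.trans (h L fun x hx => ?_))
  rw [hL]
  have : ψ x ∈ (Submodule.span F S).map ψ := Submodule.mem_map_of_mem (Submodule.subset_span hx)
  rw [hψ] at this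
  exact (Submodule.mem_bot F).1 this

lemma trace_mul_nmat (L : Matrix κ κ F) (x y : κ → F) : trace (L * nmat f x y) = f (L *ᵥ x) y := by
  rw [nmat, mul_vecMulVec, trace_vecMulVec, dotProduct_dual hf]

/-- The rank one maps of isotropic vectors span those of orthogonal pairs. -/
lemma nmat_mem_span_iso {w a : κ → F} (h : f w a = 0) :
    nmat f w a ∈ Submodule.span F {K | ∃ v, f v v = 0 ∧ K = nmat f v v} := by
  refine mem_span_of_trace hf h3 fun L hL => ?_
  obtain ⟨c, rfl⟩ := eq_smul_one_of_iso hf h3 L fun v hv => by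
    rw [← trace_mul_nmat hf h3]; exact hL _ ⟨v, hv, rfl⟩
  rw [trace_mul_nmat hf h3, smul_mulVec, one_mulVec, hf.smul_left, h, mul_zero]

/-- The rank one maps of hyperbolic pairs span everything. -/
lemma mem_span_pairs (K : Matrix κ κ F) :
    K ∈ Submodule.span F {K | ∃ a b, f a a = 0 ∧ f b b = 0 ∧ f a b ≠ 0 ∧ K = nmat f a b} := by
  refine mem_span_of_trace hf h3 fun L hL => ?_
  have hiso : ∀ a, f a a = 0 → L *ᵥ a = 0 := by
    intro a ha
    rcases eq_or_ne a 0 with rfl | ha0
    · exact mulVec_zero L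
    by_contra hne
    obtain ⟨-, y, hy⟩ := hf.nondegenerate _ hne
    refine hy (orth_comm hf ?_)
    have hle : Submodule.span F {c | f c c = 0 ∧ f c a ≠ 0} ≤ UnitCentres.perp hf {L *ᵥ a} :=
      Submodule.span_le.2 fun c hc z hz => by
        rw [Set.mem_singleton_iff.1 hz]
        refine orth_comm hf ?_
        rw [← trace_mul_nmat hf h3]
        exact hL _ ⟨a, c, ha, hc.1, fun e => hc.2 (orth_comm hf e), rfl⟩
    exact hle (span_iso_avoid hf h3 ha0 y) _ rfl
  have : L = 0 := Matrix.ext_of_mulVec_single fun i => by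
    rw [zero_mulVec]
    have hle : Submodule.span F {c | f c c = 0} ≤ LinearMap.ker L.mulVecLin :=
      Submodule.span_le.2 fun c hc => hiso c hc
    exact hle (UnitTensor96.span_iso hf (by omega) _)
  rw [this, Matrix.zero_mul, trace_zero]

omit h3

/-- A space invariant under the conjugations by transvections is invariant under the products with their
nilpotent parts. -/
theorem sandwich_of_invariant {J : Type} [Fintype J] [DecidableEq J]
    (small : (∃ c : F, τ c = c ∧ c ≠ 0 ∧ c ≠ 1) ∨ 4 ≤ Fintype.card κ)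
    (E : Matrix κ κ F →ₐ[F] Matrix J J F) (S : Submodule F (Matrix J J F))
    (hS : ∀ v η, f v v = 0 → η + τ η = 0 → ∀ θ ∈ S,
      (1 + η • E (nmat f v v)) * θ * (1 - η • E (nmat f v v)) ∈ S)
    {θ : Matrix J J F} (hθ : θ ∈ S) {a : κ → F} (ha : f a a = 0) :
    E (nmat f a a) * θ * E (nmat f a a) ∈ S := by
  obtain ⟨ε, hε, hεε⟩ := exists_traceZero hf
  -- the difference
  have hD : ∀ v η, f v v = 0 → η + τ η = 0 → ∀ θ ∈ S, η • (E (nmat f v v) * θ - θ * E (nmat f v v))
      - (η * η) • (E (nmat f v v) * θ * E (nmat f v v)) ∈ S := by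
    intro v η hv hη θ hθ
    have h := S.sub_mem (hS v η hv hη θ hθ) hθ
    convert h using 1
    simp only [add_mul, mul_sub, one_mul, mul_one, smul_mul_assoc, mul_smul_comm, smul_smul, smul_sub,
      smul_add]
    abel
  by_cases hk : ∃ k : F, τ k = k ∧ k ≠ 0 ∧ k ≠ 1
  · obtain ⟨k, hkτ, hk0, hk1⟩ := hk
    have h1 := hD a ε ha hεε θ hθ
    have h2 := hD a (k * ε) ha (by rw [map_mul, hkτ, ← mul_add, hεε, mul_zero]) θ hθ
    have hne : (k * k - k) * (ε * ε) ≠ 0 := mul_ne_zero (sub_ne_zero.2 fun e =>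
      hk1 (mul_right_cancel₀ hk0 (by rw [e, one_mul]))) (mul_ne_zero hε hε)
    have h := S.smul_mem ((k * k - k) * (ε * ε))⁻¹ (S.sub_mem (S.smul_mem k h1) h2)
    convert h using 1
    rw [show k • (ε • (E (nmat f a a) * θ - θ * E (nmat f a a)) - (ε * ε) • (E (nmat f a a) * θ * E (nmat f a a)))
      - ((k * ε) • (E (nmat f a a) * θ - θ * E (nmat f a a))
        - (k * ε * (k * ε)) • (E (nmat f a a) * θ * E (nmat f a a)))
      = ((k * k - k) * (ε * ε)) • (E (nmat f a a) * θ * E (nmat f a a)) by module, inv_smul_smul₀ hne]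
  -- two fixed scalars only
  have h4 : 4 ≤ Fintype.card κ := small.resolve_left hk
  push Not at hk
  have hfix : ∀ x : F, τ x = x → x = 0 ∨ x = 1 := fun x hx => or_iff_not_imp_left.2 (hk x hx)
  have h2F : (2 : F) = 0 := (hfix 2 (map_ofNat τ 2)).resolve_right fun h0 =>
    one_ne_zero (show (1 : F) = 0 by linear_combination h0)
  have h11 : (1 : F) + τ 1 = 0 := by rw [map_one]; linear_combination h2F
  have hXX : ∀ X : Matrix J J F, X + X = 0 := fun X => by
    rw [← two_smul F X, h2F, zero_smul]
  have hneg : ∀ X : Matrix J J F, -X = X := fun X => neg_eq_of_add_eq_zero_right (hXX X)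
  obtain ⟨l, hl⟩ : ∃ l, τ l ≠ l := by
    by_contra! h0; exact hf.ne_refl (RingEquiv.ext h0)
  have hl0 : l ≠ 0 := fun h => hl (by rw [h, map_zero])
  have hl1 : τ l = l + 1 := by
    have := (hfix (l + τ l) (by rw [map_add, hf.involutive, add_comm])).resolve_left fun h0 => hl (by
      linear_combination h0 - l * h2F)
    linear_combination this - l * h2F
  have hll : l * τ l = 1 := (hfix _ (by rw [map_mul, hf.involutive, mul_comm])).resolve_left
    (mul_ne_zero hl0 (by simpa using hl0))
  have hl2 : l * l = l + 1 := by rw [hl1] at hll; linear_combination hll - l * h2F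
  -- the difference at one vector
  have hD1 : ∀ v, f v v = 0 → ∀ θ ∈ S,
      E (nmat f v v) * θ + θ * E (nmat f v v) + E (nmat f v v) * θ * E (nmat f v v) ∈ S := by
    intro v hv θ hθ
    have h := hD v 1 hv h11 θ hθ
    rwa [one_smul, one_mul, one_smul, sub_eq_add_neg, sub_eq_add_neg, hneg, hneg] at h
  -- products in a totally isotropic plane
  have prod0 : ∀ x y x' y', f x' y = 0 → E (nmat f x y) * E (nmat f x' y') = 0 := fun x y x' y' h => by
    rw [← map_mul, nmat_mul hf, h, zero_smul, map_zero]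
  have conj3 : ∀ v x y, f v v = 0 → f x x = 0 → f y y = 0 → f v x = 0 → f v y = 0 → f x y = 0 →
      ∀ θ ∈ S, (1 + (E (nmat f v v) + E (nmat f x x) + E (nmat f y y))) * θ
        * (1 + (E (nmat f v v) + E (nmat f x x) + E (nmat f y y))) ∈ S := by
    intro v x y hv hx hy hvx hvy hxy θ hθ
    have hc : ∀ z, f z z = 0 → ∀ θ ∈ S, (1 + E (nmat f z z)) * θ * (1 + E (nmat f z z)) ∈ S := by
      intro z hz θ hθ
      have := hS z 1 hz h11 θ hθ
      rwa [one_smul, sub_eq_add_neg, hneg] at this
    have h := hc v hv _ (hc x hx _ (hc y hy θ hθ))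
    convert h using 1
    have e1 : E (nmat f v v) * E (nmat f x x) = 0 := prod0 _ _ _ _ (orth_comm hf hvx)
    have e2 : E (nmat f x x) * E (nmat f y y) = 0 := prod0 _ _ _ _ (orth_comm hf hxy)
    have e3 : E (nmat f v v) * E (nmat f y y) = 0 := prod0 _ _ _ _ (orth_comm hf hvy)
    have e1' : E (nmat f x x) * E (nmat f v v) = 0 := prod0 _ _ _ _ hvx
    have e2' : E (nmat f y y) * E (nmat f x x) = 0 := prod0 _ _ _ _ hxy
    have e3' : E (nmat f y y) * E (nmat f v v) = 0 := prod0 _ _ _ _ hvy
    have l1 : (1 + E (nmat f v v)) * (1 + E (nmat f x x)) * (1 + E (nmat f y y))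
        = 1 + (E (nmat f v v) + E (nmat f x x) + E (nmat f y y)) := by
      simp only [mul_add, add_mul, one_mul, mul_one, e1, e2, e3, zero_mul, add_zero]
      abel
    have l2 : (1 + E (nmat f y y)) * (1 + E (nmat f x x)) * (1 + E (nmat f v v))
        = 1 + (E (nmat f v v) + E (nmat f x x) + E (nmat f y y)) := by
      simp only [mul_add, add_mul, one_mul, mul_one, e1', e2', e3', zero_mul, add_zero]
      abel
    conv_lhs => arg 1; rw [← l1]
    conv_lhs => arg 2; rw [← l2]
    simp only [mul_assoc]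
  -- the mixed products
  have hG : ∀ a c, f a a = 0 → f c c = 0 → f a c = 0 → ∀ ρ : F, ρ * τ ρ = 1 → ∀ θ ∈ S,
      ρ • (E (nmat f a c) * θ + θ * E (nmat f a c)) + τ ρ • (E (nmat f c a) * θ + θ * E (nmat f c a))
        + (ρ * ρ) • (E (nmat f a c) * θ * E (nmat f a c))
        + (τ ρ * τ ρ) • (E (nmat f c a) * θ * E (nmat f c a))
        + (E (nmat f a c) * θ * E (nmat f c a) + E (nmat f c a) * θ * E (nmat f a c)) ∈ S := by
    intro a c haa hcc hac ρ hρ θ hθ
    have hca := orth_comm hf hac
    have hv : f (a + τ ρ • c) (a + τ ρ • c) = 0 := by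
      rw [norm_add_smul hf, haa, hcc, hac, hca]; ring
    have hva : f (a + τ ρ • c) a = 0 := by rw [hf.add_left, hf.smul_left, haa, hca, mul_zero, add_zero]
    have hvc : f (a + τ ρ • c) c = 0 := by rw [hf.add_left, hf.smul_left, hac, hcc, mul_zero, add_zero]
    have h := S.sub_mem (conj3 _ a c hv haa hcc hva hvc hac θ hθ) hθ
    have hW : E (nmat f (a + τ ρ • c) (a + τ ρ • c)) + E (nmat f a a) + E (nmat f c c)
        = ρ • E (nmat f a c) + τ ρ • E (nmat f c a) := by
      simp only [nmat_add_left hf, nmat_add_right hf, nmat_smul_left hf, nmat_smul_right hf, hf.involutive,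
        smul_smul, map_add, map_smul, mul_comm (τ ρ) ρ, hρ, one_smul]
      linear_combination (norm := abel) hXX (E (nmat f a a)) + hXX (E (nmat f c c))
    rw [hW] at h
    convert h using 1
    simp only [add_mul, mul_add, one_mul, mul_one, smul_mul_assoc, mul_smul_comm, smul_smul, smul_add,
      mul_comm (τ ρ) ρ, hρ, one_smul]
    abel
  have hX : ∀ a c, f a a = 0 → f c c = 0 → f a c = 0 → ∀ θ ∈ S,
      E (nmat f a c) * θ * E (nmat f c a) + E (nmat f c a) * θ * E (nmat f a c) ∈ S := by
    intro a c haa hcc hac θ hθ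
    have g1 := hG a c haa hcc hac 1 (by rw [map_one, one_mul]) θ hθ
    have g2 := hG a c haa hcc hac l hll θ hθ
    have g3 := hG a c haa hcc hac (τ l) (by rw [hf.involutive, mul_comm]; exact hll) θ hθ
    rw [map_one] at g1
    rw [hl1] at g2
    rw [hf.involutive, hl1] at g3
    convert S.add_mem (S.add_mem g1 g2) g3 using 1
    match_scalars <;> grind
  have hE : ∀ a c, f a a = 0 → f c c = 0 → f a c = 0 → ∀ θ ∈ S,
      E (nmat f a c) * θ + θ * E (nmat f a c) + E (nmat f c a) * θ * E (nmat f c a) ∈ S := by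
    intro a c haa hcc hac θ hθ
    have g1 := hG a c haa hcc hac 1 (by rw [map_one, one_mul]) θ hθ
    have g2 := hG a c haa hcc hac l hll θ hθ
    have g3 := hG a c haa hcc hac (τ l) (by rw [hf.involutive, mul_comm]; exact hll) θ hθ
    rw [map_one] at g1
    rw [hl1] at g2
    rw [hf.involutive, hl1] at g3
    convert S.add_mem (S.add_mem g1 (S.smul_mem (l + 1) g2)) (S.smul_mem l g3) using 1
    match_scalars <;> grind
  have hK : ∀ a c, f a a = 0 → f c c = 0 → f a c = 0 → ∀ θ ∈ S,
      E (nmat f a a) * θ * E (nmat f a c) + E (nmat f a c) * θ * E (nmat f a a) ∈ S := by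
    intro a c haa hcc hac θ hθ
    have hd : ∀ x : F, E (nmat f a (c + x • a)) = E (nmat f a c) + τ x • E (nmat f a a)
        ∧ E (nmat f (c + x • a) a) = E (nmat f c a) + x • E (nmat f a a) := fun x => by
      simp only [nmat_add_left hf, nmat_add_right hf, nmat_smul_left hf, nmat_smul_right hf, map_add, map_smul,
        and_self]
    have hc' : ∀ x : F, f (c + x • a) (c + x • a) = 0 ∧ f a (c + x • a) = 0 := fun x => by
      refine ⟨?_, ?_⟩
      · rw [norm_add_smul hf, hcc, haa, hac, orth_comm hf hac]; ring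
      · rw [add_right hf, smul_right hf, hac, haa, mul_zero, add_zero]
    have g0 := hX a c haa hcc hac θ hθ
    have g1 := hX a (c + (1 : F) • a) haa (hc' 1).1 (hc' 1).2 θ hθ
    have g2 := hX a (c + l • a) haa (hc' l).1 (hc' l).2 θ hθ
    rw [(hd 1).1, (hd 1).2, map_one] at g1
    rw [(hd l).1, (hd l).2, hl1] at g2
    convert S.add_mem (S.smul_mem (l + 1) (S.sub_mem g1 g0)) (S.sub_mem g2 g0) using 1
    simp only [add_mul, mul_add, smul_mul_assoc, mul_smul_comm, smul_smul]
    match_scalars <;> grind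
  have hPP : ∀ a c, f a a = 0 → f c c = 0 → f a c = 0 → a ∉ Submodule.span F {c} → ∀ θ ∈ S,
      E (nmat f a c) * θ * E (nmat f a c) ∈ S := by
    intro a c haa hcc hac hind θ hθ
    obtain ⟨b, hbb, hab, hcb⟩ := UnitTensor96.exists_iso_dual hf hind haa (fun u hu => by
      obtain ⟨r, rfl⟩ := Submodule.mem_span_singleton.1 hu
      rw [hf.smul_left, orth_comm hf hac, mul_zero])
    have hbc : f b c = 0 := orth_comm hf (hcb c (Submodule.mem_span_singleton_self c))
    have hba : f b a = 1 := by rw [hf.herm, hab, map_one]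
    have hca := orth_comm hf hac
    set θ' := E (nmat f a a) * θ * E (nmat f a c) + E (nmat f a c) * θ * E (nmat f a a) with hθ'
    have h := hK a c haa hcc hac _ (hD1 b hbb θ' (hK a c haa hcc hac θ hθ))
    convert h using 1
    have aa : E (nmat f a a) * E (nmat f a a) = 0 := prod0 _ _ _ _ haa
    have ac : E (nmat f a a) * E (nmat f a c) = 0 := prod0 _ _ _ _ haa
    have ca : E (nmat f a c) * E (nmat f a a) = 0 := prod0 _ _ _ _ hac
    have cc : E (nmat f a c) * E (nmat f a c) = 0 := prod0 _ _ _ _ hac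
    have cb : E (nmat f a c) * E (nmat f b b) = 0 := prod0 _ _ _ _ hbc
    have aba : E (nmat f a a) * E (nmat f b b) * E (nmat f a a) = E (nmat f a a) := by
      rw [← map_mul, ← map_mul, nmat_mul hf, hba, one_smul, nmat_mul hf, hab, one_smul]
    have abc : E (nmat f a a) * E (nmat f b b) * E (nmat f a c) = E (nmat f a c) := by
      rw [← map_mul, ← map_mul, nmat_mul hf, hba, one_smul, nmat_mul hf, hab, one_smul]
    have z1 : θ' * E (nmat f a a) = 0 := by simp [hθ', add_mul, mul_assoc, ca, aa]
    have z2 : θ' * E (nmat f a c) = 0 := by simp [hθ', add_mul, mul_assoc, cc, ac]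
    have z3 : E (nmat f a a) * θ' = 0 := by simp [hθ', mul_add, ← mul_assoc, aa, ac]
    have z4 : E (nmat f a c) * θ' = 0 := by simp [hθ', mul_add, ← mul_assoc, ca, cc]
    have w1 : E (nmat f a a) * E (nmat f b b) * θ' = E (nmat f a a) * θ * E (nmat f a c)
        + E (nmat f a c) * θ * E (nmat f a a) := by
      simp only [hθ', mul_add, ← mul_assoc, aba, abc]
    have w2 : θ' * E (nmat f b b) * E (nmat f a c) = E (nmat f a c) * θ * (E (nmat f a a) * E (nmat f b b) * E (nmat f a c)) := by
      simp only [hθ', add_mul, mul_assoc]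
      rw [← mul_assoc (E (nmat f a c)) (E (nmat f b b)), cb]
      simp
    simp only [mul_add, add_mul]
    have t1 : E (nmat f a a) * (E (nmat f b b) * θ') * E (nmat f a c) = 0 := by
      rw [mul_assoc, mul_assoc (E (nmat f b b)), z2, mul_zero, mul_zero]
    have t2 : E (nmat f a c) * (E (nmat f b b) * θ') * E (nmat f a a) = 0 := by
      rw [← mul_assoc, cb, zero_mul, zero_mul]
    have t3 : E (nmat f a a) * (θ' * E (nmat f b b)) * E (nmat f a c) = 0 := by
      rw [← mul_assoc, z3, zero_mul, zero_mul]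
    have t4 : E (nmat f a c) * (θ' * E (nmat f b b)) * E (nmat f a a) = 0 := by
      rw [← mul_assoc, z4, zero_mul, zero_mul]
    have t6 : E (nmat f a c) * (E (nmat f b b) * θ' * E (nmat f b b)) * E (nmat f a a) = 0 := by
      rw [← mul_assoc, ← mul_assoc, cb]; simp
    have t5 : E (nmat f a a) * (E (nmat f b b) * θ' * E (nmat f b b)) * E (nmat f a c)
        = E (nmat f a c) * θ * E (nmat f a c) := by
      rw [← mul_assoc, ← mul_assoc, w1]
      simp only [add_mul, mul_assoc]
      rw [← mul_assoc (E (nmat f a c)) (E (nmat f b b)), cb, zero_mul, mul_zero, mul_zero, zero_add,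
        ← mul_assoc (E (nmat f a a)) (E (nmat f b b)), abc]
    simp only [t1, t2, t3, t4, t5, t6, zero_add, add_zero]
  have had : ∀ a c, f a a = 0 → f c c = 0 → f a c = 0 → a ∉ Submodule.span F {c} →
      c ∉ Submodule.span F {a} → ∀ θ ∈ S, E (nmat f a c) * θ + θ * E (nmat f a c) ∈ S := by
    intro a c haa hcc hac hind hind' θ hθ
    convert S.sub_mem (hE a c haa hcc hac θ hθ) (hPP c a hcc haa (orth_comm hf hac) hind' θ hθ) using 1
    abel
  rcases eq_or_ne a 0 with rfl | ha0
  · simp [nmat_zero hf]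
  obtain ⟨c, hc0, hcc, hac, -, hcind, -⟩ := UnitTensor96.exists_iso_conn hf h4 ha ha
  have haind : a ∉ Submodule.span F {c} := fun hm => by
    obtain ⟨r, rfl⟩ := Submodule.mem_span_singleton.1 hm
    rcases eq_or_ne r 0 with rfl | hr
    · exact ha0 (zero_smul F c)
    · exact hcind (Submodule.mem_span_singleton.2 ⟨r⁻¹, by rw [inv_smul_smul₀ hr]⟩)
  obtain ⟨d, hdd, hcd, had'⟩ := UnitTensor96.exists_iso_dual hf hcind hcc (fun u hu => by
    obtain ⟨r, rfl⟩ := Submodule.mem_span_singleton.1 hu
    rw [hf.smul_left, hac, mul_zero])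
  have had0 := had' a (Submodule.mem_span_singleton_self a)
  have hdc : f d c = 1 := by rw [hf.herm, hcd, map_one]
  have hdind : d ∉ Submodule.span F {a} := fun hm => by
    obtain ⟨r, rfl⟩ := Submodule.mem_span_singleton.1 hm
    rw [hf.smul_left, hac, mul_zero] at hdc
    exact zero_ne_one hdc
  have hadind : a ∉ Submodule.span F {d} := fun hm => by
    obtain ⟨r, hr⟩ := Submodule.mem_span_singleton.1 hm
    rcases eq_or_ne r 0 with rfl | hr0
    · exact ha0 (by rw [← hr, zero_smul])
    · exact hdind (Submodule.mem_span_singleton.2 ⟨r⁻¹, by rw [← hr, inv_smul_smul₀ hr0]⟩)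
  set P := E (nmat f a c) with hP
  set P' := E (nmat f d a) with hP'
  have h1 := had a c ha hcc hac haind hcind _ (had d a hdd ha (orth_comm hf had0) hdind hadind θ hθ)
  have h2 := had d a hdd ha (orth_comm hf had0) hdind hadind _ (had a c ha hcc hac haind hcind θ hθ)
  have hA : P * P' = E (nmat f a a) := by rw [hP, hP', ← map_mul, nmat_mul hf, hdc, one_smul]
  have hA' : P' * P = 0 := prod0 _ _ _ _ ha
  have hcomm : E (nmat f a a) * θ + θ * E (nmat f a a) ∈ S := by
    convert S.add_mem h1 h2 using 1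
    rw [← hP, ← hP']
    have q : ∀ x y : Matrix J J F, x + y + y = x := fun x y => by rw [add_assoc, hXX, add_zero]
    calc E (nmat f a a) * θ + θ * E (nmat f a a)
        = P * P' * θ + θ * (P * P') + (P * θ * P' + P' * θ * P) + (P * θ * P' + P' * θ * P) := by
          rw [q, hA]
      _ = P * (P' * θ + θ * P') + (P' * θ + θ * P') * P
          + (P' * (P * θ + θ * P) + (P * θ + θ * P) * P') := by
          simp only [mul_add, add_mul, ← mul_assoc, hA']
          simp only [mul_assoc, hA', mul_zero, zero_mul, zero_add, add_zero]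
          abel
  convert S.sub_mem (hD1 a ha θ hθ) hcomm using 1
  abel

end

end CfsgLib.WreathForm14
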