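import Cfsg.Agent.WreathForm14.NonScalarForms

/-!
The central coefficients of one factor: their span, the elements attached to a square-zero coefficient,
products, and transvections when every skew coefficient occurs.
-/

set_option autoImplicit false
set_option linter.unusedSectionVars false

namespace CfsgLib.WreathForm14

open Matrix Module
open CfsgLib.TensorMax (InM rootMap pure pureL pureL_apply)
open CfsgLib.UnitCentres (add_right smul_right zero_left zero_right sub_left sub_right orth_comm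
  exists_traceZero exists_trace_one exists_norm exists_aniso_orth)

variable {F : Type*} [Field F] {τ : F ≃+* F} {ι κ : Type} [Fintype ι] [DecidableEq ι] [Fintype κ]
  [DecidableEq κ] {b : (ι → F) → (ι → F) → F} {f : (κ → F) → (κ → F) → F}
  {M : Subgroup (Matrix ι κ F ≃ₗ[F] Matrix ι κ F)}

/-- The product of maps of the two factors. -/
def act (θ : Matrix ι ι F) (K : Matrix κ κ F) : Matrix ι κ F →ₗ[F] Matrix ι κ F where
  toFun X := θ * X * Kᵀ
  map_add' X Y := by rw [Matrix.mul_add, Matrix.add_mul]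
  map_smul' c X := by simp

@[simp] lemma act_apply (θ : Matrix ι ι F) (K : Matrix κ κ F) (X : Matrix ι κ F) :
    act θ K X = θ * X * Kᵀ := rfl

lemma act_nmat (θ : Matrix ι ι F) (x y : κ → F) (X : Matrix ι κ F) :
    act θ (nmat f x y) X = pure (θ *ᵥ ctr f y X) x := by
  rw [act_apply, nmat, transpose_vecMulVec, mul_vecMulVec, ctr_apply, mulVec_mulVec]
  rfl

lemma act_act (θ φ : Matrix ι ι F) (K L : Matrix κ κ F) (X : Matrix ι κ F) :
    act θ K (act φ L X) = act (θ * φ) (K * L) X := by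
  simp [Matrix.mul_assoc]

lemma act_add_right (θ : Matrix ι ι F) (K L : Matrix κ κ F) : act θ (K + L) = act θ K + act θ L :=
  LinearMap.ext fun X => by simp [Matrix.mul_add]

lemma act_smul_right (θ : Matrix ι ι F) (c : F) (K : Matrix κ κ F) : act θ (c • K) = c • act θ K :=
  LinearMap.ext fun X => by simp

lemma act_zero_right (θ : Matrix ι ι F) : act θ (0 : Matrix κ κ F) = 0 :=
  LinearMap.ext fun X => by simp

/-- A coefficient of the central root elements. -/
def Central (f : (κ → F) → (κ → F) → F) (M : Subgroup (Matrix ι κ F ≃ₗ[F] Matrix ι κ F))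
    (θ : Matrix ι ι F) : Prop := ∀ w, f w w = 0 → InM M (R f θ w)

lemma inM_comm {N N' : Matrix ι κ F →ₗ[F] Matrix ι κ F} (h : InM M N) (h' : InM M N')
    (hN : ∀ X, N (N X) = 0) (hN' : ∀ X, N' (N' X) = 0) (h1 : ∀ X, N (N' (N X)) = 0)
    (h2 : ∀ X, N' (N (N' X)) = 0) : InM M (N ∘ₗ N' - N' ∘ₗ N) := by
  obtain ⟨e, he, hey⟩ := h
  obtain ⟨e', he', hey'⟩ := h'
  obtain ⟨d, hd, hdy⟩ := InM.neg ⟨e, he, hey⟩ hN
  obtain ⟨d', hd', hdy'⟩ := InM.neg ⟨e', he', hey'⟩ hN'
  refine ⟨e * e' * d * d', M.mul_mem (M.mul_mem (M.mul_mem he he') hd) hd', fun X => ?_⟩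
  simp only [LinearEquiv.mul_apply, LinearMap.sub_apply, LinearMap.comp_apply, hey, hey', hdy, hdy',
    LinearMap.neg_apply, map_add, map_neg, hN, hN', h1, h2, map_zero, neg_zero, add_zero, zero_add]
  abel

variable [Finite F] (hM : Ctx τ b f M)
include hM

lemma exists_iso_ne : ∃ w : κ → F, w ≠ 0 ∧ f w w = 0 := by
  obtain ⟨w, -, hw, hww⟩ := UnitTensor96.exists_iso_mem hM.uf (⊤ : Submodule F (κ → F))
    (by rw [finrank_top, Module.finrank_fintype_fun_eq_card]; have := hM.three; omega)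
  exact ⟨w, hw, hww⟩

lemma R_zero_vec (θ : Matrix ι ι F) : R f θ (0 : κ → F) = 0 :=
  LinearMap.ext fun X => by
    rw [R_apply, ctr_zero hM.uf, mulVec_zero, LinearMap.zero_apply, TensorMax.pure, zero_vecMulVec]

lemma central_of_inM {θ : Matrix ι ι F} {w₀ : κ → F} (hw : w₀ ≠ 0) (hww : f w₀ w₀ = 0)
    (h : InM M (R f θ w₀)) : Central f M θ := by
  intro w hw'
  rcases eq_or_ne w 0 with rfl | hw0
  · rw [R_zero_vec hM]; exact InM.zero
  obtain ⟨g, hg, hgs, hgw⟩ := UnitTensor96.exists_special_map hM.uf hM.three hw hw0 hww hw'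
  obtain ⟨e, he, heX⟩ := hM.right g hg hgs
  refine (h.conj he).congr fun X => ?_
  obtain ⟨Y, rfl⟩ := e.surjective X
  have hp : ∀ (u : ι → F) z, pure u z * (g : Matrix κ κ F)ᵀ = pure u ((g : Matrix κ κ F) *ᵥ z) := fun u z => by
    rw [TensorMax.pure, vecMulVec_mul, vecMul_transpose]; rfl
  have hd : dual f w ᵥ* (g : Matrix κ κ F) = dual f w₀ := funext fun j => by
    have h1 := hg (Pi.single j 1) w₀
    rw [hgw] at h1
    rw [show dual f w₀ j = f (Pi.single j 1) w₀ from rfl, ← h1, ← dotProduct_dual hM.uf, mulVec_single_one,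
      dotProduct_comm]
    rfl
  simp only [LinearMap.comp_apply, LinearEquiv.coe_coe, LinearEquiv.symm_apply_apply]
  simp only [R_apply, heX, hp, hgw, ctr_apply]
  rw [← mulVec_mulVec (dual f w) Y, mulVec_transpose, hd]

lemma Central.zero : Central f M (0 : Matrix ι ι F) := fun w _ => InM.zero.congr fun X => by
  simp [R_apply, TensorMax.pure]

lemma Central.add {θ φ : Matrix ι ι F} (h : Central f M θ) (h' : Central f M φ) :
    Central f M (θ + φ) := fun w hw =>
  ((h w hw).add (h' w hw) fun X => R_sq hM.uf hw X).congr fun X => by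
    rw [LinearMap.add_apply, R_apply, R_apply, R_apply, add_mulVec, TensorMax.pure, add_vecMulVec]
    rfl

lemma Central.neg {θ : Matrix ι ι F} (h : Central f M θ) : Central f M (-θ) := fun w hw =>
  ((h w hw).neg fun X => R_sq hM.uf hw X).congr fun X => by
    simp [R_apply, TensorMax.pure, neg_mulVec, neg_vecMulVec]

lemma Central.smul {θ : Matrix ι ι F} (h : Central f M θ) {c : F} (hc : τ c = c) :
    Central f M (c • θ) := by
  obtain ⟨μ, hμ⟩ := exists_norm hM.uf hc
  intro w hw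
  refine (h (μ • w) (by rw [hM.uf.smul_left, smul_right hM.uf, hw, mul_zero, mul_zero])).congr fun X => ?_
  rw [R_apply, R_apply, ctr_smul hM.uf, mulVec_smul, TensorMax.pure, TensorMax.pure, vecMulVec_smul,
    smul_mulVec, smul_vecMulVec, smul_vecMulVec, smul_smul, hμ]

/-- Central coefficients are skew. -/
lemma Central.skew {θ : Matrix ι ι F} (h : Central f M θ) : IsAdj b θ (-θ) := by
  obtain ⟨w, hw, hww⟩ := exists_iso_ne hM
  obtain ⟨z, hzz, hwz, hzw⟩ := UnitTensor96.exists_partner hM.uf hw hww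
  obtain ⟨g, hg, hgX⟩ := h w hww
  obtain ⟨c, hc⟩ := hM.sim g hg
  intro x u
  have h1 := hc (pure x z) (pure u z)
  simp only [hgX, R_apply, ctr_pure hM.uf, hzw, one_smul, phi_add_left hM.ub, phi_add_right hM.ub hM.uf,
    phi_pure_pure hM.ub hM.uf, hzz, hww, hwz, one_mul, zero_mul, mul_zero, zero_add, add_zero] at h1
  rw [neg_mulVec, show -(θ *ᵥ x) = (-1 : F) • (θ *ᵥ x) by module, hM.ub.smul_left]
  linear_combination -h1

/-- The span of the central coefficients. -/
def coeffSpan : Submodule F (Matrix ι ι F) where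
  carrier := {θ | ∃ θ', IsAdj b θ θ' ∧ ∀ d : F, Central f M (d • θ - τ d • θ')}
  zero_mem' := ⟨0, isAdj_zero hM.ub, fun d => by simpa using Central.zero hM⟩
  add_mem' := by
    rintro θ φ ⟨θ', h1, h2⟩ ⟨φ', k1, k2⟩
    refine ⟨θ' + φ', isAdj_add hM.ub h1 k1, fun d => ?_⟩
    have := Central.add hM (h2 d) (k2 d)
    convert this using 1
    module
  smul_mem' := by
    rintro c θ ⟨θ', h1, h2⟩
    refine ⟨τ c • θ', isAdj_smul hM.ub h1 c, fun d => ?_⟩
    have := h2 (d * c)
    convert this using 1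
    rw [map_mul, smul_smul, smul_smul]

lemma mem_coeffSpan_of_central {θ : Matrix ι ι F} (h : Central f M θ) : θ ∈ coeffSpan hM := by
  refine ⟨-θ, Central.skew hM h, fun d => ?_⟩
  have := Central.smul hM h (c := d + τ d) (by rw [map_add, hM.uf.involutive, add_comm])
  convert this using 1
  module

lemma central_of_mem {θ : Matrix ι ι F} (h : θ ∈ coeffSpan hM) (hs : IsAdj b θ (-θ)) :
    Central f M θ := by
  obtain ⟨θ', h1, h2⟩ := h
  obtain ⟨d, hd⟩ := exists_trace_one hM.uf
  have := h2 d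
  rw [isAdj_unique hM.ub h1 hs] at this
  convert this using 1
  rw [smul_neg, sub_neg_eq_add, ← add_smul, hd, one_smul]

lemma Central.conj {θ A A' : Matrix ι ι F} (h : Central f M θ) (hA : ∃ e ∈ M, ∀ X, e X = A * X)
    (hAA : A' * A = 1) : Central f M (A * θ * A') := by
  obtain ⟨e, he, heX⟩ := hA
  intro w hw
  refine ((h w hw).conj he).congr fun X => ?_
  obtain ⟨Y, rfl⟩ := e.surjective X
  simp only [LinearMap.comp_apply, LinearEquiv.coe_coe, LinearEquiv.symm_apply_apply]
  simp only [R_apply, heX, ctr_apply, TensorMax.pure, mul_vecMulVec, mulVec_mulVec, Matrix.mul_assoc]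
  rw [← Matrix.mul_assoc A' A Y, hAA, Matrix.one_mul]

lemma coeffSpan_conj {θ A A' : Matrix ι ι F} (h : θ ∈ coeffSpan hM)
    (hA : ∃ e ∈ M, ∀ X, e X = A * X) (hAA : A' * A = 1) (hadj : IsAdj b A A') :
    A * θ * A' ∈ coeffSpan hM := by
  obtain ⟨θ', h1, h2⟩ := h
  refine ⟨A * θ' * A', ?_, fun d => ?_⟩
  · rw [Matrix.mul_assoc A θ']
    exact isAdj_mul hM.ub (isAdj_mul hM.ub hadj h1) (isAdj_symm hM.ub hadj)
  · have := Central.conj hM (h2 d) hA hAA
    convert this using 1
    simp [Matrix.mul_sub, Matrix.sub_mul]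

/-- The elements attached to a square-zero coefficient and an orthogonal pair. -/
lemma inM_act_pair {θ : Matrix ι ι F} (h : Central f M θ) (hθ : θ * θ = 0) {w a : κ → F}
    (hwa : f w a = 0) (ρ : F) : InM M (act θ (ρ • nmat f w a + τ ρ • nmat f a w)) := by
  have hzero : ∀ K L X, act θ K (act θ L X) = (0 : Matrix ι κ F) := fun K L X => by
    rw [act_act, hθ]; simp
  have hreal : ∀ v, f v v = 0 → ∀ c, τ c = c → InM M (act θ (c • nmat f v v)) := fun v hv c hc =>
    (Central.smul hM h hc v hv).congr fun X => by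
      rw [R_apply, smul_mulVec, TensorMax.pure, smul_vecMulVec, act_smul_right, LinearMap.smul_apply, act_nmat]
      rfl
  suffices hP : ∀ K ∈ Submodule.span F {K | ∃ v, f v v = 0 ∧ K = nmat f v v},
      ∃ K', IsAdj f K K' ∧ ∀ d : F, InM M (act θ (d • K + τ d • K')) by
    obtain ⟨K', hK', hd⟩ := hP _ (nmat_mem_span_iso hM.uf hM.three hwa)
    rw [isAdj_unique hM.uf (nmat_adj hM.uf w a) hK']
    exact hd ρ
  intro K hK
  refine Submodule.span_induction (p := fun K _ => ∃ K', IsAdj f K K' ∧ ∀ d : F,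
    InM M (act θ (d • K + τ d • K'))) ?_ ?_ ?_ ?_ hK
  · rintro _ ⟨v, hv, rfl⟩
    refine ⟨_, nmat_adj hM.uf v v, fun d => ?_⟩
    rw [← add_smul]
    exact hreal v hv _ (by rw [map_add, hM.uf.involutive, add_comm])
  · refine ⟨0, isAdj_zero hM.uf, fun d => ?_⟩
    simp only [smul_zero, add_zero, act_zero_right]
    exact InM.zero
  · rintro K L - - ⟨K', hK, hKd⟩ ⟨L', hL, hLd⟩
    refine ⟨K' + L', isAdj_add hM.uf hK hL, fun d => ?_⟩
    rw [show d • (K + L) + τ d • (K' + L') = (d • K + τ d • K') + (d • L + τ d • L') by module,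
      act_add_right]
    exact (hKd d).add (hLd d) (hzero _ _)
  · rintro c K - ⟨K', hK, hKd⟩
    refine ⟨τ c • K', isAdj_smul hM.uf hK c, fun d => ?_⟩
    rw [smul_smul, smul_smul, ← map_mul]
    exact hKd (d * c)

/-- Products of square-zero coefficients are in the span. -/
lemma mul_mem_coeffSpan {θ φ : Matrix ι ι F} (h : Central f M θ) (hθ : θ * θ = 0)
    (h' : Central f M φ) (hφ : φ * φ = 0) : θ * φ ∈ coeffSpan hM := by
  have hs := isAdj_mul hM.ub (Central.skew hM h) (Central.skew hM h')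
  rw [neg_mul_neg] at hs
  refine ⟨φ * θ, hs, fun d => ?_⟩
  obtain ⟨w, hw, hww⟩ := exists_iso_ne hM
  obtain ⟨a, hawS, haa⟩ := exists_aniso_orth hM.uf {w} (by simp only [Finset.card_singleton]; have := hM.three; omega)
  have haw : f a w = 0 := hawS w (Finset.mem_singleton_self w)
  have hwa := orth_comm hM.uf haw
  refine central_of_inM hM hw hww ?_
  set r := d / f a a with hr
  set P := r • nmat f w a + τ r • nmat f a w with hP
  set Q := (1 : F) • nmat f w a + τ 1 • nmat f a w with hQ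
  have hrd : r * f a a = d := div_mul_cancel₀ _ haa
  have hrd' : τ r * f a a = τ d := by rw [← UnitCentres.norm_fixed hM.uf a, ← map_mul, hrd]
  have hPQ : P * Q = d • nmat f w w := by
    simp only [hP, hQ, map_one, one_smul, add_mul, mul_add, smul_mul_assoc, nmat_mul hM.uf, hwa, haw, hww,
      zero_smul, smul_zero, add_zero, zero_add, smul_smul, hrd]
  have hQP : Q * P = τ d • nmat f w w := by
    simp only [hP, hQ, map_one, one_smul, add_mul, mul_add, mul_smul_comm, nmat_mul hM.uf, hwa, haw, hww,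
      zero_smul, smul_zero, add_zero, zero_add, smul_smul, hrd']
  have hn : ∀ c x y, nmat f w w * (c • nmat f x y) = (c * f x w) • nmat f w y := fun c x y => by
    rw [mul_smul_comm, nmat_mul hM.uf, smul_smul]
  have hnP : nmat f w w * P = 0 := by
    rw [hP, mul_add, hn, hn, hww, haw, mul_zero, mul_zero, zero_smul, zero_smul, add_zero]
  have hnQ : nmat f w w * Q = 0 := by
    rw [hQ, mul_add, hn, hn, hww, haw, mul_zero, mul_zero, zero_smul, zero_smul, add_zero]
  refine (inM_comm (inM_act_pair hM h hθ hwa r) (inM_act_pair hM h' hφ hwa 1) ?_ ?_ ?_ ?_).congr fun X => ?_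
  · intro X; rw [act_act, hθ]; simp
  · intro X; rw [act_act, hφ]; simp
  · intro X
    rw [act_act, act_act, ← hP, ← hQ, hPQ, smul_mul_assoc, hnP]
    simp
  · intro X
    rw [act_act, act_act, ← hP, ← hQ, hQP, smul_mul_assoc, hnQ]
    simp
  · simp only [LinearMap.sub_apply, LinearMap.comp_apply, act_act, ← hP, ← hQ, hPQ, hQP]
    rw [R_apply, sub_mulVec, smul_mulVec, smul_mulVec]
    simp only [act_apply, nmat, transpose_smul, transpose_vecMulVec, Matrix.mul_smul, mul_vecMulVec,
      mulVec_mulVec, ctr_apply, TensorMax.pure, sub_vecMulVec, smul_vecMulVec, Matrix.mul_assoc]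

/-- Every isotropic point is a centre of transvections in `M`. -/
def IsCen (τ : F ≃+* F) (b : (ι → F) → (ι → F) → F) (f : (κ → F) → (κ → F) → F)
    (M : Subgroup (Matrix ι κ F ≃ₗ[F] Matrix ι κ F)) (Z : Matrix ι κ F) : Prop :=
  ∀ c : F, c + τ c = 0 → ∃ e ∈ M, ∀ X, e X = X + (c * phi b f X Z) • Z

lemma IsCen.of_image {g : Matrix ι κ F ≃ₗ[F] Matrix ι κ F} (hg : g ∈ M) {Z : Matrix ι κ F}
    (h : IsCen τ b f M (g Z)) : IsCen τ b f M Z := by
  intro c hc
  rcases eq_or_ne Z 0 with rfl | hZ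
  · exact ⟨1, M.one_mem, fun X => by simp⟩
  obtain ⟨μ, hμ⟩ := hM.sim g hg
  obtain ⟨Y, hY⟩ : ∃ Y, phi b f Z Y ≠ 0 := by
    by_contra! h0; exact hZ (phi_nondeg hM.ub hM.uf h0)
  have hμτ : τ μ = μ := by
    have h1 : phi b f (g Z) (g Y) = τ (phi b f (g Y) (g Z)) := phi_herm hM.ub hM.uf _ _
    rw [hμ, hμ, map_mul, ← phi_herm hM.ub hM.uf] at h1
    exact (mul_right_cancel₀ hY h1).symm
  have hμ0 : μ ≠ 0 := fun h0 => hZ (g.injective (by
    rw [map_zero]
    refine phi_nondeg hM.ub hM.uf fun X => ?_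
    obtain ⟨X, rfl⟩ := g.surjective X
    rw [hμ, h0, zero_mul]))
  obtain ⟨r, hr, hrX⟩ := h (c / μ) (by rw [map_div₀, hμτ, ← add_div, hc, zero_div])
  refine ⟨g⁻¹ * r * g, M.mul_mem (M.mul_mem (M.inv_mem hg) hr) hg, fun X => ?_⟩
  change g.symm (r (g X)) = _
  rw [hrX, hμ, map_add, map_smul, g.symm_apply_apply, g.symm_apply_apply, ← mul_assoc, div_mul_cancel₀ _ hμ0]

/-- With all skew coefficients every isotropic vector is a centre. -/
theorem isCen_of_all_skew (hι : 3 ≤ Fintype.card ι) (hT : ∀ θ, IsAdj b θ (-θ) → Central f M θ)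
    {Z : Matrix ι κ F} (hZ : phi b f Z Z = 0) : IsCen τ b f M Z := by
  have hskew : ∀ c : F, c + τ c = 0 → ∀ x, IsAdj b (c • nmat b x x) (-(c • nmat b x x)) := by
    intro c hc x
    have h := isAdj_smul hM.ub (nmat_adj hM.ub x x) c
    rwa [show τ c = -c by linear_combination hc, neg_smul] at h
  have hpure : ∀ q e, f e e = 0 → IsCen τ b f M (pure q e) := by
    intro q e he c hc
    obtain ⟨r, hr, hrX⟩ := hT _ (hskew c hc q) e he
    refine ⟨r, hr, fun X => ?_⟩
    rw [hrX, R_apply, smul_mulVec, nmat_mulVec hM.ub, phi_pure_right hM.ub hM.uf, smul_smul, TensorMax.pure,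
      smul_vecMulVec]
    rfl
  rcases eq_or_ne Z 0 with rfl | hZ0
  · exact fun c _ => ⟨1, M.one_mem, fun X => by simp⟩
  obtain ⟨w, hww, hq⟩ : ∃ w, f w w = 0 ∧ ctr f w Z ≠ 0 := by
    by_contra! h
    refine hZ0 (ctr_ext hM.uf fun z => ?_)
    refine Submodule.span_induction (p := fun z _ => ctr f z Z = 0) (fun y hy => h y hy) (ctr_zero hM.uf Z)
      (fun x y _ _ hx hy => by rw [ctr_add hM.uf, hx, hy, add_zero])
      (fun c x _ hx => by rw [ctr_smul hM.uf, hx, smul_zero])
      (UnitTensor96.span_iso hM.uf (by have := hM.three; omega) z)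
  have hw : w ≠ 0 := fun h0 => hq (by rw [h0, ctr_zero hM.uf])
  obtain ⟨e, hee, hwe, hew⟩ := UnitTensor96.exists_partner hM.uf hw hww
  set q := ctr f w Z with hqdef
  let R₀ : Matrix ι κ F →ₗ[F] Matrix ι κ F :=
    LinearMap.id - pureL w ∘ₗ ctr f e - pureL e ∘ₗ ctr f w
  have gen : ∀ (r : ι → F) (a : κ → F), f a w = 0 → ∀ Z', ctr f w Z' = q → ∃ g ∈ M,
      ctr f w (g Z') = q ∧ ∃ v, g Z' = Z' + pure r a + pure v w := by
    intro r a haw
    suffices h : ∀ c : F, ∀ Z', ctr f w Z' = q → ∃ g ∈ M,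
        ctr f w (g Z') = q ∧ ∃ v, g Z' = Z' + pure (c • r) a + pure v w by simpa using h 1
    refine Submodule.span_induction (p := fun r _ => ∀ c : F, ∀ Z', ctr f w Z' = q → ∃ g ∈ M,
      ctr f w (g Z') = q ∧ ∃ v, g Z' = Z' + pure (c • r) a + pure v w) ?_ ?_ ?_ ?_ (span_iso_avoid hM.ub hι hq r)
    · rintro x₀ ⟨hxx₀, hxq₀⟩ c
      rcases eq_or_ne c 0 with rfl | hc
      · exact fun Z' hZ' => ⟨1, M.one_mem, hZ', 0, by simp [TensorMax.pure]⟩
      set x := c • x₀
      have hxx : b x x = 0 := by rw [hM.ub.smul_left, smul_right hM.ub, hxx₀, mul_zero, mul_zero]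
      have hxq : b x q ≠ 0 := by rw [hM.ub.smul_left]; exact mul_ne_zero hc hxq₀
      obtain ⟨ε, hε, hεε⟩ := exists_traceZero hM.uf
      set θ := ε • nmat b x x with hθ
      have hθθ : θ * θ = 0 := by
        rw [hθ, smul_mul_assoc, mul_smul_comm, nmat_mul hM.ub, hxx, zero_smul, smul_zero, smul_zero]
      have hθq : θ *ᵥ q = (ε * b q x) • x := by rw [hθ, smul_mulVec, nmat_mulVec hM.ub, smul_smul]
      have hbq : ε * b q x ≠ 0 := mul_ne_zero hε fun h0 => hxq (orth_comm hM.ub h0)
      set ρ := τ (ε * b q x)⁻¹ with hρ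
      intro Z' hZ'
      obtain ⟨g, hg, hgX⟩ := inM_act_pair hM (hT θ (hskew ε hεε x)) hθθ (orth_comm hM.uf haw) ρ
      have hgZ : g Z' = Z' + pure x a + pure (ρ • (θ *ᵥ ctr f a Z')) w := by
        rw [hgX, act_add_right, LinearMap.add_apply]
        have e1 : ∀ (c : F) (x y : κ → F), act θ (c • nmat f x y) Z' = c • pure (θ *ᵥ ctr f y Z') x :=
          fun c x y => by rw [act_smul_right, LinearMap.smul_apply, act_nmat]
        have e2 : τ ρ • (θ *ᵥ q) = x := by
          rw [hθq, hρ, hM.uf.involutive, inv_smul_smul₀ hbq]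
        rw [e1, e1, hZ']
        simp only [TensorMax.pure, ← smul_vecMulVec, e2]
        abel
      refine ⟨g, hg, ?_, _, hgZ⟩
      rw [hgZ, map_add, map_add, ctr_pure hM.uf, ctr_pure hM.uf, haw, hww, zero_smul, zero_smul, add_zero,
        add_zero, hZ']
    · intro c Z' hZ'
      exact ⟨1, M.one_mem, hZ', 0, by simp [TensorMax.pure]⟩
    · intro r r' _ _ hr hr' c Z' hZ'
      obtain ⟨g, hg, h1, v, h2⟩ := hr c Z' hZ'
      obtain ⟨g', hg', h1', v', h2'⟩ := hr' c _ h1
      refine ⟨g' * g, M.mul_mem hg' hg, h1', v + v', ?_⟩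
      rw [LinearEquiv.mul_apply, h2', h2, smul_add]
      simp only [TensorMax.pure, add_vecMulVec]
      abel
    · intro d r _ hr c
      rw [smul_smul]
      exact hr (c * d)
  have move : ∀ Y, ∀ Z', ctr f w Z' = q → ∃ g ∈ M, ctr f w (g Z') = q ∧
      ∃ v, g Z' = Z' + R₀ Y + pure v w := by
    intro Y
    induction Y using Matrix.induction_on' with
    | h_zero => exact fun Z' hZ' => ⟨1, M.one_mem, hZ', 0, by simp [TensorMax.pure]⟩
    | h_add p p' hp hp' =>
      intro Z' hZ'
      obtain ⟨g, hg, h1, v, h2⟩ := hp Z' hZ'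
      obtain ⟨g', hg', h1', v', h2'⟩ := hp' _ h1
      refine ⟨g' * g, M.mul_mem hg' hg, h1', v + v', ?_⟩
      rw [LinearEquiv.mul_apply, h2', h2, map_add]
      simp only [TensorMax.pure, add_vecMulVec]
      abel
    | h_std_basis i j c =>
      have hs : single i j c = pure (c • Pi.single i (1 : F)) (Pi.single j 1) := by
        rw [TensorMax.pure, smul_vecMulVec, ← single_eq_single_vecMulVec_single, smul_single, smul_eq_mul, mul_one]
      set u := c • Pi.single i (1 : F)
      set z : κ → F := Pi.single j 1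
      set a := z - f z e • w - f z w • e with ha
      have hR : R₀ (single i j c) = pure u a := by
        simp only [hs, R₀, LinearMap.sub_apply, LinearMap.id_apply, LinearMap.comp_apply, pureL_apply]
        rw [ctr_pure hM.uf, ctr_pure hM.uf, ha]
        simp only [TensorMax.pure, vecMulVec_sub, vecMulVec_smul, smul_vecMulVec]
      have haw : f a w = 0 := by
        rw [ha, sub_left hM.uf, sub_left hM.uf, hM.uf.smul_left, hM.uf.smul_left, hww, hew]; ring
      intro Z' hZ'
      obtain ⟨g, hg, h1, v, h2⟩ := gen u a haw Z' hZ'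
      exact ⟨g, hg, h1, v, by rw [hR]; exact h2⟩
  obtain ⟨g, hg, -, v, hgZ⟩ := move (-Z) Z rfl
  set p := v + ctr f e Z with hp
  have hZ₁ : g Z = pure p w + pure q e := by
    rw [hgZ, hp, map_neg]
    simp only [R₀, LinearMap.sub_apply, LinearMap.id_apply, LinearMap.comp_apply, pureL_apply, TensorMax.pure,
      add_vecMulVec, ← hqdef]
    abel
  refine IsCen.of_image hM hg ?_
  rw [hZ₁]
  have hpq : b p q + b q p = 0 := by
    obtain ⟨μ, hμ⟩ := hM.sim g hg
    have h := hμ Z Z
    rw [hZ, mul_zero, hZ₁] at h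
    simp only [phi_add_left hM.ub, phi_add_right hM.ub hM.uf, phi_pure_pure hM.ub hM.uf, hww, hee, hwe, hew,
      zero_mul, one_mul, zero_add, add_zero] at h
    linear_combination h
  obtain ⟨-, y₀, hy₀⟩ := hM.ub.nondegenerate q hq
  set y := τ (b q y₀)⁻¹ • y₀ with hy'
  have hy : b q y = 1 := by rw [hy', smul_right hM.ub, hM.ub.involutive, inv_mul_cancel₀ hy₀]
  set θ := nmat b y p - nmat b p y - b q p • nmat b y y with hθ
  have hθs : IsAdj b θ (-θ) := by
    have h := isAdj_add hM.ub (isAdj_add hM.ub (nmat_adj hM.ub y p) (isAdj_neg hM.ub (nmat_adj hM.ub p y)))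
      (isAdj_smul hM.ub (nmat_adj hM.ub y y) (-(b q p)))
    convert h using 1
    · rw [hθ]; module
    · rw [hθ, map_neg, ← hM.ub.herm]
      rw [show b p q = -b q p by linear_combination hpq]
      module
  have hθq : θ *ᵥ q = -p := by
    rw [hθ, sub_mulVec, sub_mulVec, smul_mulVec, nmat_mulVec hM.ub, nmat_mulVec hM.ub, nmat_mulVec hM.ub, hy]
    module
  obtain ⟨g', hg', hg'X⟩ := hT θ hθs w hww
  refine IsCen.of_image hM hg' ?_
  have : g' (pure p w + pure q e) = pure q e := by
    rw [hg'X, R_apply, map_add, ctr_pure hM.uf, ctr_pure hM.uf, hww, hew, zero_smul, one_smul, zero_add, hθq,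
      TensorMax.pure, TensorMax.pure, TensorMax.pure, neg_vecMulVec]
    abel
  rw [this]
  exact hpure q e hee

end CfsgLib.WreathForm14
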