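import Cfsg.Agent.WreathForm14.Global
import Cfsg.Agent.WreathForm14.NonScalarSlot
import Cfsg.Agent.WreathTensor14.Spread

/-!
A non-scalar central coefficient in one factor gives every skew coefficient in every factor, hence every
isotropic vector is the centre of transvections.
-/

set_option autoImplicit false
set_option linter.unusedSectionVars false

namespace CfsgLib.WreathForm14

open Matrix Module Function
open CfsgLib.Aschbacher (kroneckerPow kroneckerPow_mul kroneckerPow_one kroneckerPow_smul)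
open CfsgLib.TensorMax (InM rootMap pure pure_mulVec)
open CfsgLib.UnitCentres (add_right smul_right upair upair_apply Iso uT uT_mulVec uT_iso
  uT_mem_specialLinear exists_traceZero orth_comm)
open CfsgLib.WreathTensor14 (TV pv slot slotGroup slotConj kronE InV emb emb_mul emb_one emb_add emb_sub emb_smul
  emb_mul_apply mul_emb_apply kronE_insertNth_left inM_slotGroup_iff pureMul_slot linearMap_ext_pv
  kroneckerPow_mulVec_pv insertNth_mulSingle permE permE_conj_kron At)

variable {F : Type*} [Field F] {τ : F ≃+* F} {m n s : ℕ}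
  {f : (Fin m → F) → (Fin m → F) → F}

lemma isAdj_kron [Finite F] (hf : Cfsg.Geo.IsUnitaryForm τ f)
    {A A' : Fin n → Matrix (Fin m) (Fin m) F} (h : ∀ i, IsAdj f (A i) (A' i)) :
    IsAdj (pform τ f n) (kroneckerPow A) (kroneckerPow A') := by
  have hB := pform_unitary hf n
  have h1 : ∀ x y, pform τ f n (kroneckerPow A' *ᵥ x) (pv y) = pform τ f n x (kroneckerPow A *ᵥ pv y) :=
    fun x y => LinearMap.congr_fun (f := upair hB (pv y) ∘ₗ (kroneckerPow A').mulVecLin)
      (g := upair hB (kroneckerPow A *ᵥ pv y)) (linearMap_ext_pv fun z => by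
        simp only [LinearMap.comp_apply, mulVecLin_apply, upair_apply, kroneckerPow_mulVec_pv, pform_pv hf]
        exact Finset.prod_congr rfl fun i _ => h i _ _) x
  intro x u
  rw [hB.herm, hB.herm x]
  congr 1
  exact LinearMap.congr_fun (f := upair hB (kroneckerPow A' *ᵥ x))
    (g := upair hB x ∘ₗ (kroneckerPow A).mulVecLin) (linearMap_ext_pv fun y => by
      simp only [LinearMap.comp_apply, mulVecLin_apply, upair_apply]
      rw [hB.herm, h1, ← hB.herm]) u

/-- The matrices in one factor. -/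
def embA (i : Fin n) : Matrix (Fin m) (Fin m) F →ₐ[F] Matrix (Fin n → Fin m) (Fin n → Fin m) F :=
  AlgHom.ofLinearMap
    { toFun := emb i
      map_add' := emb_add i
      map_smul' := fun c A => emb_smul i c A }
    (emb_one i) fun A B => (emb_mul i A B).symm

@[simp] lemma embA_apply (i : Fin n) (A : Matrix (Fin m) (Fin m) F) : embA i A = emb i A := rfl

lemma kroneckerPow_eq_zero {A : Fin n → Matrix (Fin m) (Fin m) F} {i : Fin n} (h : A i = 0) :
    kroneckerPow A = 0 := by
  ext x y
  exact Finset.prod_eq_zero (Finset.mem_univ i) (by rw [h]; rfl)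

/-- Linearity in one factor. -/
lemma kroneckerPow_update (A : Fin n → Matrix (Fin m) (Fin m) F) (i : Fin n)
    (X : Matrix (Fin m) (Fin m) F) :
    kroneckerPow (update A i X) = emb i X * kroneckerPow (update A i 1) := by
  rw [emb, kroneckerPow_mul]
  congr 1
  funext l
  rcases eq_or_ne l i with rfl | h <;> simp [*]

/-- The pattern of rank one maps on a set of factors. -/
def pat (f : (Fin m → F) → (Fin m → F) → F) (J : Finset (Fin n)) (a : Fin n → Fin m → F) :
    Fin n → Matrix (Fin m) (Fin m) F := fun i => if i ∈ J then nmat f (a i) (a i) else 1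

variable [Finite F] {M : Subgroup (TV F m (s + 1) ≃ₗ[F] TV F m (s + 1))} (hM : UBase τ f M)
include hM

lemma card_three : 3 ≤ Fintype.card (Fin m) := by rw [Fintype.card_fin]; exact hM.three

lemma left_mem (k : Fin (s + 1)) (gs : Fin s → GL (Fin m) F) (hi : ∀ i, Iso f (gs i))
    (hs : ∀ i, gs i ∈ Cfsg.Geo.specialLinear (Fin m) F) :
    ∃ e ∈ slotGroup M k, ∀ X, e X = kroneckerPow (fun i => (gs i).val) * X := by
  refine ⟨_, Subgroup.mem_map_of_mem _ (hM.kron_mem
    (Fin.insertNth (α := fun _ => GL (Fin m) F) k 1 gs) ?_ ?_), kronE_insertNth_left k gs⟩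
  · intro i
    rcases Fin.eq_self_or_eq_succAbove k i with rfl | ⟨j, rfl⟩
    · intro x y; simp
    · simpa using hi j
  · intro i
    rcases Fin.eq_self_or_eq_succAbove k i with rfl | ⟨j, rfl⟩
    · simp
    · simpa using hs j

/-- The span of the central coefficients at the factor `k`. -/
def span' (k : Fin (s + 1)) : Submodule F (Matrix (Fin s → Fin m) (Fin s → Fin m) F) :=
  coeffSpan (hM.ctx k)

lemma span_invariant (k : Fin (s + 1)) (j : Fin s) (v : Fin m → F) (η : F) (hv : f v v = 0)
    (hη : η + τ η = 0) (θ : Matrix (Fin s → Fin m) (Fin s → Fin m) F) (hθ : θ ∈ span' hM k) :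
    (1 + η • embA j (nmat f v v)) * θ * (1 - η • embA j (nmat f v v)) ∈ span' hM k := by
  set N := nmat f v v with hN
  have hNN : N * N = 0 := by rw [hN, nmat_mul hM.uf, hv, zero_smul]
  have hval : (uT hM.uf hv η).val = 1 + η • N := Matrix.ext_of_mulVec_single fun i => by
    rw [uT_mulVec, add_mulVec, one_mulVec, smul_mulVec, hN, nmat_mulVec hM.uf, smul_smul]
  obtain ⟨e, he, heX⟩ := left_mem hM k (Pi.mulSingle j (uT hM.uf hv η))
    (fun i => by
      rcases eq_or_ne i j with rfl | h
      · simpa using uT_iso hM.uf hv hη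
      · intro x y; simp [h])
    (fun i => by
      rcases eq_or_ne i j with rfl | h
      · simpa using uT_mem_specialLinear hM.uf hv η
      · simp [h])
  have hA : (fun i => ((Pi.mulSingle j (uT hM.uf hv η) : Fin s → GL (Fin m) F) i).val)
      = Pi.mulSingle j (1 + η • N) := by
    funext i
    rcases eq_or_ne i j with rfl | h <;> simp [*]
  have e1 : emb j (1 + η • N) = 1 + η • embA j N := by rw [emb_add, emb_one, emb_smul]; rfl
  have e2 : emb j (1 - η • N) = 1 - η • embA j N := by rw [emb_sub, emb_one, emb_smul]; rfl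
  rw [← e1, ← e2]
  refine coeffSpan_conj (hM.ctx k) hθ ⟨e, he, fun X => by rw [heX, hA]; rfl⟩ ?_ ?_
  · rw [emb_mul, sub_mul, one_mul, mul_add, mul_one, smul_mul_smul_comm, hNN, smul_zero, add_zero,
      add_sub_cancel_right, emb_one]
  · refine isAdj_kron hM.uf fun i => ?_
    rcases eq_or_ne i j with rfl | h
    · simp only [Pi.mulSingle_eq_same]
      have h1 := isAdj_add hM.uf (isAdj_one hM.uf) (isAdj_smul hM.uf (nmat_adj hM.uf v v) η)
      rw [show τ η = -η by linear_combination hη, neg_smul, ← sub_eq_add_neg] at h1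
      exact h1
    · simp only [Pi.mulSingle_eq_of_ne h]
      exact isAdj_one hM.uf

lemma sandwich_span (k : Fin (s + 1)) (j : Fin s) {θ : Matrix (Fin s → Fin m) (Fin s → Fin m) F}
    (hθ : θ ∈ span' hM k) {a : Fin m → F} (ha : f a a = 0) :
    emb j (nmat f a a) * θ * emb j (nmat f a a) ∈ span' hM k :=
  sandwich_of_invariant hM.uf (hM.small.imp_right fun h => by rwa [Fintype.card_fin]) (embA j) _
    (span_invariant hM k j) hθ ha

/-- Treating one factor. -/
lemma exists_step (k : Fin (s + 1)) {θ : Matrix (Fin s → Fin m) (Fin s → Fin m) F}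
    (hθ : θ ∈ span' hM k) (h0 : θ ≠ 0) (j : Fin s) :
    ∃ θ' ∈ span' hM k, ∃ (B : Matrix (Fin m) (Fin m) F) (p q : Fin m), θ' ≠ 0 ∧ At j B p q θ' ∧
      (∀ i, i ≠ j → ∀ A p q, At i A p q θ → At i A p q θ') ∧
      ((∃ (a : Fin m → F) (c : F), a ≠ 0 ∧ f a a = 0 ∧ B = c • nmat f a a) ∨ (B = 1 ∧ θ' = θ)) := by
  by_cases h1 : ∃ a, f a a = 0 ∧ emb j (nmat f a a) * θ * emb j (nmat f a a) ≠ 0
  · obtain ⟨a, ha, hne⟩ := h1
    set θ' := emb j (nmat f a a) * θ * emb j (nmat f a a) with hθ'
    have ha0 : a ≠ 0 := by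
      rintro rfl
      exact hne (by simp [hθ', nmat_zero hM.uf, WreathTensor14.emb_zero])
    obtain ⟨p, hp⟩ := Function.ne_iff.1 ha0
    obtain ⟨q, hq⟩ := Function.ne_iff.1 (dual_ne_zero hM.uf ha0)
    have hent : ∀ x y, θ' x y = a (x j) * dual f a (y j)
        * ∑ u, ∑ u', dual f a u * θ (update x j u) (update y j u') * a u' := by
      intro x y
      rw [hθ', mul_emb_apply, Finset.sum_comm, Finset.mul_sum]
      refine Finset.sum_congr rfl fun u' _ => ?_
      rw [emb_mul_apply, Finset.sum_mul, Finset.mul_sum]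
      refine Finset.sum_congr rfl fun u _ => ?_
      simp only [nmat, vecMulVec_apply]
      ring
    refine ⟨θ', sandwich_span hM k j hθ ha, (a p * dual f a q)⁻¹ • nmat f a a, p, q, hne, fun x y => ?_,
      fun i hi A p q h => (h.left hi _).right hi _, Or.inl ⟨a, _, ha0, ha, rfl⟩⟩
    rw [hent, hent (update x j p)]
    simp only [update_self, update_idem, Matrix.smul_apply, nmat, vecMulVec_apply, smul_eq_mul]
    have hp' : a p ≠ 0 := hp
    have hq' : dual f a q ≠ 0 := hq
    field_simp
  push Not at h1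
  refine ⟨θ, hθ, 1, ⟨0, by have := hM.three; omega⟩, ⟨0, by have := hM.three; omega⟩, h0, fun x y => ?_,
    fun i _ A p q h => h, Or.inr ⟨rfl, rfl⟩⟩
  set o : Fin m := ⟨0, by have := hM.three; omega⟩
  let K : Matrix (Fin m) (Fin m) F := Matrix.of fun u u' => θ (update x j u) (update y j u')
  obtain ⟨c, hc⟩ := eq_smul_one_of_iso hM.uf (card_three hM) K fun a ha => by
    rcases eq_or_ne a 0 with rfl | ha0
    · rw [mulVec_zero, UnitCentres.zero_left hM.uf]
    obtain ⟨p, hp⟩ := Function.ne_iff.1 ha0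
    obtain ⟨q, hq⟩ := Function.ne_iff.1 (dual_ne_zero hM.uf ha0)
    have h := congrFun (congrFun (h1 a ha) (update x j p)) (update y j q)
    rw [mul_emb_apply, Matrix.zero_apply] at h
    simp only [emb_mul_apply, update_self, update_idem, nmat, vecMulVec_apply, Finset.sum_mul] at h
    rw [← dotProduct_dual hM.uf]
    simp only [dotProduct, mulVec, K, Matrix.of_apply, Finset.sum_mul]
    rw [Finset.sum_comm]
    have hpq : a p * dual f a q ≠ 0 := mul_ne_zero hp hq
    refine (mul_eq_zero.1 ?_).resolve_left hpq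
    rw [Finset.mul_sum, ← h]
    refine Finset.sum_congr rfl fun u' _ => ?_
    rw [Finset.mul_sum]
    exact Finset.sum_congr rfl fun u _ => by ring
  have hk1 := congrFun (congrFun hc (x j)) (y j)
  have hk2 := congrFun (congrFun hc o) o
  simp only [K, Matrix.of_apply, update_eq_self, Matrix.smul_apply, one_apply_eq, smul_eq_mul, mul_one] at hk1 hk2
  rw [hk1, hk2, mul_comm]

/-- A non-scalar element of the span gives a product of rank one maps in the span. -/
lemma exists_pat_mem (k : Fin (s + 1)) {θ : Matrix (Fin s → Fin m) (Fin s → Fin m) F}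
    (hθ : θ ∈ span' hM k) (hns : ∀ c : F, θ ≠ c • 1) :
    ∃ (J : Finset (Fin s)) (a : Fin s → Fin m → F), J.Nonempty ∧ (∀ i ∈ J, a i ≠ 0 ∧ f (a i) (a i) = 0) ∧
      kroneckerPow (pat f J a) ∈ span' hM k := by
  classical
  have key : ∀ I : Finset (Fin s), ∃ θ' ∈ span' hM k, ∃ (A : Fin s → Matrix (Fin m) (Fin m) F)
      (p q : Fin s → Fin m) (J : Finset (Fin s)) (a : Fin s → Fin m → F) (c : Fin s → F), θ' ≠ 0 ∧ J ⊆ I ∧
      (∀ i ∈ I, At i (A i) (p i) (q i) θ' ∧ A i = c i • pat f J a i) ∧
      (∀ i ∈ J, a i ≠ 0 ∧ f (a i) (a i) = 0) ∧ (θ' = θ ∨ J.Nonempty) := by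
    intro I
    induction I using Finset.induction_on with
    | empty =>
      exact ⟨θ, hθ, 1, fun _ => ⟨0, by have := hM.three; omega⟩, fun _ => ⟨0, by have := hM.three; omega⟩, ∅,
        0, 1, fun h => hns 0 (by simp [h]), subset_rfl, by simp, by simp, Or.inl rfl⟩
    | @insert j I hj ih =>
      obtain ⟨θ₁, hθ₁, A, p, q, J, a, c, hne, hJI, hat, hiso, hor⟩ := ih
      obtain ⟨θ₂, hθ₂, B, p', q', hne₂, hatj, hkeep, hB⟩ := exists_step hM k hθ₁ hne j
      have hjJ : j ∉ J := fun h => hj (hJI h)
      rcases hB with ⟨v, d, hv0, hv, rfl⟩ | ⟨rfl, rfl⟩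
      · refine ⟨θ₂, hθ₂, update A j (d • nmat f v v), update p j p', update q j q', insert j J, update a j v,
          update c j d, hne₂, Finset.insert_subset_insert j hJI, fun i hi => ?_, fun i hi => ?_,
          Or.inr (Finset.insert_nonempty j J)⟩
        · rcases Finset.mem_insert.1 hi with rfl | hi
          · exact ⟨by simpa using hatj, by simp [pat]⟩
          · have hij : i ≠ j := fun h => hj (h ▸ hi)
            refine ⟨by simpa [hij] using hkeep i hij _ _ _ (hat i hi).1, ?_⟩
            simp [hij, pat, (hat i hi).2]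
        · rcases Finset.mem_insert.1 hi with rfl | hi
          · simpa using And.intro hv0 hv
          · have hij : i ≠ j := fun h => hjJ (h ▸ hi)
            simpa [hij] using hiso i hi
      · refine ⟨θ₂, hθ₂, update A j 1, update p j p', update q j q', J, a, update c j 1, hne,
          hJI.trans (Finset.subset_insert j I), fun i hi => ?_, hiso, hor⟩
        rcases Finset.mem_insert.1 hi with rfl | hi
        · exact ⟨by simpa using hatj, by simp [pat, hjJ]⟩
        · have hij : i ≠ j := fun h => hj (h ▸ hi)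
          exact ⟨by simpa [hij] using (hat i hi).1, by simp [hij, (hat i hi).2]⟩
  obtain ⟨θ', hθ', A, p, q, J, a, c, hne, -, hat, hiso, hor⟩ := key Finset.univ
  have hprod : ∀ (I : Finset (Fin s)) (x y : Fin s → Fin m), θ' x y
      = (∏ i ∈ I, A i (x i) (y i)) * θ' (I.piecewise p x) (I.piecewise q y) := by
    intro I
    induction I using Finset.induction_on with
    | empty => simp
    | @insert j I hj ih =>
      intro x y
      rw [ih x y, (hat j (Finset.mem_univ j)).1, Finset.piecewise_eq_of_notMem _ _ _ hj,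
        Finset.piecewise_eq_of_notMem _ _ _ hj, Finset.piecewise_insert, Finset.piecewise_insert,
        Finset.prod_insert hj]
      ring
  have heq : θ' = (θ' p q * ∏ i, c i) • kroneckerPow (pat f J a) := by
    rw [mul_smul, ← kroneckerPow_smul, ← funext fun i => (hat i (Finset.mem_univ i)).2]
    ext x y
    rw [hprod Finset.univ x y, Finset.piecewise_univ, Finset.piecewise_univ, Matrix.smul_apply,
      smul_eq_mul, mul_comm]
    rfl
  have hd : θ' p q * ∏ i, c i ≠ 0 := fun h => hne (by rw [heq, h, zero_smul])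
  refine ⟨J, a, ?_, hiso, ?_⟩
  · rcases hor with h | h
    · by_contra hJ
      rw [Finset.not_nonempty_iff_eq_empty] at hJ
      refine hns (θ' p q * ∏ i, c i) ?_
      rw [← h]
      conv_lhs => rw [heq]
      rw [hJ, show pat f ∅ a = fun _ => 1 from funext fun i => by simp [pat], kroneckerPow_one]
    · exact h
  · have := (span' hM k).smul_mem (θ' p q * ∏ i, c i)⁻¹ hθ'
    conv at this => rhs; arg 2; rw [heq]
    rwa [inv_smul_smul₀ hd] at this

/-- All matrices on the factors in `J` occur in the span. -/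
def Full (k : Fin (s + 1)) (J : Finset (Fin s)) : Prop :=
  ∀ B : Fin s → Matrix (Fin m) (Fin m) F, (∀ i ∉ J, B i = 1) → kroneckerPow B ∈ span' hM k

lemma central_pat {k : Fin (s + 1)} {J : Finset (Fin s)} {a : Fin s → Fin m → F}
    (h : kroneckerPow (pat f J a) ∈ span' hM k) {c : F} (hc : c + τ c = 0) :
    Central f (slotGroup M k) (c • kroneckerPow (pat f J a)) := by
  refine central_of_mem (hM.ctx k) ((span' hM k).smul_mem c h) ?_
  have h1 := isAdj_smul (pform_unitary hM.uf s) (isAdj_kron hM.uf (A := pat f J a) (A' := pat f J a) fun i => by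
    rw [pat]
    split
    · exact nmat_adj hM.uf _ _
    · exact isAdj_one hM.uf) c
  rwa [show τ c = -c by linear_combination hc, neg_smul] at h1

lemma pat_sq {J : Finset (Fin s)} {a : Fin s → Fin m → F} (hJ : J.Nonempty)
    (ha : ∀ i ∈ J, f (a i) (a i) = 0) : kroneckerPow (pat f J a) * kroneckerPow (pat f J a) = 0 := by
  obtain ⟨i, hi⟩ := hJ
  rw [kroneckerPow_mul]
  exact kroneckerPow_eq_zero (i := i) (by simp [pat, hi, nmat_mul hM.uf, ha i hi])

lemma mul_pat_mem {k : Fin (s + 1)} {J J' : Finset (Fin s)} {a a' : Fin s → Fin m → F} (hJ : J.Nonempty)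
    (hJ' : J'.Nonempty) (ha : ∀ i ∈ J, f (a i) (a i) = 0) (ha' : ∀ i ∈ J', f (a' i) (a' i) = 0)
    (h : kroneckerPow (pat f J a) ∈ span' hM k) (h' : kroneckerPow (pat f J' a') ∈ span' hM k) :
    kroneckerPow (pat f J a) * kroneckerPow (pat f J' a') ∈ span' hM k := by
  obtain ⟨ε, hε, hεε⟩ := exists_traceZero hM.uf
  have h1 := mul_mem_coeffSpan (hM.ctx k) (central_pat hM h hεε)
    (by rw [smul_mul_smul_comm, pat_sq hM hJ ha, smul_zero]) (central_pat hM h' hεε)
    (by rw [smul_mul_smul_comm, pat_sq hM hJ' ha', smul_zero])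
  have := (span' hM k).smul_mem (ε * ε)⁻¹ h1
  rwa [smul_mul_smul_comm, inv_smul_smul₀ (mul_ne_zero hε hε)] at this

lemma pat_mem_all {k : Fin (s + 1)} {J : Finset (Fin s)} {a : Fin s → Fin m → F}
    (ha : ∀ i ∈ J, a i ≠ 0 ∧ f (a i) (a i) = 0) (h : kroneckerPow (pat f J a) ∈ span' hM k)
    {a' : Fin s → Fin m → F} (ha' : ∀ i ∈ J, f (a' i) (a' i) = 0) :
    kroneckerPow (pat f J a') ∈ span' hM k := by
  classical
  by_cases h0 : ∃ i ∈ J, a' i = 0
  · obtain ⟨i, hi, hi0⟩ := h0
    rw [kroneckerPow_eq_zero (i := i) (by simp [pat, hi, hi0, nmat_zero hM.uf])]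
    exact zero_mem _
  push Not at h0
  have hex : ∀ i, ∃ g : GL (Fin m) F, Iso f g ∧ g ∈ Cfsg.Geo.specialLinear (Fin m) F ∧
      (i ∈ J → g.val *ᵥ a i = a' i) := fun i => by
    by_cases hi : i ∈ J
    · obtain ⟨g, hg, hgs, hgw⟩ := UnitTensor96.exists_special_map hM.uf (card_three hM) (ha i hi).1 (h0 i hi)
        (ha i hi).2 (ha' i hi)
      exact ⟨g, hg, hgs, fun _ => hgw⟩
    · exact ⟨1, fun x y => by simp, one_mem _, fun h' => absurd h' hi⟩
  choose gs hgi hgs hga using hex
  have hinv : kroneckerPow (fun i => ((gs i)⁻¹).val) * kroneckerPow (fun i => (gs i).val) = 1 := by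
    rw [kroneckerPow_mul]; simp [kroneckerPow_one]
  have hadj : IsAdj (pform τ f s) (kroneckerPow fun i => (gs i).val) (kroneckerPow fun i => ((gs i)⁻¹).val) :=
    isAdj_kron hM.uf fun i x u => by
      rw [← hgi i, mulVec_mulVec, ← Units.val_mul, mul_inv_cancel, Units.val_one, one_mulVec]
  have := coeffSpan_conj (hM.ctx k) h (left_mem hM k gs hgi hgs) hinv hadj
  rw [kroneckerPow_mul, kroneckerPow_mul] at this
  have e : (fun i => (gs i).val * pat f J a i * ((gs i)⁻¹).val) = pat f J a' := funext fun i => by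
    by_cases hi : i ∈ J
    · simp only [pat, hi, if_true]
      refine Matrix.ext_of_mulVec_single fun l => ?_
      rw [← mulVec_mulVec, ← mulVec_mulVec, nmat_mulVec hM.uf, nmat_mulVec hM.uf, mulVec_smul, hga i hi]
      congr 1
      rw [← hga i hi, ← hgi i (((gs i)⁻¹).val *ᵥ _), mulVec_mulVec, ← Units.val_mul, mul_inv_cancel,
        Units.val_one, one_mulVec]
    · simp [pat, hi]
  rwa [e] at this

/-- One product of rank one maps on `J` gives everything on `J`. -/
lemma full_of_pat {k : Fin (s + 1)} {J : Finset (Fin s)} (hJ : J.Nonempty) {a : Fin s → Fin m → F}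
    (ha : ∀ i ∈ J, a i ≠ 0 ∧ f (a i) (a i) = 0) (h : kroneckerPow (pat f J a) ∈ span' hM k) :
    Full hM k J := by
  classical
  let S : Set (Matrix (Fin m) (Fin m) F) :=
    {K | ∃ x y, f x x = 0 ∧ f y y = 0 ∧ K = nmat f x x * nmat f y y}
  have hS : ∀ K, K ∈ Submodule.span F S := fun K => by
    refine Submodule.span_le.2 ?_ (mem_span_pairs hM.uf (card_three hM) K)
    rintro _ ⟨x, y, hx, hy, hxy, rfl⟩
    have hne : f y x ≠ 0 := fun e => hxy (orth_comm hM.uf e)
    rw [show nmat f x y = (f y x)⁻¹ • (nmat f x x * nmat f y y) by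
      rw [nmat_mul hM.uf, inv_smul_smul₀ hne]]
    exact Submodule.smul_mem _ _ (Submodule.subset_span ⟨x, y, hx, hy, rfl⟩)
  suffices key : ∀ I ⊆ J, ∀ B : Fin s → Matrix (Fin m) (Fin m) F, (∀ i ∉ J, B i = 1) →
      (∀ i ∈ J, i ∉ I → B i ∈ S) → kroneckerPow B ∈ span' hM k from
    fun B hB => key J subset_rfl B hB fun i hi hi' => absurd hi hi'
  intro I
  induction I using Finset.induction_on with
  | empty =>
    intro _ B hB hBS
    have hex : ∀ i, ∃ x y, i ∈ J → f x x = 0 ∧ f y y = 0 ∧ B i = nmat f x x * nmat f y y := fun i => by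
      by_cases hi : i ∈ J
      · obtain ⟨x, y, hxy⟩ := hBS i hi (Finset.notMem_empty i)
        exact ⟨x, y, fun _ => hxy⟩
      · exact ⟨0, 0, fun h' => absurd h' hi⟩
    choose x y hxy using hex
    have := mul_pat_mem hM hJ hJ (fun i hi => (hxy i hi).1) (fun i hi => (hxy i hi).2.1)
      (pat_mem_all hM ha h fun i hi => (hxy i hi).1) (pat_mem_all hM ha h fun i hi => (hxy i hi).2.1)
    rw [kroneckerPow_mul] at this
    convert this using 2
    funext i
    by_cases hi : i ∈ J
    · simp [pat, hi, (hxy i hi).2.2]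
    · simp [pat, hi, hB i hi]
  | @insert j I hj ih =>
    intro hIJ B hB hBS
    have hjJ : j ∈ J := hIJ (Finset.mem_insert_self j I)
    let L : Submodule F (Matrix (Fin m) (Fin m) F) :=
      { carrier := {X | kroneckerPow (update B j X) ∈ span' hM k}
        zero_mem' := by
          show kroneckerPow (update B j 0) ∈ span' hM k
          rw [kroneckerPow_eq_zero (i := j) (update_self ..)]
          exact zero_mem _
        add_mem' := fun {X Y} hX hY => by
          show kroneckerPow (update B j (X + Y)) ∈ span' hM k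
          rw [kroneckerPow_update, emb_add, add_mul, ← kroneckerPow_update, ← kroneckerPow_update]
          exact add_mem hX hY
        smul_mem' := fun c X hX => by
          show kroneckerPow (update B j (c • X)) ∈ span' hM k
          rw [kroneckerPow_update, emb_smul, smul_mul_assoc, ← kroneckerPow_update]
          exact Submodule.smul_mem _ c hX }
    have hle : Submodule.span F S ≤ L := Submodule.span_le.2 fun X hX => by
      refine ih ((Finset.subset_insert j I).trans hIJ) _ (fun i hi => ?_) fun i hi hi' => ?_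
      · have hij : i ≠ j := fun h => hi (h ▸ hjJ)
        simpa [hij] using hB i hi
      · rcases eq_or_ne i j with rfl | hij
        · simpa using hX
        · simpa [hij] using hBS i hi (by simp [hij, hi'])
    simpa [L] using hle (hS (B j))

lemma Full.mono {k : Fin (s + 1)} {J J' : Finset (Fin s)} (h : Full hM k J') (hle : J ⊆ J') : Full hM k J :=
  fun B hB => h B fun i hi => hB i fun hi' => hi (hle hi')

lemma exists_iso_pat (J : Finset (Fin s)) :
    ∃ a : Fin s → Fin m → F, ∀ i ∈ J, a i ≠ 0 ∧ f (a i) (a i) = 0 := by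
  obtain ⟨w, hw, hww⟩ := exists_iso_ne (hM.ctx (0 : Fin (s + 1)))
  exact ⟨fun _ => w, fun _ _ => ⟨hw, hww⟩⟩

lemma Full.union {k : Fin (s + 1)} {J J' : Finset (Fin s)} (hJ : J.Nonempty) (hJ' : J'.Nonempty)
    (hd : Disjoint J J') (h : Full hM k J) (h' : Full hM k J') : Full hM k (J ∪ J') := by
  classical
  obtain ⟨a, ha⟩ := exists_iso_pat hM (J ∪ J')
  refine full_of_pat hM (hJ.mono Finset.subset_union_left) ha ?_
  have := mul_pat_mem hM hJ hJ' (fun i hi => (ha i (Finset.mem_union_left _ hi)).2)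
    (fun i hi => (ha i (Finset.mem_union_right _ hi)).2) (h (pat f J a) fun i hi => if_neg hi)
    (h' (pat f J' a) fun i hi => if_neg hi)
  rw [kroneckerPow_mul] at this
  convert this using 2
  funext i
  by_cases hi : i ∈ J
  · simp [pat, hi, Finset.disjoint_left.1 hd hi]
  · by_cases hi' : i ∈ J' <;> simp [pat, hi, hi']

/-- The two-factor root elements lie in `M`. -/
def Link (τ : F ≃+* F) (f : (Fin m → F) → (Fin m → F) → F)
    (M : Subgroup (TV F m (s + 1) ≃ₗ[F] TV F m (s + 1))) (k j : Fin (s + 1)) : Prop :=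
  k ≠ j ∧ ∀ a b : Fin m → F, f a a = 0 → f b b = 0 → ∀ c : F, c + τ c = 0 →
    InV M (c • mulVecLin (kroneckerPow (update (update 1 k (nmat f a a)) j (nmat f b b))))

lemma inM_R_iff (k : Fin (s + 1)) (i : Fin s) (c : F) (N : Matrix (Fin m) (Fin m) F) (a : Fin m → F) :
    InM (slotGroup M k) (R f (c • kroneckerPow (Pi.mulSingle i N)) a) ↔
      InV M (c • mulVecLin (kroneckerPow (update (update 1 k (nmat f a a)) (k.succAbove i) N))) := by
  rw [inM_slotGroup_iff, ← insertNth_mulSingle]
  have : (slot k).symm.toLinearMap ∘ₗ R f (c • kroneckerPow (Pi.mulSingle i N)) a ∘ₗ (slot k).toLinearMap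
      = c • mulVecLin (kroneckerPow (Fin.insertNth (α := fun _ => Matrix (Fin m) (Fin m) F) k (nmat f a a)
        (Pi.mulSingle i N))) := LinearMap.ext fun v => by
    rw [LinearMap.smul_apply, mulVecLin_apply, nmat, ← pureMul_slot, ← map_smul]
    simp only [LinearMap.comp_apply, LinearEquiv.coe_coe, R_apply, TensorMax.rootMap_apply, ctr_apply,
      TensorMax.pure, smul_mulVec, smul_vecMulVec]
  rw [this]

lemma link_of_full {k : Fin (s + 1)} {i : Fin s} (h : Full hM k {i}) : Link τ f M k (k.succAbove i) := by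
  refine ⟨Fin.ne_succAbove _ _, fun a b ha hb c hc => (inM_R_iff hM k i c _ a).1 ?_⟩
  have hp : pat f {i} (fun _ => b) = Pi.mulSingle i (nmat f b b) := funext fun l => by
    rcases eq_or_ne l i with rfl | hl <;> simp [pat, *]
  have := central_pat hM (a := fun _ => b) (h _ fun l hl => if_neg hl) hc a ha
  rwa [hp] at this

lemma full_of_link {k : Fin (s + 1)} {i : Fin s} (h : Link τ f M k (k.succAbove i)) : Full hM k {i} := by
  obtain ⟨w, hw, hww⟩ := exists_iso_ne (hM.ctx k)
  obtain ⟨ε, hε, hεε⟩ := exists_traceZero hM.uf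
  refine full_of_pat hM (Finset.singleton_nonempty i) (a := fun _ => w) (fun _ _ => ⟨hw, hww⟩) ?_
  have hp : pat f {i} (fun _ => w) = Pi.mulSingle i (nmat f w w) := funext fun l => by
    rcases eq_or_ne l i with rfl | hl <;> simp [pat, *]
  rw [hp]
  have hT : Central f (slotGroup M k) (ε • kroneckerPow (Pi.mulSingle i (nmat f w w))) :=
    central_of_inM (hM.ctx k) hw hww ((inM_R_iff hM k i ε _ w).2 (h.2 w w hww hww ε hεε))
  have := (span' hM k).smul_mem ε⁻¹ (mem_coeffSpan_of_central (hM.ctx k) hT)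
  rwa [inv_smul_smul₀ hε] at this

lemma Link.symm {k j : Fin (s + 1)} (h : Link τ f M k j) : Link τ f M j k :=
  ⟨h.1.symm, fun a b ha hb c hc => (h.2 b a hb ha c hc).congr (by rw [update_comm h.1])⟩

lemma Link.perm {k j : Fin (s + 1)} (h : Link τ f M k j) {σ : Equiv.Perm (Fin (s + 1))} (hσ : σ ^ 3 = 1) :
    Link τ f M (σ k) (σ j) := by
  refine ⟨σ.injective.ne h.1, fun a b ha hb c hc =>
    ((h.2 a b ha hb c hc).conj (hM.perm_mem σ hσ)).congr ?_⟩
  rw [LinearMap.smul_comp, LinearMap.comp_smul, permE_conj_kron]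
  congr 3
  funext l
  simp only [update_apply, Equiv.Perm.inv_def, Equiv.symm_apply_eq, Pi.one_apply]

lemma Link.all {x y : Fin (s + 1)} (h : Link τ f M x y) {a b : Fin (s + 1)} (hab : a ≠ b) :
    Link τ f M a b := by
  have third : ∀ {x y : Fin (s + 1)}, Link τ f M x y → ∀ z, z ≠ x → z ≠ y → Link τ f M z x := by
    intro x y hxy z hzx hzy
    have h3 : (Equiv.swap x y * Equiv.swap x z) ^ 3 = 1 := by
      rw [← (Equiv.Perm.isThreeCycle_swap_mul_swap_same hxy.1 hzx.symm hzy.symm).orderOf]
      exact pow_orderOf_eq_one _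
    have h' := Link.perm hM hxy h3
    have e1 : (Equiv.swap x y * Equiv.swap x z) x = z := by
      rw [Equiv.Perm.mul_apply, Equiv.swap_apply_left, Equiv.swap_apply_of_ne_of_ne hzx hzy]
    have e2 : (Equiv.swap x y * Equiv.swap x z) y = x := by
      rw [Equiv.Perm.mul_apply, Equiv.swap_apply_of_ne_of_ne hxy.1.symm hzy.symm, Equiv.swap_apply_right]
    rwa [e1, e2] at h'
  obtain ⟨p, hp⟩ : ∃ p, Link τ f M a p := by
    rcases eq_or_ne a x with rfl | hax
    · exact ⟨y, h⟩
    rcases eq_or_ne a y with rfl | hay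
    · exact ⟨x, Link.symm hM h⟩
    · exact ⟨x, third h a hax hay⟩
  rcases eq_or_ne b p with rfl | hbp
  · exact hp
  · exact Link.symm hM (third hp b hab.symm hbp)

/-- A non-scalar coefficient gives every skew coefficient in every factor. -/
theorem central_of_skew (hns : ¬ OnlyScal f M) (k : Fin (s + 1))
    (θ : Matrix (Fin s → Fin m) (Fin s → Fin m) F) (hθ : IsAdj (pform τ f s) θ (-θ)) :
    Central f (slotGroup M k) θ := by
  classical
  simp only [OnlyScal, not_forall, not_exists] at hns
  obtain ⟨k₀, θ₀, w, hw, hww, hin, hne⟩ := hns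
  obtain ⟨J, a, hJ, ha, hmem⟩ := exists_pat_mem hM k₀
    (mem_coeffSpan_of_central (hM.ctx k₀) (central_of_inM (hM.ctx k₀) hw hww hin)) hne
  obtain ⟨i, hi⟩ := hJ
  have hlink : Link τ f M k₀ (k₀.succAbove i) :=
    link_of_full hM ((full_of_pat hM ⟨i, hi⟩ ha hmem).mono hM (Finset.singleton_subset_iff.2 hi))
  have hfull : ∀ I : Finset (Fin s), I.Nonempty → Full hM k I := by
    intro I
    induction I using Finset.induction_on with
    | empty => exact fun h => absurd h Finset.not_nonempty_empty
    | @insert j I hj ih =>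
      intro _
      have h1 : Full hM k {j} := full_of_link hM (Link.all hM hlink (Fin.ne_succAbove k j))
      rcases I.eq_empty_or_nonempty with rfl | hI
      · simpa using h1
      · rw [Finset.insert_eq]
        exact Full.union hM (Finset.singleton_nonempty j) hI (Finset.disjoint_singleton_left.2 hj) h1 (ih hI)
  have htop : ∀ X, X ∈ span' hM k := by
    intro X
    rw [matrix_eq_sum_single X]
    refine Submodule.sum_mem _ fun x _ => Submodule.sum_mem _ fun y _ => ?_
    rw [show single x y (X x y) = X x y • single x y (1 : F) by rw [smul_single, smul_eq_mul, mul_one]]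
    refine Submodule.smul_mem _ _ ?_
    have : single x y (1 : F) = kroneckerPow fun l => single (x l) (y l) (1 : F) := by
      ext u v
      simp only [single_apply, kroneckerPow, Matrix.of_apply, funext_iff, Fintype.prod_ite_zero]
      by_cases h : (∀ l, x l = u l) ∧ ∀ l, y l = v l
      · rw [if_pos h, if_pos fun l => ⟨h.1 l, h.2 l⟩, Finset.prod_const_one]
      · rw [if_neg h, if_neg fun h' => h ⟨fun l => (h' l).1, fun l => (h' l).2⟩]
    rw [this]
    exact hfull Finset.univ ⟨i, Finset.mem_univ _⟩ _ fun l hl => absurd (Finset.mem_univ l) hl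
  exact central_of_mem (hM.ctx k) (htop θ) hθ

/-- A non-scalar coefficient makes every isotropic vector a centre of transvections in `M`. -/
theorem centre_of_not_onlyScal (hs : 1 ≤ s) (hns : ¬ OnlyScal f M) {Z : TV F m (s + 1)}
    (hZ : pform τ f (s + 1) Z Z = 0) {c : F} (hc : c + τ c = 0) :
    ∃ g ∈ M, ∀ X, g X = X + (c * pform τ f (s + 1) X Z) • Z := by
  have h := isCen_of_all_skew (hM.ctx (0 : Fin (s + 1)))
    (by
      rw [Fintype.card_fun, Fintype.card_fin, Fintype.card_fin]
      exact hM.three.trans (Nat.le_self_pow (by omega) m))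
    (central_of_skew hM hns 0) (Z := slot (0 : Fin (s + 1)) Z) (by rw [phi_slot, hZ]) c hc
  obtain ⟨_, ⟨g, hg, rfl⟩, hgX⟩ := h
  refine ⟨g, hg, fun X => (slot (0 : Fin (s + 1))).injective ?_⟩
  have := hgX (slot 0 X)
  rw [WreathTensor14.slotConj_apply, LinearEquiv.symm_apply_apply, phi_slot] at this
  rw [this, map_add, map_smul]

end CfsgLib.WreathForm14
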