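import Cfsg.Agent.WreathForm14.Conj

/-!
The position of an image of an isotropic member relative to a member, for an element that is not
monomial, and the elements moving vectors only inside the sum of the two.
-/

set_option autoImplicit false
set_option linter.unusedSectionVars false

namespace CfsgLib.WreathForm14

open Matrix Module
open CfsgLib.TensorMax (InM rootMap pure pure_mulVec memb mem_memb pure_mem_memb pure_eq_zero_iff)
open CfsgLib.UnitCentres (Iso exists_traceZero add_right smul_right zero_left zero_right sub_left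
  sub_right orth_comm norm_fixed exists_orth_sep)
open CfsgLib.UnitTensor96 (exists_partner)
open CfsgLib.WreathTensor14 (TV pv slot slot_pv monoGroup smemb symm_pure_mem mem_smemb finrank_smemb
  exists_member_image pv_ne_zero linearMap_ext_pv)

variable {F : Type*} [Field F] [Finite F] {τ : F ≃+* F} {m s : ℕ}
  {f : (Fin m → F) → (Fin m → F) → F}
  {M : Subgroup (TV F m (s + 1) ≃ₗ[F] TV F m (s + 1))}

/-- The elements of `M` that are isometries, move vectors inside `S` and fix `C` pointwise. -/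
def moveGroup (τ : F ≃+* F) (f : (Fin m → F) → (Fin m → F) → F)
    (M : Subgroup (TV F m (s + 1) ≃ₗ[F] TV F m (s + 1))) (S C : Submodule F (TV F m (s + 1))) :
    Subgroup (TV F m (s + 1) ≃ₗ[F] TV F m (s + 1)) where
  carrier := {h | h ∈ M ∧ (∀ u v, pform τ f (s + 1) (h u) (h v) = pform τ f (s + 1) u v) ∧
    (∀ z, h z - z ∈ S) ∧ ∀ z ∈ C, h z = z}
  one_mem' := ⟨M.one_mem, fun u v => rfl, fun z => by simp, fun z _ => rfl⟩
  mul_mem' := fun {h h'} hh hh' => ⟨M.mul_mem hh.1 hh'.1,
    fun u v => by rw [LinearEquiv.mul_apply, LinearEquiv.mul_apply, hh.2.1, hh'.2.1],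
    fun z => by
      rw [LinearEquiv.mul_apply, ← sub_add_sub_cancel _ (h' z)]
      exact S.add_mem (hh.2.2.1 _) (hh'.2.2.1 z),
    fun z hz => by rw [LinearEquiv.mul_apply, hh'.2.2.2 z hz, hh.2.2.2 z hz]⟩
  inv_mem' := fun {h} hh => ⟨M.inv_mem hh.1,
    fun u v => by
      conv_rhs => rw [← h.apply_symm_apply u, ← h.apply_symm_apply v, hh.2.1]
      rfl,
    fun z => by
      have h2 := S.neg_mem (hh.2.2.1 (h.symm z))
      rw [LinearEquiv.apply_symm_apply, neg_sub] at h2
      exact h2,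
    fun z hz => (LinearEquiv.symm_apply_eq h).2 (hh.2.2.2 z hz).symm⟩

/-- A non-monomial element with an image of a member in a position of largest intersection. -/
structure Pos (τ : F ≃+* F) (f : (Fin m → F) → (Fin m → F) → F)
    (M : Subgroup (TV F m (s + 1) ≃ₗ[F] TV F m (s + 1)))
    (g : TV F m (s + 1) ≃ₗ[F] TV F m (s + 1)) (k : Fin (s + 1)) (v : Fin m → F) (j : Fin (s + 1))
    (w : Fin m → F) : Prop where
  base : UBase τ f M
  sc : OnlyScal f M
  IH : ∀ k, ∀ a ∈ WreathTensor14.factor M k, a ∈ monoGroup F m s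
  hg : g ∈ M
  hng : g ∉ monoGroup F m (s + 1)
  hv : v ≠ 0
  hvv : f v v = 0
  hw : w ≠ 0
  hww : f w w = 0
  hd : ∀ g' ∈ M, ∀ (k' : Fin (s + 1)) (v' : Fin m → F) (j' : Fin (s + 1)) (w' : Fin m → F),
    v' ≠ 0 → f v' v' = 0 → w' ≠ 0 → f w' w' = 0 →
    finrank F ↥((smemb k v).map g.toLinearMap ⊓ smemb j w)
      < finrank F ↥((smemb k' v').map (g' : TV F m (s + 1) ≃ₗ[F] TV F m (s + 1)).toLinearMap
        ⊓ smemb j' w') → g' ∈ monoGroup F m (s + 1)

/-- The image lies in the product of the first factors with a plane through `w`. -/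
def Plane (f : (Fin m → F) → (Fin m → F) → F) (g : TV F m (s + 1) ≃ₗ[F] TV F m (s + 1))
    (k : Fin (s + 1)) (v : Fin m → F) (j : Fin (s + 1)) (w : Fin m → F) : Prop :=
  (smemb k v).map g.toLinearMap ⊓ smemb j w = ⊥ ∧
    ∃ w₂, f w₂ w ≠ 0 ∧ (smemb k v).map g.toLinearMap ≤ smemb j w ⊔ smemb j w₂

lemma eq_mult_one (hM : UBase τ f M) {h : TV F m (s + 1) ≃ₗ[F] TV F m (s + 1)}
    (hiso : ∀ u v, pform τ f (s + 1) (h u) (h v) = pform τ f (s + 1) u v) {j : Fin (s + 1)}
    {B : (Fin m → F) →ₗ[F] (Fin m → F)}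
    (hB : ∀ u z, slot j (h ((slot j).symm (pure u z))) = pure u (B z)) (y z : Fin m → F) :
    f (B y) (B z) = f y z := by
  have hf := hM.uf
  have hb := pform_unitary hf s
  obtain ⟨u, v, huv⟩ := exists_pform_ne_zero (t := s) hf (by have := hM.three; omega)
  refine mul_right_cancel₀ huv ?_
  rw [← phi_pure_pure hb hf, ← phi_pure_pure hb hf, ← hB, ← hB, phi_slot, hiso, ← phi_slot j,
    LinearEquiv.apply_symm_apply, LinearEquiv.apply_symm_apply]

/-- Contractions transported by an element of the second factor. -/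
lemma ctr_right (hM : UBase τ f M) {h : TV F m (s + 1) ≃ₗ[F] TV F m (s + 1)}
    (hiso : ∀ u v, pform τ f (s + 1) (h u) (h v) = pform τ f (s + 1) u v) {j : Fin (s + 1)}
    {B : (Fin m → F) →ₗ[F] (Fin m → F)}
    (hB : ∀ u z, slot j (h ((slot j).symm (pure u z))) = pure u (B z)) (z : Fin m → F)
    (X : TV F m (s + 1)) : ctr f (B z) (slot j (h X)) = ctr f z (slot j X) := by
  have hb := pform_unitary hM.uf s
  refine sub_eq_zero.1 (by_contra fun hne => ?_)
  obtain ⟨-, u, hu⟩ := hb.nondegenerate _ hne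
  refine hu ?_
  rw [sub_left hb, ← phi_pure_right hb hM.uf, ← phi_pure_right hb hM.uf, ← hB, phi_slot, hiso,
    ← phi_slot j, LinearEquiv.apply_symm_apply, sub_self]

/-- The rows of a vector in the sum of two members. -/
lemma rows_mem {j : Fin (s + 1)} {w w' : Fin m → F} {X : TV F m (s + 1)}
    (hX : X ∈ smemb j w ⊔ smemb j w') (i : Fin s → Fin m) :
    slot j X i ∈ Submodule.span F ({w, w'} : Set (Fin m → F)) := by
  obtain ⟨a, ha, b, hb, rfl⟩ := Submodule.mem_sup.1 hX
  obtain ⟨u, hu⟩ := mem_memb.1 ha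
  obtain ⟨u', hu'⟩ := mem_memb.1 hb
  rw [LinearEquiv.coe_coe] at hu hu'
  rw [map_add, ← hu, ← hu']
  refine Submodule.mem_span_pair.2 ⟨u i, u' i, funext fun l => ?_⟩
  simp [TensorMax.pure, vecMulVec_apply]

/-- A member of another factor has rows in every direction. -/
lemma member_eq_of_rows {j k : Fin (s + 1)} {w : Fin m → F} (hw : w ≠ 0)
    {E : Submodule F (Fin m → F)} {d : Fin m → F} (hd : d ∉ E)
    (h : ∀ X ∈ smemb k w, ∀ i, slot j X i ∈ E) : k = j := by
  by_contra hkj
  have hd0 : d ≠ 0 := fun h0 => hd (h0 ▸ E.zero_mem)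
  set x : Fin (s + 1) → Fin m → F := Function.update (fun _ => w) j d
  have hx : ∀ i, x i ≠ 0 := fun i => by
    rcases eq_or_ne i j with rfl | h' <;> simp [x, *]
  obtain ⟨i, hi⟩ := Function.ne_iff.1 (pv_ne_zero (x := Fin.removeNth j x) fun i => hx _)
  have h1 := h (pv x) (by
    rw [mem_smemb, slot_pv, show x k = w by simp [x, hkj]]
    exact pure_mem_memb _ _) i
  rw [slot_pv, show x j = d by simp [x],
    show (pure (pv (Fin.removeNth j x)) d : Matrix _ _ F) i = pv (Fin.removeNth j x) i • d from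
      funext fun l => by simp [TensorMax.pure, vecMulVec_apply]] at h1
  exact hd ((E.smul_mem_iff hi).1 h1)

namespace Pos

variable {g : TV F m (s + 1) ≃ₗ[F] TV F m (s + 1)} {k j : Fin (s + 1)} {v w : Fin m → F}
  (H : Pos τ f M g k v j w)
include H

/-- The map onto the image. -/
lemma exists_P : ∃ P : TV F m (s + 1) →ₗ[F] TV F m (s + 1),
    (∀ Y, P Y = g (nW f k v (g.symm Y))) := ⟨g.toLinearMap ∘ₗ nW f k v ∘ₗ g.symm.toLinearMap, fun _ => rfl⟩

lemma isoU : ∀ x ∈ smemb j w, ∀ y ∈ smemb j w, pform τ f (s + 1) x y = 0 := fun x hx y hy =>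
  (nW_eq_zero_iff H.base j H.hw x).1 (nW_eq_zero H.base H.hww hx) y hy

lemma isoT : ∀ x ∈ (smemb k v).map g.toLinearMap, ∀ y ∈ (smemb k v).map g.toLinearMap,
    pform τ f (s + 1) x y = 0 := by
  rintro _ ⟨x, hx, rfl⟩ _ ⟨y, hy, rfl⟩
  obtain ⟨c, hc⟩ := H.base.sim g H.hg
  rw [LinearEquiv.coe_coe, hc, (nW_eq_zero_iff H.base k H.hv x).1 (nW_eq_zero H.base H.hvv hx) y hy,
    mul_zero]

lemma P_eq_zero_iff {P : TV F m (s + 1) →ₗ[F] TV F m (s + 1)}
    (hP : ∀ Y, P Y = g (nW f k v (g.symm Y))) (Y : TV F m (s + 1)) :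
    P Y = 0 ↔ ∀ t ∈ (smemb k v).map g.toLinearMap, pform τ f (s + 1) Y t = 0 := by
  obtain ⟨c, hc0, hc⟩ := exists_mult H.base H.hg
  rw [hP, LinearEquiv.map_eq_zero_iff, nW_eq_zero_iff H.base k H.hv]
  refine ⟨fun h => ?_, fun h u hu => ?_⟩
  · rintro _ ⟨u, hu, rfl⟩
    rw [← g.apply_symm_apply Y, LinearEquiv.coe_coe, hc, h u hu, mul_zero]
  · have h1 := h _ ⟨u, hu, rfl⟩
    rw [← g.apply_symm_apply Y, LinearEquiv.coe_coe, hc] at h1
    exact (mul_eq_zero.1 h1).resolve_left hc0

lemma P_mem {P : TV F m (s + 1) →ₗ[F] TV F m (s + 1)}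
    (hP : ∀ Y, P Y = g (nW f k v (g.symm Y))) (Y : TV F m (s + 1)) :
    P Y ∈ (smemb k v).map g.toLinearMap := by
  rw [hP]; exact ⟨_, nW_mem k v _, rfl⟩

lemma P_surj {P : TV F m (s + 1) →ₗ[F] TV F m (s + 1)}
    (hP : ∀ Y, P Y = g (nW f k v (g.symm Y))) {t : TV F m (s + 1)}
    (ht : t ∈ (smemb k v).map g.toLinearMap) : ∃ Y, P Y = t := by
  obtain ⟨z, hz, rfl⟩ := ht
  obtain ⟨y, hy⟩ := (range_nW H.base k H.hv).ge hz
  exact ⟨g y, by rw [hP, g.symm_apply_apply, hy]; rfl⟩

/-- The conjugated root group. -/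
lemma exists_y {P : TV F m (s + 1) →ₗ[F] TV F m (s + 1)}
    (hP : ∀ Y, P Y = g (nW f k v (g.symm Y))) {c : F} (hc : c + τ c = 0) :
    ∃ y ∈ M, (∀ Y, y Y = Y + c • P Y) ∧
      ∀ u z, pform τ f (s + 1) (y u) (y z) = pform τ f (s + 1) u z := by
  obtain ⟨x, hx, hxv, hxi⟩ := exists_root H.base k H.hv H.hvv hc
  obtain ⟨d, hd⟩ := H.base.sim g H.hg
  refine ⟨g * x * g⁻¹, M.mul_mem (M.mul_mem H.hg hx) (M.inv_mem H.hg), fun Y => ?_, fun u z => ?_⟩
  · change g (x (g.symm Y)) = _
    rw [hxv, map_add, g.apply_symm_apply, map_smul, hP]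
  · change pform τ f (s + 1) (g (x (g.symm u))) (g (x (g.symm z))) = _
    rw [hd, hxi, ← hd, g.apply_symm_apply, g.apply_symm_apply]

lemma hnle : ¬ (smemb k v).map g.toLinearMap ≤ smemb j w := fun hle =>
  H.hng (mono_of_member H.base H.sc H.IH H.hg H.hv H.hvv H.hw fun x hx => hle ⟨x, hx, rfl⟩)

lemma backT {t : TV F m (s + 1)} (ht : t ∈ (smemb k v).map g.toLinearMap)
    (hNt : nW f j w t ∈ (smemb k v).map g.toLinearMap) : t ∈ smemb j w := by
  by_contra htU
  set T := (smemb k v).map g.toLinearMap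
  refine H.hng (mono_of_meet H.base H.sc H.IH H.hd H.hg H.hv H.hvv (j := j) H.hw H.hww
    ((T ⊓ smemb j w) ⊔ Submodule.span F {t})
    (sup_le inf_le_left ((Submodule.span_singleton_le_iff_mem _ _).2 ht)) ?_ fun x hx => ?_)
  · exact Submodule.finrank_lt_finrank_of_lt (lt_of_le_not_ge le_sup_left fun h =>
      htU (h (Submodule.mem_sup_right (Submodule.mem_span_singleton_self t))).2)
  · obtain ⟨a, ha, b, hb, rfl⟩ := Submodule.mem_sup.1 hx
    obtain ⟨r, rfl⟩ := Submodule.mem_span_singleton.1 hb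
    rw [map_add, map_smul, nW_eq_zero H.base H.hww ha.2, zero_add]
    exact T.smul_mem r hNt

lemma backU {P : TV F m (s + 1) →ₗ[F] TV F m (s + 1)} (hP : ∀ Y, P Y = g (nW f k v (g.symm Y)))
    {u : TV F m (s + 1)} (hu : u ∈ smemb j w) (hPu : P u ∈ smemb j w) :
    u ∈ (smemb k v).map g.toLinearMap := by
  by_contra huT
  set T := (smemb k v).map g.toLinearMap
  set S := (T ⊓ smemb j w) ⊔ Submodule.span F {u}
  have hSU : S ≤ smemb j w := sup_le inf_le_right ((Submodule.span_singleton_le_iff_mem _ _).2 hu)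
  refine H.hng ?_
  have := mono_of_meet H.base H.sc H.IH H.hd (M.inv_mem H.hg) H.hw H.hww (k := j) (j := k) H.hv H.hvv
    (S.map g.symm.toLinearMap) (Submodule.map_mono hSU) ?_ ?_
  · simpa using (monoGroup F m (s + 1)).inv_mem this
  · rw [LinearEquiv.finrank_map_eq]
    exact Submodule.finrank_lt_finrank_of_lt (lt_of_le_not_ge le_sup_left fun h =>
      huT (h (Submodule.mem_sup_right (Submodule.mem_span_singleton_self u))).1)
  · rintro _ ⟨x, hx, rfl⟩
    refine ⟨P x, ?_, by rw [hP]; exact g.symm_apply_apply _⟩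
    obtain ⟨a, ha, b, hb, rfl⟩ := Submodule.mem_sup.1 hx
    obtain ⟨r, rfl⟩ := Submodule.mem_span_singleton.1 hb
    rw [map_add, map_smul, (P_eq_zero_iff H hP a).2 fun t ht => H.isoT a ha.1 t ht, zero_add]
    exact (smemb j w).smul_mem r hPu

lemma inter_ker {z : TV F m (s + 1)} (hz : z ∈ (smemb k v).map g.toLinearMap ⊔ smemb j w)
    (h : nW f j w z = 0) : z ∈ smemb j w := by
  obtain ⟨t, ht, u, hu, rfl⟩ := Submodule.mem_sup.1 hz
  rw [map_add, nW_eq_zero H.base H.hww hu, add_zero] at h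
  exact (smemb j w).add_mem (H.backT ht (by rw [h]; exact Submodule.zero_mem _)) hu

/-- An element stabilising the member is a root element, or gives the plane. -/
theorem stab_cases {h : TV F m (s + 1) ≃ₗ[F] TV F m (s + 1)}
    (hh : h ∈ moveGroup τ f M ((smemb k v).map g.toLinearMap ⊔ smemb j w)
      ((smemb k v).map g.toLinearMap ⊓ smemb j w))
    (hst : ∀ x ∈ smemb j w, h x ∈ smemb j w) :
    (∃ c, c + τ c = 0 ∧ ∀ x, h x = x + c • nW f j w x) ∨ Plane f g k v j w := by
  obtain ⟨hhM, hiso, hmove, hfix⟩ := hh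
  have hf := H.base.uf
  have hm := H.base.three
  set T := (smemb k v).map g.toLinearMap
  set U := smemb j w
  have : Nonempty (Fin m) := ⟨⟨0, by omega⟩⟩
  obtain ⟨a, b, hab⟩ := exists_split H.base H.sc hhM H.hw H.hww hst
  obtain ⟨u₀, hu₀⟩ := exists_ne (0 : TV F m s)
  obtain ⟨χ, hχ⟩ := TensorMax.exists_dual hu₀
  have hperp : ∀ u z, f z w = 0 → pure (a u) (b.val *ᵥ z) - pure u z ∈ memb w := by
    intro u z hz
    set Y := (slot j).symm (pure u z)
    have hY : nW f j w Y = 0 := by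
      rw [nW_apply, LinearEquiv.apply_symm_apply, ctr_pure hf, hz, zero_smul, pure_zero_l, map_zero]
    have hhY : nW f j w (h Y) = 0 := (nW_eq_zero_iff H.base j H.hw _).2 fun x hx => by
      obtain ⟨x', rfl⟩ := h.surjective x
      rw [hiso]
      refine (nW_eq_zero_iff H.base j H.hw Y).1 hY _ ?_
      have hmap : U.map h.toLinearMap = U := Submodule.eq_of_le_of_finrank_le
        (by rintro _ ⟨y, hy, rfl⟩; exact hst y hy) (by rw [LinearEquiv.finrank_map_eq])
      obtain ⟨y, hy, hyx⟩ := hmap.ge hx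
      rwa [← h.injective hyx]
    have := H.inter_ker (hmove Y) (by rw [map_sub, hhY, hY, sub_zero])
    rw [mem_smemb, map_sub, hab, LinearEquiv.apply_symm_apply] at this
    exact this
  -- the first factor is a scalar
  obtain ⟨a₁, ha₁, ha₁'⟩ := exists_aniso_orth hf (by simpa using hm) w
  have hra : ∀ u, f (b.val *ᵥ a₁) a₁ • a u = u := fun u => by
    have h1 := ctr_memb hf (orth_comm hf ha₁) (hperp u a₁ ha₁)
    rw [map_sub, ctr_pure hf, ctr_pure hf, ha₁', one_smul, sub_eq_zero] at h1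
    exact h1
  set r := f (b.val *ᵥ a₁) a₁
  have hr : r ≠ 0 := fun h0 => hu₀ (by rw [← hra u₀, h0, zero_smul])
  set B : (Fin m → F) →ₗ[F] (Fin m → F) := r⁻¹ • b.val.mulVecLin
  have hB : ∀ u z, slot j (h ((slot j).symm (pure u z))) = pure u (B z) := fun u z => by
    rw [hab]
    conv_rhs => rw [← hra u]
    simp only [B, LinearMap.smul_apply, Matrix.mulVecLin_apply, pure_smul_left, pure_smul_right,
      smul_smul, inv_mul_cancel₀ hr, one_smul]
  have hBi := eq_mult_one H.base hiso hB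
  have hBw' : ∀ z, f z w = 0 → B z - z ∈ Submodule.span F {w} := fun z hz => by
    have h1 := hperp u₀ z hz
    rw [← hab, hB, ← pure_sub_right] at h1
    obtain ⟨y, hy⟩ := mem_memb.1 h1
    refine Submodule.mem_span_singleton.2 ⟨χ ⬝ᵥ y, ?_⟩
    have h2 := congrArg (fun X => χ ᵥ* X) hy
    simp only [TensorMax.pure, vecMul_vecMulVec] at h2
    rwa [dotProduct_comm χ u₀, hχ, one_smul] at h2
  obtain ⟨l, hl⟩ := Submodule.mem_span_singleton.1 (hBw' w H.hww)
  have hBw : B w = (1 + l) • w := by rw [add_smul, one_smul, hl, add_sub_cancel]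
  obtain ⟨e, hee, hwe, hew⟩ := exists_partner hf H.hw H.hww
  have hre : ∀ u, (slot j).symm (pure u (B e - e)) ∈ T ⊔ U := fun u => by
    convert hmove ((slot j).symm (pure u e)) using 1
    apply (slot j).injective
    rw [map_sub, hB, LinearEquiv.apply_symm_apply, LinearEquiv.apply_symm_apply, pure_sub_right]
  by_cases hl0 : l = 0
  · left
    rw [hl0, add_zero, one_smul] at hBw
    have hrw : f (B e - e) w = 0 := by
      rw [sub_left hf]
      nth_rw 1 [← hBw]
      rw [hBi, sub_self]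
    obtain ⟨c, hc⟩ : ∃ c, c • w = B e - e := by
      have h1 := H.inter_ker (hre u₀) (by
        rw [nW_apply, LinearEquiv.apply_symm_apply, ctr_pure hf, hrw, zero_smul, pure_zero_l, map_zero])
      obtain ⟨y, hy⟩ := mem_memb.1 h1
      rw [LinearEquiv.coe_coe, LinearEquiv.apply_symm_apply] at hy
      refine ⟨χ ⬝ᵥ y, ?_⟩
      have h2 := congrArg (fun X => χ ᵥ* X) hy
      simp only [TensorMax.pure, vecMul_vecMulVec] at h2
      rwa [dotProduct_comm χ u₀, hχ, one_smul] at h2
    have hBe : B e = e + c • w := by rw [hc, add_sub_cancel]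
    have hB0 : ∀ z, f z w = 0 → B z = z := fun z hz => by
      obtain ⟨p, hp⟩ := Submodule.mem_span_singleton.1 (hBw' z hz)
      have h1 := hBi z e
      rw [show B z = z + p • w by rw [hp, add_sub_cancel], hBe] at h1
      simp only [hf.add_left, add_right hf, hf.smul_left, smul_right hf, hz, hwe, H.hww, mul_zero,
        mul_one, add_zero] at h1
      rw [show p = 0 by linear_combination h1, zero_smul, eq_comm, sub_eq_zero] at hp
      exact hp
    refine ⟨c, ?_, fun x => ?_⟩
    · have h1 := hBi e e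
      simp only [hBe, hf.add_left, add_right hf, hf.smul_left, smul_right hf, hee, hwe, hew, H.hww,
        mul_zero, mul_one, add_zero, zero_add] at h1
      linear_combination h1
    suffices hlin : h.toLinearMap = LinearMap.id + c • nW f j w from LinearMap.congr_fun hlin x
    refine linearMap_ext_pv fun p => ?_
    rw [← (slot j).symm_apply_apply (pv p), slot_pv]
    simp only [LinearEquiv.coe_coe, LinearMap.add_apply, LinearMap.id_apply, LinearMap.smul_apply,
      nW_apply, LinearEquiv.apply_symm_apply, ctr_pure hf]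
    apply (slot j).injective
    rw [hB, map_add, LinearEquiv.apply_symm_apply, map_smul, LinearEquiv.apply_symm_apply]
    have hz : f (p j - f (p j) w • e) w = 0 := by
      rw [sub_left hf, hf.smul_left, hew, mul_one, sub_self]
    have h1 := hB0 _ hz
    rw [map_sub, map_smul, hBe, sub_eq_iff_eq_add] at h1
    rw [h1, pure_smul_left]
    simp only [pure_add_right, pure_sub_right, pure_smul_right, smul_add]
    module
  · right
    have hC : T ⊓ U = ⊥ := (Submodule.eq_bot_iff _).2 fun t ht => by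
      have h1 := hfix t ht
      obtain ⟨y, hy⟩ := mem_memb.1 ht.2
      rw [LinearEquiv.coe_coe] at hy
      have h2 := hB y w
      rw [hy, LinearEquiv.symm_apply_apply, h1, hBw, pure_smul_right, hy] at h2
      have h3 : l • slot j t = 0 := by
        rw [add_smul, one_smul, left_eq_add] at h2
        exact h2
      exact (slot j).map_eq_zero_iff.1 ((smul_eq_zero.1 h3).resolve_left hl0)
    have hl1 : (1 + l) ≠ 0 := fun h0 => by
      have h1 := hBi e w
      rw [hBw, h0, zero_smul, zero_right hf, hew] at h1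
      exact zero_ne_one h1
    set w₂ := B e - e
    have hw2 : f w₂ w ≠ 0 := fun h0 => by
      rw [sub_left hf, hew, sub_eq_zero] at h0
      have h1 := hBi e w
      rw [hBw, smul_right hf, h0, mul_one, hew] at h1
      exact hl0 (by simpa using (map_eq_one_iff τ τ.injective).1 h1)
    refine ⟨hC, w₂, hw2, ?_⟩
    have hw20 : w₂ ≠ 0 := fun h0 => hw2 (by rw [h0, zero_left hf])
    have hle : U ⊔ smemb j w₂ ≤ T ⊔ U := sup_le le_sup_right fun x hx => by
      obtain ⟨y, hy⟩ := mem_memb.1 hx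
      rw [LinearEquiv.coe_coe] at hy
      rw [← (slot j).symm_apply_apply x, ← hy]
      exact hre y
    have hdis : U ⊓ smemb j w₂ = ⊥ := (Submodule.eq_bot_iff _).2 fun x hx => by
      obtain ⟨y, hy⟩ := mem_memb.1 hx.2
      rw [LinearEquiv.coe_coe] at hy
      have h1 := nW_eq_zero H.base H.hww hx.1
      rw [nW_apply, ← hy, ctr_pure hf, LinearEquiv.map_eq_zero_iff, pure_eq_zero_iff H.hw,
        smul_eq_zero] at h1
      rw [← (slot j).map_eq_zero_iff, ← hy, h1.resolve_left hw2, pure_zero_l]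
    refine le_sup_left.trans (Submodule.eq_of_le_of_finrank_le hle ?_).ge
    have h1 := Submodule.finrank_sup_add_finrank_inf_eq U (smemb j w₂)
    have h2 := Submodule.finrank_sup_add_finrank_inf_eq T U
    rw [hdis, finrank_bot, finrank_smemb _ H.hw, finrank_smemb _ hw20] at h1
    rw [hC, finrank_bot, finrank_smemb _ H.hw, LinearEquiv.finrank_map_eq, finrank_smemb _ H.hv] at h2
    omega

end Pos

end CfsgLib.WreathForm14
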