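import Cfsg.Agent.WreathForm14.Basic

/-!
With only scalar root coefficients, an element of the radical at an isotropic vector of the second
factor is a contraction with a vector orthogonal to it.
-/

set_option autoImplicit false
set_option linter.unusedSectionVars false

namespace CfsgLib.WreathForm14

open Matrix Module
open CfsgLib.TensorMax (InM rootMap pure pure_mulVec memb mem_memb pure_mem_memb pureL pureL_apply
  mem_memb_of_forall_orth det_one_add_vecMulVec pure_eq_zero_iff)
open CfsgLib.UnitCentres (add_right smul_right zero_left zero_right sub_left sub_right orth_comm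
  upair upair_apply exists_upair_eq Iso exists_unit_orth exists_trace norm_fixed exists_traceZero)
open CfsgLib.UnitTensor96 (exists_partner)

variable {F : Type*} [Field F] [Finite F] {τ : F ≃+* F} {ι κ : Type} [Fintype ι] [DecidableEq ι]
  [Fintype κ] [DecidableEq κ] {b : (ι → F) → (ι → F) → F} {f : (κ → F) → (κ → F) → F}
  {M : Subgroup (Matrix ι κ F ≃ₗ[F] Matrix ι κ F)}

/-- Every coefficient of a root element is scalar. -/
def Scal (f : (κ → F) → (κ → F) → F) (M : Subgroup (Matrix ι κ F ≃ₗ[F] Matrix ι κ F)) : Prop :=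
  ∀ (θ : Matrix ι ι F) (w : κ → F), w ≠ 0 → f w w = 0 → InM M (R f θ w) → ∃ c : F, θ = c • 1

lemma pure_add_left (u u' : ι → F) (w : κ → F) : pure (u + u') w = pure u w + pure u' w :=
  add_vecMulVec u u' w

lemma pure_sub_left (u u' : ι → F) (w : κ → F) : pure (u - u') w = pure u w - pure u' w :=
  sub_vecMulVec u u' w

lemma pure_add_right (u : ι → F) (w w' : κ → F) : pure u (w + w') = pure u w + pure u w' :=
  vecMulVec_add u w w'

lemma pure_sub_right (u : ι → F) (w w' : κ → F) : pure u (w - w') = pure u w - pure u w' :=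
  vecMulVec_sub u w w'

lemma pure_smul_left (c : F) (u : ι → F) (w : κ → F) : pure (c • u) w = c • pure u w :=
  smul_vecMulVec c u w

lemma pure_smul_right (c : F) (u : ι → F) (w : κ → F) : pure u (c • w) = c • pure u w :=
  by ext i j; simp [TensorMax.pure, vecMulVec_apply]; ring

lemma pure_zero_l (w : κ → F) : pure (0 : ι → F) w = (0 : Matrix ι κ F) := zero_vecMulVec w

lemma pure_neg_right (u : ι → F) (w : κ → F) : pure u (-w) = -pure u w :=
  vecMulVec_neg u w

lemma pure_neg_left (u : ι → F) (w : κ → F) : pure (-u) w = -pure u w :=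
  neg_vecMulVec u w

section
variable (hf : Cfsg.Geo.IsUnitaryForm τ f)
include hf

lemma neg_left (x v : κ → F) : f (-x) v = -f x v := map_neg (upair hf v) x

lemma neg_right (v x : κ → F) : f v (-x) = -f v x := by
  rw [hf.herm, neg_left hf, map_neg, ← hf.herm]

lemma exists_aniso_orth (h3 : 3 ≤ Fintype.card κ) (w : κ → F) :
    ∃ a, f a w = 0 ∧ f a a = 1 := by
  classical
  obtain ⟨a, ha, haa⟩ := exists_unit_orth hf {w} (by simp; omega)
  exact ⟨a, ha w (by simp), haa⟩

/-- Matrices killed by every contraction orthogonal to `w` lie in the member over `w`. -/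
lemma mem_memb_of_ctr {w : κ → F} (hw : w ≠ 0) {Z : Matrix ι κ F}
    (h : ∀ a, f a w = 0 → ctr f a Z = 0) : Z ∈ memb w :=
  mem_memb_of_forall_orth hw fun φ hφ => by
    obtain ⟨a, rfl⟩ := exists_dual_eq hf φ
    exact h a (orth_comm hf (by rwa [dotProduct_dual hf] at hφ))

lemma ctr_memb {w a : κ → F} (h : f w a = 0) {Z : Matrix ι κ F} (hZ : Z ∈ memb w) :
    ctr f a Z = 0 := by
  obtain ⟨u, rfl⟩ := mem_memb.1 hZ
  rw [ctr_pure hf, h, zero_smul]

omit [Finite F] in
lemma eq_sum_rows (X : Matrix ι κ F) : X = ∑ i, pure (Pi.single i (1 : F)) (X i) := by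
  ext i j
  simp [Matrix.sum_apply, TensorMax.pure, vecMulVec_apply, Pi.single_apply]

lemma ctr_row (w : κ → F) (X : Matrix ι κ F) (i : ι) : ctr f w X i = f (X i) w := by
  rw [ctr_apply, ← dotProduct_dual hf]
  rfl

end

section
variable (hM : Ctx τ b f M)
include hM

/-- The unipotent elements of the second factor. -/
lemma exists_q {w a : κ → F} (hw : f w w = 0) (ha : f a w = 0) {c : F}
    (hc : c + τ c = -f a a) :
    ∃ e ∈ M, ∀ X, e X = X + pure (ctr f a X) w + pure (ctr f w X) (c • w - a) := by
  have hf := hM.uf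
  have ha' := orth_comm hf ha
  set ψ := dual f a + (c + f a a) • dual f w
  set A : Matrix κ κ F := (1 + vecMulVec w ψ) * (1 + vecMulVec (-a) (dual f w))
  have hA : ∀ x, A *ᵥ x = x + f x a • w + f x w • (c • w - a) := fun x => by
    have e1 : ∀ (u v y : κ → F), (1 + vecMulVec u v) *ᵥ y = y + (y ⬝ᵥ v) • u := fun u v y => by
      rw [add_mulVec, one_mulVec, vecMulVec_mulVec, dotProduct_comm]
      simp
    simp only [A, ← mulVec_mulVec, e1, ψ, dotProduct_add, dotProduct_smul, dotProduct_dual hf,
      smul_eq_mul, hf.add_left, hf.smul_left, neg_left hf, ha]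
    module
  have hdet : A.det = 1 := by
    rw [det_mul, det_one_add_vecMulVec, det_one_add_vecMulVec, dotProduct_comm, dotProduct_comm _ (-a)]
    simp [ψ, dotProduct_dual hf, hw, ha', neg_left hf, ha]
  set g := Matrix.GeneralLinearGroup.mkOfDetNeZero A (by rw [hdet]; exact one_ne_zero)
  have hiso : Iso f g := fun x y => by
    change f (A *ᵥ x) (A *ᵥ y) = f x y
    simp only [hA, hf.add_left, add_right hf, hf.smul_left, smul_right hf, sub_left hf, sub_right hf,
      hw, ha, ha']
    rw [hf.herm w y, hf.herm a y]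
    linear_combination f x w * τ (f y w) * hc
  obtain ⟨e, he, heX⟩ := hM.right g hiso (MonoidHom.mem_ker.2 (Units.ext hdet))
  refine ⟨e, he, fun X => ?_⟩
  rw [heX]
  change X * Aᵀ = _
  ext i j
  rw [Matrix.mul_apply]
  have h := congrFun (hA (X i)) j
  simp only [mulVec, dotProduct] at h
  refine (Eq.trans ?_ (h.trans ?_))
  · exact Finset.sum_congr rfl fun l _ => mul_comm _ _
  · simp only [Matrix.add_apply, TensorMax.pure, vecMulVec_apply, Pi.add_apply, Pi.smul_apply,
      smul_eq_mul, ctr_row hf]

/-- Elements of the radical are isometries. -/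
lemma iso_of_rad [Nonempty ι] {w : κ → F} {g : Matrix ι κ F ≃ₗ[F] Matrix ι κ F} (hg : g ∈ M)
    (hww : f w w = 0) {φ : Matrix ι κ F →ₗ[F] (ι → F)}
    (hgφ : ∀ X, ctr f w X = 0 → g X = X + pure (φ X) w) :
    ∀ X Y, phi b f (g X) (g Y) = phi b f X Y := by
  obtain ⟨c, hc⟩ := hM.sim g hg
  have hf := hM.uf
  obtain ⟨a, ha, haa⟩ := exists_aniso_orth hf hM.three w
  obtain ⟨u, hu⟩ := exists_ne (0 : ι → F)
  obtain ⟨-, u', hu'⟩ := hM.ub.nondegenerate u hu
  have hk : ∀ y : ι → F, ctr f w (pure y a) = 0 := fun y => by rw [ctr_pure hf, ha, zero_smul]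
  have h := hc (pure u a) (pure u' a)
  rw [hgφ _ (hk u), hgφ _ (hk u'), phi_add_left hM.ub, phi_add_right hM.ub hf,
    phi_add_right hM.ub hf] at h
  simp only [phi_pure_pure hM.ub hf, haa, hww, ha, orth_comm hf ha, one_mul, zero_mul, add_zero] at h
  have hc1 : c = 1 := mul_right_cancel₀ hu' (by rw [one_mul]; exact h.symm)
  intro X Y
  rw [hc, hc1, one_mul]

/-- With scalar coefficients a radical element is a contraction. -/
theorem exists_covec_of_rad [Nonempty ι] (hsc : Scal f M) {w : κ → F} (hw : w ≠ 0)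
    (hww : f w w = 0) {g : Matrix ι κ F ≃ₗ[F] Matrix ι κ F} (hg : g ∈ M)
    (hgw : ∀ u, g (pure u w) = pure u w) (φ : Matrix ι κ F →ₗ[F] (ι → F))
    (hgφ : ∀ X, ctr f w X = 0 → g X = X + pure (φ X) w) :
    ∃ a, f a w = 0 ∧ ∀ X, ctr f w X = 0 → φ X = ctr f a X := by
  have hf := hM.uf
  have hb := hM.ub
  have hiso := iso_of_rad hM hg hww hgφ
  obtain ⟨e₀, -, -, he₀⟩ := exists_partner hf hw hww
  have hctrw : ∀ X, ctr f w (g X) = ctr f w X := fun X => by
    refine sub_eq_zero.1 (by_contra fun hne => ?_)
    obtain ⟨-, u, hu⟩ := hb.nondegenerate _ hne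
    refine hu ?_
    rw [sub_left hb, ← phi_pure_right hb hf, ← phi_pure_right hb hf, ← hgw, hiso, hgw, sub_self]
  have hφw : ∀ u, φ (pure u w) = 0 := fun u => by
    have h := hgφ (pure u w) (by rw [ctr_pure hf, hww, zero_smul])
    rw [hgw, left_eq_add] at h
    exact (pure_eq_zero_iff hw).1 h
  -- the values on one vector orthogonal to `w`
  have key : ∀ a, f a w = 0 → ∃ l : F, ∀ u, φ (pure u a) = l • u := by
    intro a ha
    set L : (ι → F) →ₗ[F] (ι → F) := φ ∘ₗ pureL a
    set K : (ι → F) →ₗ[F] (ι → F) :=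
      ctr f a ∘ₗ (g.toLinearMap - LinearMap.id) ∘ₗ pureL e₀
    have hKL : ∀ p u, b (K p) u = -b p (L u) := fun p u => by
      have h1 : phi b f (g (pure p e₀)) (pure u a) + phi b f (g (pure p e₀)) (pure (L u) w)
          = phi b f (pure p e₀) (pure u a) := by
        rw [← phi_add_right hb hf]
        conv_rhs => rw [← hiso]
        rw [hgφ (pure u a) (by rw [ctr_pure hf, ha, zero_smul])]
        simp [L]
      simp only [phi_pure_right hb hf, hctrw, ctr_pure hf, he₀, one_smul] at h1
      simp only [K, LinearMap.comp_apply, LinearMap.sub_apply, LinearEquiv.coe_coe, LinearMap.id_apply,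
        pureL_apply, map_sub, sub_left hb, ctr_pure hf]
      linear_combination h1
    -- a scalar coefficient for every multiple of the vector
    have hscal : ∀ l : F, ∃ d : F, ∀ p, -(l • L p) - τ l • K p = d • p := by
      intro l
      obtain ⟨c, hc⟩ := exists_trace hf (r := -f (l • a) (l • a))
        (by rw [map_neg, norm_fixed hf])
      have hla : f (l • a) w = 0 := by rw [hf.smul_left, ha, mul_zero]
      obtain ⟨q, hq, hqX⟩ := exists_q hM hww hla hc
      set θ := LinearMap.toMatrix' (-(l • L) - τ l • K)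
      have hstep : ∀ X, g (q X) = q (g X) + R f θ w (q (g X)) := by
        intro X
        set y := ctr f w X with hy
        have hqy : ctr f w (q (g X)) = y := by
          rw [hqX, map_add, map_add, ctr_pure hf, ctr_pure hf, sub_left hf, hf.smul_left, hww, hla]
          simp [hctrw, hy]
        have hP : ∀ p, g (pure p (c • w - l • a)) = pure p (c • w - l • a) + pure (-(l • L p)) w := by
          intro p
          rw [hgφ _ (by rw [ctr_pure hf, sub_left hf, hf.smul_left, hww, hla, mul_zero, sub_zero,
            zero_smul]), pure_sub_right, map_sub, pure_smul_right, map_smul, hφw, smul_zero,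
            pure_smul_right, map_smul, zero_sub]
          rfl
        have hE : ctr f a (g X) - ctr f a X = K y := by
          have h0 : ctr f w (X - pure y e₀) = 0 := by
            rw [map_sub, ctr_pure hf, he₀, one_smul, sub_self]
          have h1 := congrArg (ctr f a) (hgφ _ h0)
          rw [map_sub, map_sub, map_add, map_sub, ctr_pure hf (φ _), orth_comm hf ha, zero_smul,
            add_zero] at h1
          simp only [K, LinearMap.comp_apply, LinearMap.sub_apply, LinearEquiv.coe_coe,
            LinearMap.id_apply, pureL_apply, map_sub]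
          linear_combination (norm := abel) h1
        have hK : ctr f (l • a) (g X) = ctr f (l • a) X + τ l • K y := by
          rw [ctr_smul hf, ctr_smul hf, ← hE, smul_sub, add_sub_cancel]
        rw [R_apply, hqy, hqX, hqX, map_add, map_add, hgw, hP, hctrw, ← hy, hK]
        simp only [θ, LinearMap.toMatrix'_mulVec, LinearMap.sub_apply, LinearMap.neg_apply,
          LinearMap.smul_apply, pure_add_left, pure_sub_left]
        abel
      obtain ⟨d, hd⟩ := hsc θ w hw hww ⟨g * q * g⁻¹ * q⁻¹,
        M.mul_mem (M.mul_mem (M.mul_mem hg hq) (M.inv_mem hg)) (M.inv_mem hq), fun Y => by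
          obtain ⟨X, rfl⟩ : ∃ X, q (g X) = Y := ⟨g.symm (q.symm Y), by simp⟩
          rw [← hstep]
          simp only [LinearEquiv.mul_apply]
          change g (q (g.symm (q.symm (q (g X))))) = _
          rw [q.symm_apply_apply, g.symm_apply_apply]⟩
      refine ⟨d, fun p => ?_⟩
      have h := LinearMap.toMatrix'_mulVec (-(l • L) - τ l • K) p
      rw [show LinearMap.toMatrix' (-(l • L) - τ l • K) = d • 1 from hd, smul_mulVec,
        one_mulVec] at h
      exact h.symm
    obtain ⟨l, hl⟩ : ∃ l : F, τ l ≠ l := by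
      by_contra! h; exact hf.ne_refl (RingEquiv.ext h)
    obtain ⟨d₁, h₁⟩ := hscal 1
    obtain ⟨d, hd⟩ := hscal l
    set k := (l * d₁ - d) / (τ l - l)
    have hK : ∀ p, K p = k • p := fun p => by
      have h2 : (τ l - l) • K p = (l * d₁ - d) • p := by
        rw [sub_smul (l * d₁), mul_smul, ← h₁, ← hd, map_one]
        module
      rw [show k = (τ l - l)⁻¹ * (l * d₁ - d) from div_eq_inv_mul _ _, mul_smul, ← h2,
        inv_smul_smul₀ (sub_ne_zero.2 hl)]
    refine ⟨-τ k, fun u => sub_eq_zero.1 (by_contra fun hne => ?_)⟩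
    obtain ⟨⟨p, hp⟩, -⟩ := hb.nondegenerate _ hne
    refine hp ?_
    rw [sub_right hb, smul_right hb, map_neg, hf.involutive]
    have := hKL p u
    rw [hK, hb.smul_left] at this
    simp only [L, LinearMap.comp_apply, pureL_apply] at this
    linear_combination this
  -- the covector
  obtain ⟨u₀, hu₀⟩ := exists_ne (0 : ι → F)
  obtain ⟨χ, hχ⟩ := TensorMax.exists_dual hu₀
  let lin : (κ → F) →ₗ[F] F :=
    { toFun := fun z => φ (pure u₀ z) ⬝ᵥ χ
      map_add' := fun z z' => by rw [pure_add_right, map_add, add_dotProduct]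
      map_smul' := fun c z => by
        rw [pure_smul_right, map_smul, smul_dotProduct, RingHom.id_apply] }
  obtain ⟨a, ha⟩ := exists_upair_eq hf lin
  have hla : ∀ z, f z a = φ (pure u₀ z) ⬝ᵥ χ := fun z => LinearMap.congr_fun ha z
  have hval : ∀ z, f z w = 0 → ∀ u, φ (pure u z) = f z a • u := by
    intro z hz u
    obtain ⟨l, hl⟩ := key z hz
    rw [hla, hl, hl, smul_dotProduct, hχ, smul_eq_mul, mul_one]
  refine ⟨a, orth_comm hf ?_, fun X hX => ?_⟩
  · rw [hla, hφw, zero_dotProduct]
  conv_lhs => rw [eq_sum_rows hf X, map_sum]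
  rw [Finset.sum_congr rfl fun i _ => hval (X i) (by rw [← ctr_row hf, hX]; rfl) (Pi.single i 1),
    show ctr f a X = fun i => f (X i) a from funext fun i => ctr_row hf a X i]
  exact (pi_eq_sum_univ' _).symm

end

end CfsgLib.WreathForm14
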